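import Mathlib
import Cfsg.Prelude.Def_LieClassical

/-!
Tools for embedding the unitary group `GU_m(q)` (over the field with `q ^ 2` elements) in
classical groups over the field with `q` elements: restriction of scalars, the trace forms,
and matrix representations in a basis.
-/

set_option autoImplicit false

namespace Cfsg.Agent.Lib.Helper52

open Module

/-- A field with `q` elements embeds in a field with `q ^ 2` elements. -/
theorem exists_ringHom_of_card_sq {K F : Type*} [Field K] [Fintype K] [Field F] [Fintype F] {q : ℕ}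
    (hK : Fintype.card K = q ^ 2) (hF : Fintype.card F = q) : Nonempty (F →+* K) := by
  obtain ⟨p, hp⟩ := CharP.exists F
  obtain ⟨n, hpp, hn⟩ := FiniteField.card F p
  have : Fact p.Prime := ⟨hpp⟩
  have hKp : CharP K p := by
    have h1 : ((Fintype.card K : ℕ) : K) = 0 := Nat.cast_card_eq_zero K
    rw [hK, ← hF, hn] at h1
    have h2 : ((p : ℕ) : K) = 0 := by
      have : ((p : K) ^ (n : ℕ)) ^ 2 = 0 := by exact_mod_cast h1
      exact pow_eq_zero_iff (by positivity) |>.1 (pow_eq_zero_iff (by norm_num) |>.1 this)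
    exact (CharP.charP_iff_prime_eq_zero hpp).2 h2
  let _ : Algebra (ZMod p) F := ZMod.algebra F p
  let _ : Algebra (ZMod p) K := ZMod.algebra K p
  have h1 : p ^ finrank (ZMod p) F = q := by rw [FiniteField.pow_finrank_eq_card, hF]
  have h2 : p ^ finrank (ZMod p) K = q ^ 2 := by rw [FiniteField.pow_finrank_eq_card, hK]
  have h3 : finrank (ZMod p) K = finrank (ZMod p) F * 2 := by
    rw [← h1, ← pow_mul] at h2
    exact Nat.pow_right_injective hpp.two_le h2
  obtain ⟨f⟩ := FiniteField.nonempty_algHom_of_finrank_dvd (F := ZMod p) (K := F) (L := K)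
    (h3 ▸ dvd_mul_right _ _)
  exact ⟨f.toRingHom⟩

/-- Data attached to a quadratic extension `K / F` of finite fields: the Frobenius `σ`, and
elements `θ`, `ε` with `σ ε = -ε` and `ε (θ - σ θ) = 1`. -/
theorem exists_quad_data {F K : Type*} [Field F] [Fintype F] [Field K] [Fintype K] [Algebra F K]
    (h2 : finrank F K = 2) :
    ∃ (σ : K ≃ₐ[F] K) (θ ε : K),
      (∀ x, σ x = x ^ Fintype.card F) ∧ (∀ x, σ (σ x) = x) ∧
      (∀ x, algebraMap F K (Algebra.trace F K x) = x + σ x) ∧
      (∀ x, algebraMap F K (Algebra.norm F x) = x * σ x) ∧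
      σ ε = -ε ∧ ε * (θ - σ θ) = 1 := by
  classical
  set σ : K ≃ₐ[F] K := FiniteField.frobeniusAlgEquivOfAlgebraic F K with hσdef
  have hσ : ∀ x, σ x = x ^ Fintype.card F := fun x => rfl
  have hcard : Fintype.card K = Fintype.card F ^ 2 := by
    rw [Module.card_eq_pow_finrank (K := F) (V := K), h2]
  have hσσ : ∀ x, σ (σ x) = x := by
    intro x
    rw [hσ, hσ, ← pow_mul, ← pow_two, ← hcard, FiniteField.pow_card]
  have hord : orderOf σ = 2 := by
    rw [hσdef, FiniteField.orderOf_frobeniusAlgEquivOfAlgebraic, h2]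
  have hne : σ ≠ 1 := by
    intro h
    rw [h, orderOf_one] at hord
    omega
  obtain ⟨θ, hθ⟩ : ∃ θ, σ θ ≠ θ := by
    by_contra hcon
    push Not at hcon
    exact hne (AlgEquiv.ext hcon)
  have hsub : θ - σ θ ≠ 0 := sub_ne_zero.2 (Ne.symm hθ)
  refine ⟨σ, θ, (θ - σ θ)⁻¹, hσ, hσσ, ?_, ?_, ?_, inv_mul_cancel₀ hsub⟩
  · intro x
    rw [FiniteField.algebraMap_trace_eq_sum_pow, h2, Finset.sum_range_succ, Finset.sum_range_one,
      pow_zero, pow_one, pow_one, hσ, Nat.card_eq_fintype_card]
  · intro x
    rw [FiniteField.algebraMap_norm_eq_prod_pow, h2, Finset.prod_range_succ, Finset.prod_range_one,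
      pow_zero, pow_one, pow_one, hσ, Nat.card_eq_fintype_card]
  · rw [map_inv₀, map_sub, hσσ, ← neg_sub, neg_inv]

/-- A family whose Gram matrix with respect to some bilinear form is invertible is linearly
independent. -/
theorem linearIndependent_of_gram {F V ι : Type*} [Field F] [AddCommGroup V] [Module F V]
    [Fintype ι] [DecidableEq ι] (B : LinearMap.BilinForm F V) (b : ι → V) (M : Matrix ι ι F)
    (hM : ∀ s t, B (b s) (b t) = M s t) (hdet : M.det ≠ 0) : LinearIndependent F b := by
  rw [Fintype.linearIndependent_iff]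
  intro c hc
  have h1 : Matrix.vecMul c M = 0 := by
    funext t
    have h2 : B (∑ s, c s • b s) (b t) = 0 := by rw [hc]; simp
    rw [map_sum, LinearMap.sum_apply] at h2
    simp only [map_smul, LinearMap.smul_apply, hM, smul_eq_mul] at h2
    simpa [Matrix.vecMul, dotProduct] using h2
  have h3 := Matrix.eq_zero_of_vecMul_eq_zero hdet h1
  intro i
  exact congrFun h3 i

/-- The `F`-linear action on `ι → K` of a group of invertible matrices over `K`. -/
noncomputable def glRep (F : Type*) {K : Type*} [Field F] [Field K] [Algebra F K] {ι : Type*}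
    [Fintype ι] [DecidableEq ι] (H : Subgroup (Matrix.GeneralLinearGroup ι K)) :
    H →* ((ι → K) →ₗ[F] (ι → K)) where
  toFun g := (Matrix.mulVecLin ((g : Matrix.GeneralLinearGroup ι K) : Matrix ι ι K)).restrictScalars F
  map_one' := by
    ext v
    simp
  map_mul' g h := by
    apply LinearMap.ext
    intro v
    simp [Matrix.mulVec_mulVec]

theorem glRep_apply (F : Type*) {K : Type*} [Field F] [Field K] [Algebra F K] {ι : Type*}
    [Fintype ι] [DecidableEq ι] (H : Subgroup (Matrix.GeneralLinearGroup ι K)) (g : H)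
    (v : ι → K) :
    glRep F H g v = Matrix.mulVec ((g : Matrix.GeneralLinearGroup ι K) : Matrix ι ι K) v := rfl

theorem glRep_injective (F : Type*) {K : Type*} [Field F] [Field K] [Algebra F K] {ι : Type*}
    [Fintype ι] [DecidableEq ι] (H : Subgroup (Matrix.GeneralLinearGroup ι K)) :
    Function.Injective (glRep F H) := by
  intro g h hgh
  apply Subtype.ext
  apply Units.ext
  ext i j
  have := congrArg (fun f => f (Pi.single j 1) i) hgh
  simpa [glRep_apply] using this

/-- A faithful linear action preserving an alternating form with standard Gram matrix `J` gives an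
embedding into the symplectic group. -/
theorem exists_hom_symplectic {F V G l : Type*} [Field F] [AddCommGroup V] [Module F V] [Group G]
    [Fintype l] [DecidableEq l] (b : Basis (l ⊕ l) F V) (ρ : G →* (V →ₗ[F] V))
    (hρ : Function.Injective ρ) (ω : LinearMap.BilinForm F V)
    (hω : ∀ s t, ω (b s) (b t) = Matrix.J l F s t)
    (hinv : ∀ g u v, ω (ρ g u) (ρ g v) = ω u v) :
    ∃ φ : G →* ↥(Matrix.symplecticGroup l F), Function.Injective φ := by
  have hmem : ∀ g, (LinearMap.toMatrixAlgEquiv b) (ρ g) ∈ Matrix.symplecticGroup l F := by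
    intro g
    rw [SymplecticGroup.mem_iff']
    have h1 : LinearMap.BilinForm.comp ω (ρ g) (ρ g) = ω := by
      apply LinearMap.ext₂
      intro u v
      simp [hinv]
    have h2 := LinearMap.BilinForm.toMatrix_comp b b ω (ρ g) (ρ g)
    rw [h1] at h2
    have h3 : LinearMap.BilinForm.toMatrix b ω = Matrix.J l F := by
      ext s t
      rw [LinearMap.BilinForm.toMatrix_apply, hω]
    rw [h3] at h2
    exact h2.symm
  refine ⟨MonoidHom.codRestrict
    ((LinearMap.toMatrixAlgEquiv b : (V →ₗ[F] V) →* Matrix (l ⊕ l) (l ⊕ l) F).comp ρ)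
    (Matrix.symplecticGroup l F) hmem, ?_⟩
  intro g h hgh
  apply hρ
  have := congrArg Subtype.val hgh
  exact (LinearMap.toMatrixAlgEquiv b).injective this

/-- A faithful linear action preserving a function `Q`, which in the coordinates of a basis `b`
reads `Q'`, gives an embedding into the isometry group of `Q'`. -/
theorem exists_hom_isometryGroup {F V G : Type*} {ι : Type} [Field F] [AddCommGroup V]
    [Module F V] [Group G] [Fintype ι] [DecidableEq ι] (b : Basis ι F V) (ρ : G →* (V →ₗ[F] V))
    (hρ : Function.Injective ρ) (Q' : (ι → F) → F) (Q : V → F)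
    (hQ : ∀ v, Q v = Q' (b.repr v)) (hinv : ∀ g v, Q (ρ g v) = Q v) :
    ∃ φ : G →* ↥(Cfsg.isometryGroup F Q'), Function.Injective φ := by
  let φ₀ : G →* Matrix.GeneralLinearGroup ι F :=
    (Units.map ((LinearMap.toMatrixAlgEquiv b : (V →ₗ[F] V) →* Matrix ι ι F).comp ρ)).comp
      (toUnits (G := G)).toMonoidHom
  have hφ₀ : ∀ g, ((φ₀ g : Matrix.GeneralLinearGroup ι F) : Matrix ι ι F) =
      LinearMap.toMatrix b b (ρ g) := fun g => rfl
  have hmem : ∀ g, φ₀ g ∈ Cfsg.isometryGroup F Q' := by
    intro g u v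
    show Q' (((φ₀ g : Matrix.GeneralLinearGroup ι F) : Matrix ι ι F).mulVec u) = Q' u
    rw [hφ₀]
    have hu : u = b.repr (b.equivFun.symm u) := by
      rw [← Basis.equivFun_apply, LinearEquiv.apply_symm_apply]
    rw [hu, LinearMap.toMatrix_mulVec_repr, ← hQ, ← hQ, hinv]
  refine ⟨MonoidHom.codRestrict φ₀ (Cfsg.isometryGroup F Q') hmem, ?_⟩
  intro g h hgh
  apply hρ
  have h1 := congrArg (fun x => ((x : Matrix.GeneralLinearGroup ι F) : Matrix ι ι F))
    (congrArg Subtype.val hgh)
  simp only [MonoidHom.codRestrict_apply, hφ₀] at h1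
  exact (LinearMap.toMatrix b b).injective h1


/-- The `F`-bilinear form `(u, v) ↦ Tr (c * Σ u_i σ(v_i))` on `ι → K`. -/
noncomputable def trForm {F K ι : Type*} [Field F] [Field K] [Algebra F K] [Fintype ι]
    (σ : K ≃ₐ[F] K) (c : K) : LinearMap.BilinForm F (ι → K) :=
  LinearMap.mk₂ F (fun u v => Algebra.trace F K (c * ∑ i, u i * σ (v i)))
    (fun u u' v => by
      simp only [Pi.add_apply, add_mul, Finset.sum_add_distrib, mul_add, map_add])
    (fun a u v => by
      simp only [Pi.smul_apply, smul_mul_assoc, ← Finset.smul_sum, mul_smul_comm, map_smul])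
    (fun u v v' => by
      simp only [Pi.add_apply, map_add, mul_add, Finset.sum_add_distrib])
    (fun a u v => by
      simp only [Pi.smul_apply, map_smul, mul_smul_comm, ← Finset.smul_sum])

theorem trForm_apply {F K ι : Type*} [Field F] [Field K] [Algebra F K] [Fintype ι]
    (σ : K ≃ₐ[F] K) (c : K) (u v : ι → K) :
    trForm σ c u v = Algebra.trace F K (c * ∑ i, u i * σ (v i)) := rfl

theorem herm_single {F K ι : Type*} [Field F] [Field K] [Algebra F K] [Fintype ι] [DecidableEq ι]
    (σ : K ≃ₐ[F] K) (i j : ι) (x y : K) :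
    ∑ k, (Pi.single i x : ι → K) k * σ ((Pi.single j y : ι → K) k) =
      if i = j then x * σ y else 0 := by
  rw [Finset.sum_eq_single i]
  · by_cases h : i = j
    · subst h
      simp
    · simp [h]
  · intro k _ hk
    simp [Pi.single_eq_of_ne hk]
  · intro h
    exact absurd (Finset.mem_univ i) h

/-- Elements of the unitary group preserve the Hermitian form written with the Frobenius. -/
theorem gu_herm {F K : Type*} [Field F] [Fintype F] [Field K] [Algebra F K]
    (σ : K ≃ₐ[F] K) (hσ : ∀ x, σ x = x ^ Fintype.card F) {m : ℕ}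
    (g : Cfsg.GU m K (Fintype.card F)) (u v : Fin m → K) :
    ∑ i, (glRep F (Cfsg.GU m K (Fintype.card F)) g u) i *
        σ ((glRep F (Cfsg.GU m K (Fintype.card F)) g v) i) = ∑ i, u i * σ (v i) := by
  have h := g.2 u v
  simp only [Cfsg.hermForm] at h
  simp only [hσ, glRep_apply]
  exact h

end Cfsg.Agent.Lib.Helper52
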