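import Mathlib
import Cfsg.Agent.Lib.Helper52.OutDefs
import Cfsg.Agent.Lib.Helper51.HypPairs
import Cfsg.Agent.Lib.Helper54.OrthLag
import Cfsg.Prelude.Def_LieTypeDatum

/-!
# Lang–Steinberg for the even-dimensional orthogonal groups: definitions and basic API

* `sigSub σ U`: the coordinatewise image of a subspace under a field automorphism.
* `IsLag m Q U`: `U` is a totally singular subspace of dimension `m`.
* `IsHyp m Q`: `Q` is isometric to the hyperbolic form `quadFormPlus m F`.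
* `SigInv σ Q`: `Q (σ v) = σ (Q v)`.
* `IsSplit m σ Q`, `IsEll k σ Q`: the two rational normal forms of a `σ`-invariant form.
-/

set_option autoImplicit false
set_option linter.unusedSectionVars false

namespace Cfsg.Agent.Lib.Helper52.LP

open Module QuadraticMap Matrix
open Cfsg Cfsg.Agent.Lib.Helper54

variable {ι : Type} [Fintype ι] [DecidableEq ι] {F : Type*} [Field F]

/-- The coordinatewise image of a subspace under a field automorphism. -/
def sigSub (σ : F ≃+* F) (U : Submodule F (ι → F)) : Submodule F (ι → F) where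
  carrier := {v | (fun i => σ.symm (v i)) ∈ U}
  add_mem' := by
    intro a b ha hb
    have e : (fun i => σ.symm ((a + b) i)) = (fun i => σ.symm (a i)) + (fun i => σ.symm (b i)) := by
      funext i
      simp
    show (fun i => σ.symm ((a + b) i)) ∈ U
    rw [e]
    exact U.add_mem ha hb
  zero_mem' := by
    have e : (fun i => σ.symm ((0 : ι → F) i)) = (0 : ι → F) := by
      funext i
      simp
    show (fun i => σ.symm ((0 : ι → F) i)) ∈ U
    rw [e]
    exact U.zero_mem
  smul_mem' := by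
    intro c a ha
    have e : (fun i => σ.symm ((c • a) i)) = σ.symm c • (fun i => σ.symm (a i)) := by
      funext i
      simp
    show (fun i => σ.symm ((c • a) i)) ∈ U
    rw [e]
    exact U.smul_mem _ ha

theorem mem_sigSub (σ : F ≃+* F) (U : Submodule F (ι → F)) (v : ι → F) :
    v ∈ sigSub σ U ↔ (fun i => σ.symm (v i)) ∈ U := Iff.rfl

theorem sig_mem_sigSub (σ : F ≃+* F) (U : Submodule F (ι → F)) (v : ι → F) :
    (fun i => σ (v i)) ∈ sigSub σ U ↔ v ∈ U := by
  rw [mem_sigSub]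
  have e : (fun i => σ.symm (σ (v i))) = v := by
    funext i
    simp
  rw [e]

theorem exists_of_mem_sigSub (σ : F ≃+* F) (U : Submodule F (ι → F)) (v : ι → F)
    (hv : v ∈ sigSub σ U) : ∃ u ∈ U, v = fun i => σ (u i) :=
  ⟨fun i => σ.symm (v i), hv, by funext i; simp⟩

theorem sigSub_mono (σ : F ≃+* F) {U W : Submodule F (ι → F)} (h : U ≤ W) :
    sigSub σ U ≤ sigSub σ W := fun _ hv => h hv

theorem sigSub_inf (σ : F ≃+* F) (U W : Submodule F (ι → F)) :
    sigSub σ (U ⊓ W) = sigSub σ U ⊓ sigSub σ W := by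
  ext v
  simp only [mem_sigSub, Submodule.mem_inf]

theorem sigSub_symm_sigSub (σ : F ≃+* F) (U : Submodule F (ι → F)) :
    sigSub σ.symm (sigSub σ U) = U := by
  ext v
  rw [mem_sigSub, mem_sigSub]
  have e : (fun i => σ.symm (σ.symm.symm (v i))) = v := by
    funext i
    simp
  rw [e]

theorem sigSub_sigSub_symm (σ : F ≃+* F) (U : Submodule F (ι → F)) :
    sigSub σ (sigSub σ.symm U) = U := by
  ext v
  rw [mem_sigSub, mem_sigSub]
  have e : (fun i => σ.symm.symm (σ.symm (v i))) = v := by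
    funext i
    simp
  rw [e]

theorem sigSub_refl (U : Submodule F (ι → F)) : sigSub (RingEquiv.refl F) U = U := by
  ext v
  rw [mem_sigSub]
  rfl

/-- the additive equivalence `U ≃ σ U` -/
def sigEquiv (σ : F ≃+* F) (U : Submodule F (ι → F)) : ↥U ≃+ ↥(sigSub σ U) where
  toFun u := ⟨fun i => σ (u.1 i), (sig_mem_sigSub σ U u.1).mpr u.2⟩
  invFun v := ⟨fun i => σ.symm (v.1 i), v.2⟩
  left_inv u := by
    apply Subtype.ext
    funext i
    simp
  right_inv v := by
    apply Subtype.ext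
    funext i
    simp
  map_add' a b := by
    apply Subtype.ext
    funext i
    simp

theorem finrank_sigSub (σ : F ≃+* F) (U : Submodule F (ι → F)) :
    finrank F ↥(sigSub σ U) = finrank F ↥U := by
  have h := rank_eq_of_equiv_equiv (R := F) (R' := F) (M := ↥U) (M₁ := ↥(sigSub σ U))
    (fun x => σ x) (sigEquiv σ U) σ.bijective (by
      intro r u
      apply Subtype.ext
      funext i
      simp [sigEquiv])
  unfold Module.finrank
  rw [h]

theorem sigSub_imageSubmodule (σ : F ≃+* F) (M : Matrix ι ι F) (U : Submodule F (ι → F)) :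
    sigSub σ (imageSubmodule M U) = imageSubmodule (M.map σ) (sigSub σ U) := by
  have key : ∀ (τ : F ≃+* F) (N : Matrix ι ι F) (W : Submodule F (ι → F)),
      sigSub τ (imageSubmodule N W) ≤ imageSubmodule (N.map τ) (sigSub τ W) := by
    intro τ N W v hv
    rw [mem_sigSub, mem_imageSubmodule] at hv
    obtain ⟨x, hx, hxv⟩ := hv
    rw [mem_imageSubmodule]
    refine ⟨fun i => τ (x i), (sig_mem_sigSub τ W x).mpr hx, ?_⟩
    funext i
    have h1 := congrFun hxv i
    have h2 : v i = τ ((N *ᵥ x) i) := by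
      rw [h1]
      simp
    rw [h2]
    simp only [Matrix.mulVec, dotProduct, Matrix.map_apply, map_sum, map_mul]
  apply le_antisymm (key σ M U)
  intro v hv
  have h1 : sigSub σ.symm (imageSubmodule (M.map σ) (sigSub σ U))
      ≤ imageSubmodule ((M.map σ).map σ.symm) (sigSub σ.symm (sigSub σ U)) := key σ.symm _ _
  have e : (M.map σ).map σ.symm = M := by
    ext i j
    simp
  rw [e, sigSub_symm_sigSub] at h1
  have h2 := sigSub_mono σ h1
  rw [sigSub_sigSub_symm] at h2
  exact h2 hv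

theorem imageSubmodule_smul (c : F) (hc : c ≠ 0) (M : Matrix ι ι F) (U : Submodule F (ι → F)) :
    imageSubmodule (c • M) U = imageSubmodule M U := by
  ext y
  rw [mem_imageSubmodule, mem_imageSubmodule]
  constructor
  · rintro ⟨x, hx, rfl⟩
    exact ⟨c • x, U.smul_mem c hx, by rw [Matrix.mulVec_smul, Matrix.smul_mulVec]⟩
  · rintro ⟨x, hx, rfl⟩
    refine ⟨c⁻¹ • x, U.smul_mem _ hx, ?_⟩
    rw [Matrix.mulVec_smul, Matrix.smul_mulVec, smul_smul, inv_mul_cancel₀ hc, one_smul]

theorem imageSubmodule_mono (M : Matrix ι ι F) {U W : Submodule F (ι → F)} (h : U ≤ W) :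
    imageSubmodule M U ≤ imageSubmodule M W := Submodule.map_mono h

theorem imageSubmodule_inf (g : GL ι F) (U W : Submodule F (ι → F)) :
    imageSubmodule (g : Matrix ι ι F) (U ⊓ W)
      = imageSubmodule (g : Matrix ι ι F) U ⊓ imageSubmodule (g : Matrix ι ι F) W := by
  apply le_antisymm
  · exact le_inf (imageSubmodule_mono _ inf_le_left) (imageSubmodule_mono _ inf_le_right)
  · intro y hy
    rw [Submodule.mem_inf, mem_imageSubmodule, mem_imageSubmodule] at hy
    obtain ⟨⟨x, hx, hxy⟩, ⟨x', hx', hxy'⟩⟩ := hy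
    have hxx : x = x' := by
      have h1 : (g : Matrix ι ι F) *ᵥ x = (g : Matrix ι ι F) *ᵥ x' := by rw [hxy, hxy']
      have h2 := congrArg (fun z => ((g⁻¹ : GL ι F) : Matrix ι ι F) *ᵥ z) h1
      simp only [Matrix.mulVec_mulVec] at h2
      rw [Units.inv_mul, Matrix.one_mulVec, Matrix.one_mulVec] at h2
      exact h2
    rw [mem_imageSubmodule]
    exact ⟨x, ⟨hx, hxx ▸ hx'⟩, hxy⟩

/-- `U` is a totally singular subspace of dimension `m`. -/
def IsLag (m : ℕ) (Q : QuadraticForm F (ι → F)) (U : Submodule F (ι → F)) : Prop :=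
  finrank F ↥U = m ∧ ∀ w ∈ U, Q w = 0

/-- `Q` is isometric to the hyperbolic form. -/
def IsHyp (m : ℕ) (Q : QuadraticForm F (ι → F)) : Prop :=
  ∃ e : (Fin m ⊕ Fin m → F) ≃ₗ[F] (ι → F), ∀ x, Q (e x) = Cfsg.quadFormPlus m F x

/-- `Q` is compatible with the field automorphism `σ` applied to coordinates. -/
def SigInv (σ : F ≃+* F) (Q : QuadraticForm F (ι → F)) : Prop :=
  ∀ v : ι → F, Q (fun i => σ (v i)) = σ (Q v)

/-- The `σ`-invariant form `Q1` is rationally similar to the hyperbolic form. -/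
def IsSplit (m : ℕ) (σ : F ≃+* F) (Q1 : QuadraticForm F (ι → F)) : Prop :=
  ∃ (L : (Fin m ⊕ Fin m → F) ≃ₗ[F] (ι → F)) (c : Fˣ),
    (∀ v, L (fun i => σ (v i)) = fun i => σ (L v i)) ∧
    ∀ v, Q1 (L v) = (c : F) * Cfsg.quadFormPlus m F v

/-- The `σ`-invariant form `Q1` is rationally similar to an elliptic form (binary part
`z₁² + z₁ z₂ + ζ z₂²` with `ζ` rational and no rational root of `t² + t + ζ`). -/
def IsEll (k : ℕ) (σ : F ≃+* F) (Q1 : QuadraticForm F (ι → F)) : Prop :=
  ∃ (L : ((Fin k ⊕ Fin k) ⊕ Fin 2 → F) ≃ₗ[F] (ι → F)) (c : Fˣ) (ζ : F),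
    (∀ v, L (fun i => σ (v i)) = fun i => σ (L v i)) ∧ σ ζ = ζ ∧
    (∀ t : F, σ t = t → t ^ 2 + t + ζ ≠ 0) ∧
    ∀ v, Q1 (L v) = (c : F) * Cfsg.quadFormMinus k F 1 ζ v

theorem IsLag.sigSub {m : ℕ} {Q : QuadraticForm F (ι → F)} {σ : F ≃+* F} (hσ : SigInv σ Q)
    {U : Submodule F (ι → F)} (hU : IsLag m Q U) : IsLag m Q (sigSub σ U) := by
  refine ⟨by rw [finrank_sigSub]; exact hU.1, ?_⟩
  intro w hw
  obtain ⟨u, hu, rfl⟩ := exists_of_mem_sigSub σ U w hw
  rw [hσ u, hU.2 u hu, map_zero]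

theorem IsLag.image {m : ℕ} {Q : QuadraticForm F (ι → F)} {g : GL ι F}
    (hg : g ∈ Cfsg.Geo.quadSimilarityGroup (F := F) ⇑Q)
    {U : Submodule F (ι → F)} (hU : IsLag m Q U) :
    IsLag m Q (imageSubmodule (g : Matrix ι ι F) U) := by
  refine ⟨by rw [finrank_imageSubmodule]; exact hU.1, ?_⟩
  intro w hw
  obtain ⟨u, hu, rfl⟩ := (mem_imageSubmodule _ _ _).mp hw
  obtain ⟨c, hc⟩ := hg
  rw [hc u, hU.2 u hu, mul_zero]

end Cfsg.Agent.Lib.Helper52.LP
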