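import Mathlib
import Cfsg.Agent.Lib.Helper65.MonoDefs

/-!
S5634 piece MONO-CASEZ (for helper65): the final contradiction from a non-monomial element of
`X` with a zero entry (note 1316, CASEZ).
-/

set_option autoImplicit false
set_option linter.unusedSectionVars false

namespace Cfsg.Agent.Lib.Helper65.Mono

open Matrix

section
variable {F : Type*} [Field F] {κ : Type} [Fintype κ] [DecidableEq κ]

theorem caseZ_single (A : Matrix κ κ F) (k : κ) (α : F) (i : κ) :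
    (A *ᵥ Pi.single k α) i = A i k * α := by
  simp [Matrix.mulVec, dotProduct, Pi.single_apply]

theorem caseZ_two_out (hn : 7 ≤ Fintype.card κ) (S : Finset κ) (hS : S.card ≤ 3) :
    ∃ a b, a ≠ b ∧ a ∉ S ∧ b ∉ S := by
  have h1 : 1 < Sᶜ.card := by
    have := Finset.card_add_card_compl S
    omega
  obtain ⟨a, ha, b, hb, hab⟩ := Finset.one_lt_card.mp h1
  exact ⟨a, b, hab, Finset.mem_compl.mp ha, Finset.mem_compl.mp hb⟩

/-- (Z-a) in the form used: if `c` has two nonzero and two zero coordinates, then `x₀ c` does not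
have exactly one zero. -/
theorem caseZ_key {X : Subgroup (GL κ F)} (hX : MonIn X) (h3 : P3col X)
    (hT : TransP κ F) (x₀ : GL κ F) (hx₀ : x₀ ∈ X) (hnm : ¬ IsMono (x₀ : Matrix κ κ F))
    (i₀ k₀ : κ) (h0 : (x₀ : Matrix κ κ F) i₀ k₀ = 0)
    (c : κ → F) (k l a b : κ) (hkl : k ≠ l) (hk : c k ≠ 0) (hl : c l ≠ 0) (hab : a ≠ b)
    (ha : c a = 0) (hb : c b = 0) (p : κ) (hp : ((x₀ : Matrix κ κ F) *ᵥ c) p = 0) :
    ∃ i, i ≠ p ∧ ((x₀ : Matrix κ κ F) *ᵥ c) i = 0 := by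
  by_contra hcon
  push Not at hcon
  have hu : ∀ i, i ≠ i₀ → (x₀ : Matrix κ κ F) i k₀ ≠ 0 := by
    intro i hi hu
    exact h3 x₀ hx₀ hnm k₀ i i₀ hi hu h0
  obtain ⟨m, hdet, hmono, hmu⟩ := hT (fun i => (x₀ : Matrix κ κ F) i k₀)
    ((x₀ : Matrix κ κ F) *ᵥ c) i₀ p h0 hu hp hcon
  have hm : m ∈ X := hX m hdet hmono
  have hy : x₀⁻¹ * m * x₀ ∈ X := X.mul_mem (X.mul_mem (X.inv_mem hx₀) hm) hx₀
  have hcol : ∀ i, ((x₀⁻¹ * m * x₀ : GL κ F) : Matrix κ κ F) i k₀ = c i := by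
    intro i
    have h1 : ((x₀⁻¹ * m * x₀ : GL κ F) : Matrix κ κ F) i k₀ =
        (((x₀⁻¹ : GL κ F) : Matrix κ κ F) *ᵥ ((m : Matrix κ κ F) *ᵥ
          (fun j => (x₀ : Matrix κ κ F) j k₀))) i := by
      rw [Units.val_mul, Units.val_mul, Matrix.mulVec_mulVec]
      rfl
    rw [h1, hmu, Matrix.mulVec_mulVec, ← Units.val_mul, inv_mul_cancel, Units.val_one,
      Matrix.one_mulVec]
  by_cases hym : IsMono ((x₀⁻¹ * m * x₀ : GL κ F) : Matrix κ κ F)
  · obtain ⟨i, hi⟩ := hym k₀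
    have e1 := hi k (by rw [hcol]; exact hk)
    have e2 := hi l (by rw [hcol]; exact hl)
    exact hkl (e1.trans e2.symm)
  · exact h3 _ hy hym k₀ a b hab (by rw [hcol]; exact ha) (by rw [hcol]; exact hb)

/-- every value of the ratio of two columns is attained twice -/
theorem caseZ_twice (hn : 7 ≤ Fintype.card κ)
    {X : Subgroup (GL κ F)} (hX : MonIn X) (h3 : P3col X) (h3r : P3row X)
    (hT : TransP κ F) (x₀ : GL κ F) (hx₀ : x₀ ∈ X) (hnm : ¬ IsMono (x₀ : Matrix κ κ F))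
    (i₀ k₀ : κ) (h0 : (x₀ : Matrix κ κ F) i₀ k₀ = 0)
    (k l : κ) (hkl : k ≠ l) (i : κ) (hik : (x₀ : Matrix κ κ F) i k ≠ 0)
    (hil : (x₀ : Matrix κ κ F) i l ≠ 0) :
    ∃ j, j ≠ i ∧ (x₀ : Matrix κ κ F) j k ≠ 0 ∧ (x₀ : Matrix κ κ F) j l ≠ 0 ∧
      (x₀ : Matrix κ κ F) i l * (x₀ : Matrix κ κ F) j k =
        (x₀ : Matrix κ κ F) i k * (x₀ : Matrix κ κ F) j l := by
  obtain ⟨a, b, hab, ha, hb⟩ := caseZ_two_out hn {k, l} (Finset.card_le_two.trans (by norm_num))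
  simp only [Finset.mem_insert, Finset.mem_singleton, not_or] at ha hb
  obtain ⟨θ, hθ⟩ : ∃ θ : F, θ = -((x₀ : Matrix κ κ F) i k / (x₀ : Matrix κ κ F) i l) := ⟨_, rfl⟩
  have hθ0 : θ ≠ 0 := by
    rw [hθ]
    exact neg_ne_zero.mpr (div_ne_zero hik hil)
  have hval : ∀ j, ((x₀ : Matrix κ κ F) *ᵥ (Pi.single k 1 + Pi.single l θ)) j =
      (x₀ : Matrix κ κ F) j k + (x₀ : Matrix κ κ F) j l * θ := by
    intro j
    rw [Matrix.mulVec_add, Pi.add_apply, caseZ_single, caseZ_single, mul_one]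
  obtain ⟨j, hji, hj⟩ := caseZ_key hX h3 hT x₀ hx₀ hnm i₀ k₀ h0
    (Pi.single k 1 + Pi.single l θ) k l a b hkl
    (by simp [Pi.single_apply, hkl]) (by simp [Pi.single_apply, hkl.symm, hθ0]) hab
    (by simp [Pi.single_apply, ha.1, ha.2]) (by simp [Pi.single_apply, hb.1, hb.2]) i
    (by rw [hval, hθ]; field_simp; ring)
  rw [hval, hθ] at hj
  have heq : (x₀ : Matrix κ κ F) i l * (x₀ : Matrix κ κ F) j k =
      (x₀ : Matrix κ κ F) i k * (x₀ : Matrix κ κ F) j l := by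
    field_simp at hj
    linear_combination hj
  have hrow := h3r x₀ hx₀ hnm
  refine ⟨j, hji, ?_, ?_, heq⟩
  · intro hjk
    rw [hjk, mul_zero] at heq
    rcases mul_eq_zero.mp heq.symm with h | h
    · exact hik h
    · exact hrow j k l hkl hjk h
  · intro hjl
    rw [hjl, mul_zero] at heq
    rcases mul_eq_zero.mp heq with h | h
    · exact hil h
    · exact hrow j k l hkl h hjl

/-- two columns are proportional on the rows where both are nonzero -/
theorem caseZ_prop (hn : 7 ≤ Fintype.card κ)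
    {X : Subgroup (GL κ F)} (hX : MonIn X) (h3 : P3col X) (h3r : P3row X) (hstar : P4starP X)
    (hT : TransP κ F) (x₀ : GL κ F) (hx₀ : x₀ ∈ X) (hnm : ¬ IsMono (x₀ : Matrix κ κ F))
    (i₀ k₀ : κ) (h0 : (x₀ : Matrix κ κ F) i₀ k₀ = 0)
    (k l : κ) (hkl : k ≠ l) (i i' : κ) (hik : (x₀ : Matrix κ κ F) i k ≠ 0)
    (hil : (x₀ : Matrix κ κ F) i l ≠ 0) (hi'k : (x₀ : Matrix κ κ F) i' k ≠ 0)
    (hi'l : (x₀ : Matrix κ κ F) i' l ≠ 0) :
    (x₀ : Matrix κ κ F) i' l * (x₀ : Matrix κ κ F) i k =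
      (x₀ : Matrix κ κ F) i' k * (x₀ : Matrix κ κ F) i l := by
  obtain ⟨j, hji, hjk, hjl, heq⟩ :=
    caseZ_twice hn hX h3 h3r hT x₀ hx₀ hnm i₀ k₀ h0 k l hkl i hik hil
  exact hstar x₀ hx₀ hnm k l i j hkl (Ne.symm hji) hik hil hjk hjl heq i' hi'k hi'l

/-- at most one column has no zero -/
theorem caseZ_nozero (hn : 7 ≤ Fintype.card κ)
    {X : Subgroup (GL κ F)} (hX : MonIn X) (h3 : P3col X) (h3r : P3row X) (hstar : P4starP X)
    (hT : TransP κ F) (x₀ : GL κ F) (hx₀ : x₀ ∈ X) (hnm : ¬ IsMono (x₀ : Matrix κ κ F))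
    (i₀ k₀ : κ) (h0 : (x₀ : Matrix κ κ F) i₀ k₀ = 0)
    (k l : κ) (hkl : k ≠ l) (hk : ∀ i, (x₀ : Matrix κ κ F) i k ≠ 0)
    (hl : ∀ i, (x₀ : Matrix κ κ F) i l ≠ 0) : False := by
  have hp : ∀ j, (x₀ : Matrix κ κ F) j l =
      (x₀ : Matrix κ κ F) k l / (x₀ : Matrix κ κ F) k k * (x₀ : Matrix κ κ F) j k := by
    intro j
    have := caseZ_prop hn hX h3 h3r hstar hT x₀ hx₀ hnm i₀ k₀ h0 k l hkl k j (hk k) (hl k)
      (hk j) (hl j)
    have hkk := hk k
    field_simp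
    linear_combination this
  have e1 := gl_inv_mul_apply x₀ l l
  have e2 := gl_inv_mul_apply x₀ l k
  rw [if_pos rfl] at e1
  rw [if_neg hkl.symm] at e2
  have e3 : ∑ j, ((x₀⁻¹ : GL κ F) : Matrix κ κ F) l j * (x₀ : Matrix κ κ F) j l =
      (x₀ : Matrix κ κ F) k l / (x₀ : Matrix κ κ F) k k *
        ∑ j, ((x₀⁻¹ : GL κ F) : Matrix κ κ F) l j * (x₀ : Matrix κ κ F) j k := by
    rw [Finset.mul_sum]
    apply Finset.sum_congr rfl
    intro j _
    rw [hp j]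
    ring
  rw [e1, e2, mul_zero] at e3
  exact one_ne_zero e3

/-- CASEZ -/
theorem caseZ [Fintype F] (hq : 5 ≤ Fintype.card F) (hn : 7 ≤ Fintype.card κ)
    {X : Subgroup (GL κ F)} (hX : MonIn X) (h3 : P3col X) (h3r : P3row X) (hstar : P4starP X)
    (hT : TransP κ F) (x₀ : GL κ F) (hx₀ : x₀ ∈ X) (hnm : ¬ IsMono (x₀ : Matrix κ κ F))
    (i₀ k₀ : κ) (h0 : (x₀ : Matrix κ κ F) i₀ k₀ = 0) : False := by
  classical
  have hcol := h3 x₀ hx₀ hnm
  have hrow := h3r x₀ hx₀ hnm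
  -- three columns with a zero
  have hZ : 2 < (Finset.univ.filter (fun k => ∃ i, (x₀ : Matrix κ κ F) i k = 0)).card := by
    have h1 : (Finset.univ.filter (fun k => ∃ i, (x₀ : Matrix κ κ F) i k = 0))ᶜ.card ≤ 1 := by
      rw [Finset.card_le_one]
      intro a ha b hb
      by_contra hne
      simp only [Finset.mem_compl, Finset.mem_filter, Finset.mem_univ, true_and, not_exists]
        at ha hb
      exact caseZ_nozero hn hX h3 h3r hstar hT x₀ hx₀ hnm i₀ k₀ h0 a b hne ha hb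
    have := Finset.card_add_card_compl
      (Finset.univ.filter (fun k => ∃ i, (x₀ : Matrix κ κ F) i k = 0))
    omega
  obtain ⟨k, l, m, hk, hl, hm, hkl, hkm, hlm⟩ := Finset.two_lt_card_iff.mp hZ
  simp only [Finset.mem_filter, Finset.mem_univ, true_and] at hk hl hm
  obtain ⟨zk, hzk⟩ := hk
  obtain ⟨zl, hzl⟩ := hl
  obtain ⟨zm, hzm⟩ := hm
  have hzkl : zk ≠ zl := by
    intro h
    rw [← h] at hzl
    exact hrow zk k l hkl hzk hzl
  have hzkm : zk ≠ zm := by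
    intro h
    rw [← h] at hzm
    exact hrow zk k m hkm hzk hzm
  have hzlm : zl ≠ zm := by
    intro h
    rw [← h] at hzm
    exact hrow zl l m hlm hzl hzm
  have hck : ∀ i, i ≠ zk → (x₀ : Matrix κ κ F) i k ≠ 0 := fun i hi h => hcol k i zk hi h hzk
  have hcl : ∀ i, i ≠ zl → (x₀ : Matrix κ κ F) i l ≠ 0 := fun i hi h => hcol l i zl hi h hzl
  have hcm : ∀ i, i ≠ zm → (x₀ : Matrix κ κ F) i m ≠ 0 := fun i hi h => hcol m i zm hi h hzm
  -- a row outside `{zk, zl}`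
  obtain ⟨j, -, -, hj, -⟩ := caseZ_two_out hn {zk, zl} (Finset.card_le_two.trans (by norm_num))
  simp only [Finset.mem_insert, Finset.mem_singleton, not_or] at hj
  have hjk := hck j hj.1
  have hjl := hcl j hj.2
  obtain ⟨r, hr⟩ : ∃ r : F, r = (x₀ : Matrix κ κ F) j l / (x₀ : Matrix κ κ F) j k := ⟨_, rfl⟩
  have hr0 : r ≠ 0 := by
    rw [hr]
    exact div_ne_zero hjl hjk
  have hδ : ∀ i, i ≠ zk → i ≠ zl →
      (x₀ : Matrix κ κ F) i l = r * (x₀ : Matrix κ κ F) i k := by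
    intro i hik hil
    have := caseZ_prop hn hX h3 h3r hstar hT x₀ hx₀ hnm i₀ k₀ h0 k l hkl j i hjk hjl
      (hck i hik) (hcl i hil)
    rw [hr]
    field_simp
    linear_combination this
  -- the scalar γ
  obtain ⟨γ, hγ⟩ : ∃ γ : F, γ ∉ ({0,
      -((x₀ : Matrix κ κ F) zk l / (x₀ : Matrix κ κ F) zk m),
      r * (x₀ : Matrix κ κ F) zl k / (x₀ : Matrix κ κ F) zl m} : Finset F) := by
    by_contra hcon
    push Not at hcon
    have h1 : (Finset.univ : Finset F) ⊆ {0,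
      -((x₀ : Matrix κ κ F) zk l / (x₀ : Matrix κ κ F) zk m),
      r * (x₀ : Matrix κ κ F) zl k / (x₀ : Matrix κ κ F) zl m} := fun γ _ => hcon γ
    have h2 := Finset.card_le_card h1
    have h3' := Finset.card_le_three (a := (0 : F))
      (b := -((x₀ : Matrix κ κ F) zk l / (x₀ : Matrix κ κ F) zk m))
      (c := r * (x₀ : Matrix κ κ F) zl k / (x₀ : Matrix κ κ F) zl m)
    rw [Finset.card_univ] at h2
    omega
  simp only [Finset.mem_insert, Finset.mem_singleton, not_or] at hγ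
  obtain ⟨hγ0, hγA, hγB⟩ := hγ
  obtain ⟨a, b, hab, ha, hb⟩ := caseZ_two_out hn {k, l, m} Finset.card_le_three
  simp only [Finset.mem_insert, Finset.mem_singleton, not_or] at ha hb
  have hval : ∀ i, ((x₀ : Matrix κ κ F) *ᵥ
      (Pi.single l 1 + Pi.single k (-r) + Pi.single m γ)) i =
      (x₀ : Matrix κ κ F) i l + (x₀ : Matrix κ κ F) i k * (-r) +
        (x₀ : Matrix κ κ F) i m * γ := by
    intro i
    rw [Matrix.mulVec_add, Matrix.mulVec_add, Pi.add_apply, Pi.add_apply, caseZ_single,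
      caseZ_single, caseZ_single, mul_one]
  obtain ⟨i, hizm, hi⟩ := caseZ_key hX h3 hT x₀ hx₀ hnm i₀ k₀ h0
    (Pi.single l 1 + Pi.single k (-r) + Pi.single m γ) l k a b hkl.symm
    (by simp [Pi.single_apply, hkl.symm, hlm])
    (by simp [Pi.single_apply, hkl, hkm, hr0]) hab
    (by simp [Pi.single_apply, ha.1, ha.2.1, ha.2.2])
    (by simp [Pi.single_apply, hb.1, hb.2.1, hb.2.2]) zm
    (by rw [hval, hzm, hδ zm hzkm.symm hzlm.symm]; ring)
  rw [hval] at hi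
  by_cases hik : i = zk
  · subst hik
    apply hγA
    have hne := hcm i hizm
    rw [hzk] at hi
    field_simp
    linear_combination hi
  · by_cases hil : i = zl
    · subst hil
      apply hγB
      have hne := hcm i hizm
      rw [hzl] at hi
      field_simp
      linear_combination hi
    · rw [hδ i hik hil] at hi
      have h5 : (x₀ : Matrix κ κ F) i m * γ = 0 := by linear_combination hi
      rcases mul_eq_zero.mp h5 with h | h
      · exact hcm i hizm h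
      · exact hγ0 h

end

end Cfsg.Agent.Lib.Helper65.Mono
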