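import Mathlib
import Cfsg.Prelude.Def_GeometricClasses
import Cfsg.Agent.Lib.Helper71.Asch0
import Cfsg.Agent.Lib.Helper71.Asch5
import Cfsg.Agent.Lib.Helper71.Asch8

/-! SP8-EB (sub-project of S5823, sp8): definitions (helper52).
`q = 3`: the tensor cube stabiliser normalises `R = Q8 ∘ Q8 ∘ Q8`. -/

set_option autoImplicit false

namespace Cfsg.Agent.Lib.Helper52.SP8EB

open Matrix Cfsg.Geo Cfsg.Agent.Lib.Helper71.Asch

variable {n : ℕ} {F : Type*} [Field F]

/-- The quaternion set inside the `2 × 2` matrices: determinant one and (`± 1` or trace zero). -/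
def IsQ (x : Matrix (Fin 2) (Fin 2) F) : Prop := x.det = 1 ∧ (x = 1 ∨ x = -1 ∨ x.trace = 0)

/-- The matrix permuting the three tensor factors according to `σ` (as in `IsFactorPermutation`). -/
def permM (σ : Equiv.Perm (Fin 3)) : Matrix (Fin 3 → Fin 2) (Fin 3 → Fin 2) F :=
  Matrix.of fun x y => if y = x ∘ σ then 1 else 0

/-- The isometries of the two-argument form `f`, as a subgroup of `GL`. -/
def isoSub (f : (Fin n → F) → (Fin n → F) → F) : Subgroup (GL (Fin n) F) where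
  carrier := {g | ∀ u v, f (g.1 *ᵥ u) (g.1 *ᵥ v) = f u v}
  mul_mem' := by
    intro a b ha hb u v
    have h1 := ha (b.1 *ᵥ u) (b.1 *ᵥ v)
    rw [Matrix.mulVec_mulVec, Matrix.mulVec_mulVec] at h1
    rw [Units.val_mul, h1]
    exact hb u v
  one_mem' := by
    intro u v
    simp
  inv_mem' := by
    intro a ha u v
    have h1 := ha ((a⁻¹ : GL (Fin n) F).1 *ᵥ u) ((a⁻¹ : GL (Fin n) F).1 *ᵥ v)
    rw [Matrix.mulVec_mulVec, Matrix.mulVec_mulVec, ← Units.val_mul, mul_inv_cancel,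
      Units.val_one, Matrix.one_mulVec, Matrix.one_mulVec] at h1
    exact h1.symm

/-- Generators of `R`: transported pure tensors of three elements of the quaternion set. -/
def Rgen (e : Fin n ≃ (Fin 3 → Fin 2)) (P : GL (Fin n) F) : Set (GL (Fin n) F) :=
  {g | ∃ cs : Fin 3 → Matrix (Fin 2) (Fin 2) F, (∀ i, IsQ (cs i)) ∧ g.1 = tw e P (pt cs)}

/-- `R = Q8 ∘ Q8 ∘ Q8` (transported). -/
def Rsub (e : Fin n ≃ (Fin 3 → Fin 2)) (P : GL (Fin n) F) : Subgroup (GL (Fin n) F) :=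
  Subgroup.closure (Rgen e P)

/-- `G`: the isometries of `f` inside the tensor cube stabiliser. -/
def Gsub (f : (Fin n → F) → (Fin n → F) → F) (e : Fin n ≃ (Fin 3 → Fin 2)) (P : GL (Fin n) F) :
    Subgroup (GL (Fin n) F) :=
  tensorWreathSubgroup 2 3 e P ⊓ isoSub f

/-! ### The interface facts (each is proved by one piece and consumed by others as a hypothesis) -/

/-- the quaternion set is closed under products -/
def HQmul (F : Type*) [Field F] : Prop :=
  ∀ x y : Matrix (Fin 2) (Fin 2) F, IsQ x → IsQ y → IsQ (x * y)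

/-- the quaternion set has inverses -/
def HQinv (F : Type*) [Field F] : Prop :=
  ∀ x : Matrix (Fin 2) (Fin 2) F, IsQ x → ∃ y : Matrix (Fin 2) (Fin 2) F, IsQ y ∧ x * y = 1 ∧ y * x = 1

/-- the quaternion set is stable under conjugation -/
def HQconj (F : Type*) [Field F] : Prop :=
  ∀ x : Matrix (Fin 2) (Fin 2) F, IsQ x → ∀ g h : Matrix (Fin 2) (Fin 2) F, g * h = 1 → IsQ (g * x * h)

/-- two elements of the quaternion set commute or anticommute -/
def HQcomm (F : Type*) [Field F] : Prop :=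
  ∀ x y : Matrix (Fin 2) (Fin 2) F, IsQ x → IsQ y → x * y = y * x ∨ x * y = -(y * x)

/-- the quaternion set spans the `2 × 2` matrices -/
def HQspan (F : Type*) [Field F] : Prop :=
  ∀ A : Matrix (Fin 2) (Fin 2) F, ∃ (c : Fin 4 → F) (q : Fin 4 → Matrix (Fin 2) (Fin 2) F),
    (∀ t, IsQ (q t)) ∧ A = ∑ t, c t • q t

/-- normal generation of the quaternion set by the commutators of one element of order 4 -/
def HQgen (F : Type*) [Field F] : Prop :=
  ∀ a : Matrix (Fin 2) (Fin 2) F, IsQ a → a ≠ 1 → a ≠ -1 → ∀ S : Set (Matrix (Fin 2) (Fin 2) F),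
    (∀ x ∈ S, ∀ y ∈ S, x * y ∈ S) →
    (∀ x ∈ S, ∀ g h : Matrix (Fin 2) (Fin 2) F, g.det = 1 → g * h = 1 → g * x * h ∈ S) →
    (∀ a' g h : Matrix (Fin 2) (Fin 2) F, a * a' = 1 → g.det = 1 → g * h = 1 → a' * (g * a * h) ∈ S) →
    ∀ y, IsQ y → y ∈ S

/-- elements of `R` are transported pure tensors of quaternion elements -/
def HRmem (e : Fin n ≃ (Fin 3 → Fin 2)) (P : GL (Fin n) F) : Prop :=
  ∀ g : GL (Fin n) F, g ∈ Rsub e P → g ∈ Rgen e P

/-- transported pure tensors of invertible matrices are invertible -/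
def HGlof (e : Fin n ≃ (Fin 3 → Fin 2)) (P : GL (Fin n) F) : Prop :=
  ∀ cs ds : Fin 3 → Matrix (Fin 2) (Fin 2) F, (∀ i, cs i * ds i = 1) →
    ∃ g : GL (Fin n) F, g.1 = tw e P (pt cs) ∧ (g⁻¹ : GL (Fin n) F).1 = tw e P (pt ds)

/-- transported factor permutations are invertible -/
def HPermGL (e : Fin n ≃ (Fin 3 → Fin 2)) (P : GL (Fin n) F) : Prop :=
  ∀ σ : Equiv.Perm (Fin 3), ∃ g : GL (Fin n) F, g.1 = tw e P (permM σ) ∧
    (g⁻¹ : GL (Fin n) F).1 = tw e P (permM σ.symm)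

/-- conjugation of a pure tensor by a factor permutation -/
def HPermConj (F : Type*) [Field F] : Prop :=
  ∀ (σ : Equiv.Perm (Fin 3)) (cs : Fin 3 → Matrix (Fin 2) (Fin 2) F),
    (permM σ : Matrix (Fin 3 → Fin 2) (Fin 3 → Fin 2) F) * pt cs * permM σ.symm =
      pt (fun j => cs (σ.symm j))

/-- transported pure tensors of determinant-one matrices lie in `G` -/
def HPureG (f : (Fin n → F) → (Fin n → F) → F) (e : Fin n ≃ (Fin 3 → Fin 2)) (P : GL (Fin n) F) :
    Prop :=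
  ∀ cs : Fin 3 → Matrix (Fin 2) (Fin 2) F, (∀ i, (cs i).det = 1) →
    ∀ g : GL (Fin n) F, g.1 = tw e P (pt cs) → g ∈ Gsub f e P

/-- transported factor permutations lie in `G` -/
def HPermG (f : (Fin n → F) → (Fin n → F) → F) (e : Fin n ≃ (Fin 3 → Fin 2)) (P : GL (Fin n) F) :
    Prop :=
  ∀ σ : Equiv.Perm (Fin 3), ∀ g : GL (Fin n) F, g.1 = tw e P (permM σ) → g ∈ Gsub f e P

/-- `L'` contains the `i`-th quaternion factor -/
def HasFactor (e : Fin n ≃ (Fin 3 → Fin 2)) (P : GL (Fin n) F) (L' : Subgroup (GL (Fin n) F))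
    (i : Fin 3) : Prop :=
  ∀ y : Matrix (Fin 2) (Fin 2) F, IsQ y → ∀ g : GL (Fin n) F, g.1 = tw e P (iota i y) → g ∈ L'

/-- conjugation by the standard tensor-wreath group preserves pure tensors of quaternion elements -/
def HNrmS (F : Type*) [Field F] : Prop :=
  ∀ s ∈ tensorWreathStandard 2 3 F, ∀ cs : Fin 3 → Matrix (Fin 2) (Fin 2) F, (∀ i, IsQ (cs i)) →
    ∃ cs' : Fin 3 → Matrix (Fin 2) (Fin 2) F, (∀ i, IsQ (cs' i)) ∧
      s.1 * pt cs * (s⁻¹ : GL (Fin 3 → Fin 2) F).1 = pt cs'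

/-- the span of `S` contains every transported one-factor matrix -/
def HSpanIota (e : Fin n ≃ (Fin 3 → Fin 2)) (P : GL (Fin n) F)
    (S : Set (Matrix (Fin n) (Fin n) F)) : Prop :=
  ∀ (i : Fin 3) (A : Matrix (Fin 2) (Fin 2) F), tw e P (iota i A) ∈ Submodule.span F S

end Cfsg.Agent.Lib.Helper52.SP8EB
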