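import Mathlib
import Cfsg.Agent.Lib.Helper52.SiegelSimple
import Cfsg.Agent.Lib.Helper52.OmegaPlus
import Cfsg.Agent.Lib.Helper44.OrthPlus
import Cfsg.Prelude.Def_GeometricClasses

/-!
Bridge between the vocabulary of `Cfsg.Geo` (quadratic forms given as functions, `omegaGL`,
`subspaceStabilizer`) and the `QuadraticForm` libraries, and the invariance of the two families
of maximal totally singular subspaces under `Ω` in every characteristic.
-/

set_option autoImplicit false
set_option linter.unusedSectionVars false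

namespace Cfsg.Agent.Lib.Helper52

open Module QuadraticMap
open Cfsg.Agent.Lib.Helper51

section Bridge

variable {ι : Type} [Fintype ι] [DecidableEq ι] {F : Type*} [Field F]

/-- A non-degenerate quadratic form given as a function is the function of a `QuadraticForm`
with non-degenerate polar form. -/
theorem exists_quadraticForm_of_nondeg (Q : (ι → F) → F)
    (hQ : Cfsg.Geo.IsNondegenerateQuadraticForm Q) :
    ∃ Q' : QuadraticForm F (ι → F), ⇑Q' = Q ∧ (polarBilin Q').Nondegenerate := by
  let Q' : QuadraticForm F (ι → F) := QuadraticMap.ofPolar Q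
    (fun a x => by rw [hQ.smul, pow_two]; rfl)
    (fun x x' y => hQ.polar_bilinear.add_left x x' y)
    (fun a x y => by rw [hQ.polar_bilinear.smul_left]; rfl)
  refine ⟨Q', rfl, ?_⟩
  have hnd : ∀ u : ι → F, (∀ v, polar ⇑Q' u v = 0) → u = 0 := by
    intro u hu
    by_contra hne
    obtain ⟨x, hx⟩ := (hQ.nondegenerate u hne).2
    exact hx (hu x)
  constructor
  · intro x hx
    apply hnd x
    intro y
    have := hx y
    rwa [QuadraticMap.polarBilin_apply_apply] at this
  · intro y hy
    apply hnd y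
    intro x
    have := hy x
    rw [QuadraticMap.polarBilin_apply_apply] at this
    rw [polar_comm]
    exact this

variable (Q : QuadraticForm F (ι → F))

local notation "mt(" g ")" => ((g : Matrix.GeneralLinearGroup ι F) : Matrix ι ι F)

theorem coe_mem_omegaGL {g : ↥(Cfsg.isometryGroup F ⇑Q)}
    (hg : g ∈ commutator ↥(Cfsg.isometryGroup F ⇑Q)) :
    (g : Matrix.GeneralLinearGroup ι F) ∈ Cfsg.Geo.omegaGL ⇑Q := ⟨g, hg, rfl⟩

theorem exists_of_mem_omegaGL {x : Matrix.GeneralLinearGroup ι F}
    (hx : x ∈ Cfsg.Geo.omegaGL ⇑Q) :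
    ∃ g : ↥(Cfsg.isometryGroup F ⇑Q), g ∈ commutator ↥(Cfsg.isometryGroup F ⇑Q) ∧
      (g : Matrix.GeneralLinearGroup ι F) = x := by
  obtain ⟨g, hg, rfl⟩ := hx
  exact ⟨g, hg, rfl⟩

theorem mem_subspaceStabilizer_iff (W : Submodule F (ι → F))
    (x : Matrix.GeneralLinearGroup ι F) :
    x ∈ Cfsg.Geo.subspaceStabilizer W ↔ ∀ v, v ∈ W ↔ (x : Matrix ι ι F).mulVec v ∈ W := Iff.rfl

/-- An isometry mapping a subspace into itself lies in its stabiliser. -/
theorem coe_mem_subspaceStabilizer (W : Submodule F (ι → F)) (g : ↥(Cfsg.isometryGroup F ⇑Q))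
    (h : ∀ w ∈ W, mt(g).mulVec w ∈ W) :
    (g : Matrix.GeneralLinearGroup ι F) ∈ Cfsg.Geo.subspaceStabilizer W := by
  have hs := mem_stabSub_of_forall Q W g h
  rw [mem_stabSub] at hs
  rw [mem_subspaceStabilizer_iff]
  intro v
  constructor
  · exact h v
  · intro hv
    have hv' : mt(g).mulVec v ∈ W.map (Matrix.mulVecLin mt(g)) := by rw [hs]; exact hv
    obtain ⟨v', hv'W, hv'eq⟩ := hv'
    have e : v' = v := mulVecLin_injective Q g hv'eq
    rwa [← e]

/-- An isometry mapping a subspace onto itself (as a linear map) lies in its stabiliser. -/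
theorem coe_mem_subspaceStabilizer_of_map (W : Submodule F (ι → F))
    (g : ↥(Cfsg.isometryGroup F ⇑Q)) (h : W.map (Matrix.toLin' mt(g)) = W) :
    (g : Matrix.GeneralLinearGroup ι F) ∈ Cfsg.Geo.subspaceStabilizer W := by
  apply coe_mem_subspaceStabilizer
  intro w hw
  have : Matrix.toLin' mt(g) w ∈ W.map (Matrix.toLin' mt(g)) := ⟨w, hw, rfl⟩
  rw [h, Matrix.toLin'_apply] at this
  exact this

end Bridge

section Parity

variable {ι : Type} [Fintype ι] [DecidableEq ι] {F : Type*} [Field F] [Fintype F]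
variable (Q : QuadraticForm F (ι → F))

local notation "mt(" g ")" => ((g : Matrix.GeneralLinearGroup ι F) : Matrix ι ι F)

theorem parity_inf_reflList (hQ : (polarBilin Q).Nondegenerate) (U : Submodule F (ι → F))
    (hU : ∀ x ∈ U, Q x = 0) (hd : 2 * finrank F U = Fintype.card ι) (vs : List (ι → F))
    (hvs : ∀ v ∈ vs, Q v ≠ 0) :
    ((Even (finrank F ↥(U ⊓ U.map (Matrix.toLin' mt(reflList Q vs hvs)))) ↔ Even (finrank F U))
      ↔ Even vs.length) := by
  induction vs with
  | nil =>
    have e : U ⊓ U.map (Matrix.toLin' mt(reflList Q [] hvs)) = U := by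
      have : Matrix.toLin' mt(reflList Q [] hvs) = LinearMap.id := by
        show Matrix.toLin' (1 : Matrix ι ι F) = LinearMap.id
        exact Matrix.toLin'_one
      rw [this, Submodule.map_id, inf_idem]
    rw [e]
    simp
  | cons v vs ih =>
    have hv : Q v ≠ 0 := hvs v (by simp)
    have hvs' : ∀ w ∈ vs, Q w ≠ 0 := fun w hw => hvs w (by simp [hw])
    have h1 := Cfsg.Agent.Lib.Helper44.even_inf_flip Q hQ U hU hd (reflList Q vs hvs') v hv
    have h2 := ih hvs'
    rw [reflList_cons, h1, List.length_cons, Nat.even_add_one]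
    tauto

/-- Elements of `Ω` preserve the family of a maximal totally singular subspace `U`:
`dim (U ∩ gU)` has the parity of `dim U`. -/
theorem even_inf_of_mem_commutator (hQ : (polarBilin Q).Nondegenerate)
    (h : Fintype.card F ≠ 2 ∨ Fintype.card ι ≠ 4) (U : Submodule F (ι → F))
    (hU : ∀ x ∈ U, Q x = 0) (hd : 2 * finrank F U = Fintype.card ι)
    (g : ↥(Cfsg.isometryGroup F ⇑Q)) (hg : g ∈ commutator ↥(Cfsg.isometryGroup F ⇑Q)) :
    Even (finrank F ↥(U ⊓ U.map (Matrix.toLin' mt(g)))) ↔ Even (finrank F U) := by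
  obtain ⟨vs, hvs, rfl, hev⟩ := exists_even_reflList_of_mem_commutator Q hQ h hg
  exact (parity_inf_reflList Q hQ U hU hd vs hvs).mpr hev

end Parity

end Cfsg.Agent.Lib.Helper52
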