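import Cfsg.Agent.Lib.Helper17.O72BRA
import Cfsg.Agent.Lib.Helper98.O72Defs
import Cfsg.Agent.Lib.Helper51.HypPairs
import Cfsg.Agent.Lib.Helper51.NegOne
import Cfsg.Agent.Lib.Helper51.OUnip
import Cfsg.Agent.Lib.Helper52.GeoOmega
import Cfsg.Agent.Lib.Helper54.OrthSpin
import Cfsg.Prelude.Def_GeometricClasses

/-!
Project O72 (S5972, helper98), piece BRB: isometries of odd prime order versus elements of
`Cfsg.Geo.omegaGL` of that order (helper52).
-/

set_option autoImplicit false
set_option linter.unusedSectionVars false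
set_option linter.unusedVariables false

namespace Cfsg.Agent.Lib.Helper98.O72

open Module Cfsg Cfsg.Agent.Lib.Helper96.Sp Cfsg.Agent.Lib.Helper51
open scoped MatrixGroups

section Concrete

variable {ι : Type} [Fintype ι] [DecidableEq ι] {F : Type*} [Field F] [Fintype F]

/-- `toLin'` of a power of a matrix. -/
theorem brb_toLin'_pow (M : Matrix ι ι F) (k : ℕ) :
    Matrix.toLin' (M ^ k) = (Matrix.toLin' M) ^ k := by
  induction k with
  | zero => rw [pow_zero, pow_zero, Matrix.toLin'_one]; rfl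
  | succ k ih => rw [pow_succ, pow_succ, Matrix.toLin'_mul, ih]; rfl

/-- PIECE BRB (1/2): an isometry of odd prime order gives an element of `Ω` of that order. -/
theorem br_omega_of_isom_odd (Q : QuadraticForm F (ι → F)) (h2 : (2 : F) ≠ 0)
    (hQ : (QuadraticMap.polarBilin Q).Nondegenerate) (hcard : 2 ≤ Fintype.card ι)
    (T : Module.End F (ι → F)) (hT : Isom (QuadraticMap.polarBilin Q) T) (r : ℕ)
    [Fact r.Prime] (hr2 : r ≠ 2) (hTr : T ^ r = 1) (hT1 : T ≠ 1) :
    ∃ x : GL ι F, x ∈ Cfsg.Geo.omegaGL ⇑Q ∧ orderOf x = r ∧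
      Matrix.toLin' (x : Matrix ι ι F) = T := by
  have hrp : r.Prime := Fact.out
  have hodd : Odd r := hrp.eq_two_or_odd'.resolve_left hr2
  have hinj : Function.Injective T := by
    have hr1 : r = (r - 1) + 1 := by have := hrp.pos; omega
    have hleft : T ^ (r - 1) * T = 1 := by rw [← pow_succ, ← hr1, hTr]
    intro a b hab
    have ha : (T ^ (r - 1) * T) a = a := by rw [hleft]; rfl
    have hb : (T ^ (r - 1) * T) b = b := by rw [hleft]; rfl
    rw [← ha, ← hb, Module.End.mul_apply, Module.End.mul_apply, hab]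
  obtain ⟨g, hg⟩ := br_exists_of_isom Q h2 T hT hinj
  have hxr : ((g : GL ι F)) ^ r = 1 := by
    apply Units.ext
    apply (Matrix.toLin' (R := F) (m := ι) (n := ι)).injective
    rw [Units.val_pow_eq_pow_val, brb_toLin'_pow, hg, hTr, Units.val_one, Matrix.toLin'_one]
    rfl
  have hgr : g ^ r = 1 := by
    apply Subtype.ext
    rw [Subgroup.coe_pow, hxr]
    rfl
  have hmem := Cfsg.Agent.Lib.Helper51.OUnip.mem_commutator_of_pow Q h2 hQ hcard hodd g hgr
  refine ⟨(g : GL ι F), Cfsg.Agent.Lib.Helper52.coe_mem_omegaGL Q hmem, ?_, hg⟩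
  apply orderOf_eq_prime hxr
  intro h1
  apply hT1
  rw [← hg, h1, Units.val_one, Matrix.toLin'_one]
  rfl

/-- PIECE BRB (2/2): an element of `Ω` of prime order `r` as an isometry. -/
theorem br_isom_of_omega (Q : QuadraticForm F (ι → F)) (x : GL ι F)
    (hx : x ∈ Cfsg.Geo.omegaGL ⇑Q) (r : ℕ) [Fact r.Prime] (hxr : orderOf x = r) :
    Isom (QuadraticMap.polarBilin Q) (Matrix.toLin' (x : Matrix ι ι F)) ∧
      (Matrix.toLin' (x : Matrix ι ι F)) ^ r = 1 ∧ Matrix.toLin' (x : Matrix ι ι F) ≠ 1 := by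
  have hrp : r.Prime := Fact.out
  obtain ⟨g, hgc, rfl⟩ := Cfsg.Agent.Lib.Helper52.exists_of_mem_omegaGL Q hx
  refine ⟨br_isom_of_mem Q g, ?_, ?_⟩
  · rw [← brb_toLin'_pow, ← Units.val_pow_eq_pow_val, ← hxr, pow_orderOf_eq_one, Units.val_one,
      Matrix.toLin'_one]
    rfl
  · intro h1
    have hx1 : ((g : GL ι F)) = 1 := by
      apply Units.ext
      apply (Matrix.toLin' (R := F) (m := ι) (n := ι)).injective
      rw [h1, Units.val_one, Matrix.toLin'_one]
      rfl
    rw [hx1, orderOf_one] at hxr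
    exact hrp.one_lt.ne' hxr.symm

end Concrete

end Cfsg.Agent.Lib.Helper98.O72
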