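import Mathlib
import Cfsg.Agent.Lib.Helper52.NonsingPt
import Cfsg.Agent.Lib.Helper52.OmegaPlus

/-!
Geometry of an orthogonal decomposition `V = N ⊥ U` of a quadratic space with non-degenerate
polar form (any characteristic): both summands are non-degenerate, singular vectors of `N`
have hyperbolic partners in `N`, a second hyperbolic pair orthogonal to a given one exists in
`N` when `dim N ≥ 5`, and `N` is spanned by its singular vectors when `dim N ≥ 3`.
-/

set_option autoImplicit false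
set_option linter.unusedSectionVars false

namespace Cfsg.Agent.Lib.Helper52

open Module QuadraticMap
open Cfsg.Agent.Lib.Helper51

section NondegGeom

variable {ι : Type} [Fintype ι] [DecidableEq ι] {F : Type*} [Field F]
variable (Q : QuadraticForm F (ι → F))

/-- `N` and `U` are orthogonal for the polar form of `Q` and span the whole space. -/
structure OrthPair (N U : Submodule F (ι → F)) : Prop where
  orth : ∀ x ∈ N, ∀ y ∈ U, polar ⇑Q x y = 0
  sup : N ⊔ U = ⊤

variable {Q}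

theorem OrthPair.symm {N U : Submodule F (ι → F)} (h : OrthPair Q N U) : OrthPair Q U N :=
  ⟨fun x hx y hy => by rw [polar_comm]; exact h.orth y hy x hx, by rw [sup_comm]; exact h.sup⟩

theorem OrthPair.exists_decomp {N U : Submodule F (ι → F)} (h : OrthPair Q N U) (x : ι → F) :
    ∃ a ∈ N, ∃ b ∈ U, a + b = x := by
  have hx : x ∈ N ⊔ U := by rw [h.sup]; exact Submodule.mem_top
  exact Submodule.mem_sup.mp hx

theorem OrthPair.nondeg {N U : Submodule F (ι → F)} (h : OrthPair Q N U)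
    (hQ : (polarBilin Q).Nondegenerate) {x : ι → F} (hx : x ∈ N) (hx0 : x ≠ 0) :
    ∃ y ∈ N, polar ⇑Q x y ≠ 0 := by
  obtain ⟨y, hy⟩ := exists_polar_ne_zero Q hQ x hx0
  obtain ⟨a, ha, b, hb, rfl⟩ := h.exists_decomp y
  refine ⟨a, ha, ?_⟩
  rw [polar_add_right, h.orth x hx b hb, add_zero] at hy
  exact hy

/-- A vector orthogonal to `N` lies in `U`. -/
theorem OrthPair.mem_of_orth {N U : Submodule F (ι → F)} (h : OrthPair Q N U)
    (hQ : (polarBilin Q).Nondegenerate) {x : ι → F} (hx : ∀ y ∈ N, polar ⇑Q y x = 0) :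
    x ∈ U := by
  obtain ⟨a, ha, b, hb, rfl⟩ := h.exists_decomp x
  have ha0 : a = 0 := by
    by_contra hne
    obtain ⟨y, hy, hne'⟩ := h.nondeg hQ ha hne
    apply hne'
    have h1 := hx y hy
    rw [polar_add_right, h.orth y hy b hb, add_zero] at h1
    rw [polar_comm]; exact h1
  rw [ha0, zero_add]; exact hb

theorem OrthPair.inf_eq_bot {N U : Submodule F (ι → F)} (h : OrthPair Q N U)
    (hQ : (polarBilin Q).Nondegenerate) : N ⊓ U = ⊥ := by
  rw [eq_bot_iff]
  rintro x ⟨hxN, hxU⟩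
  rw [Submodule.mem_bot]
  by_contra hne
  obtain ⟨y, hy, hne'⟩ := h.nondeg hQ hxN hne
  apply hne'
  rw [polar_comm]
  exact h.orth y hy x hxU

theorem OrthPair.finrank_add {N U : Submodule F (ι → F)} (h : OrthPair Q N U)
    (hQ : (polarBilin Q).Nondegenerate) : finrank F N + finrank F U = Fintype.card ι := by
  have h1 := Submodule.finrank_sup_add_finrank_inf_eq N U
  rw [h.sup, h.inf_eq_bot hQ, finrank_top, finrank_bot, Module.finrank_fintype_fun_eq_card] at h1
  omega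

/-- A singular vector `v` with `f(u, v) = 1` in the plane of `u` and `y`, for `u` singular and
`f(u, y) ≠ 0`. -/
theorem exists_partner_of_polar_ne (u y : ι → F) (hu : Q u = 0) (h : polar ⇑Q u y ≠ 0) :
    ∃ a b : F, Q (a • y + b • u) = 0 ∧ polar ⇑Q u (a • y + b • u) = 1 := by
  have huu : polar ⇑Q u u = 0 := by
    rw [Cfsg.Agent.Lib.Helper51.polar_self, hu, mul_zero]
  refine ⟨(polar ⇑Q u y)⁻¹, -((polar ⇑Q u y)⁻¹ * (polar ⇑Q u y)⁻¹ * Q y), ?_, ?_⟩
  · have e := Q_add_smul Q ((polar ⇑Q u y)⁻¹ • y) u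
      (-((polar ⇑Q u y)⁻¹ * (polar ⇑Q u y)⁻¹ * Q y))
    rw [e, hu, QuadraticMap.map_smul, polar_smul_left, polar_comm ⇑Q y u, smul_eq_mul, smul_eq_mul]
    field_simp
    ring
  · rw [polar_add_right, polar_smul_right, polar_smul_right, huu, smul_eq_mul, smul_eq_mul,
      mul_zero, add_zero, inv_mul_cancel₀ h]

theorem OrthPair.exists_partner {N U : Submodule F (ι → F)} (h : OrthPair Q N U)
    (hQ : (polarBilin Q).Nondegenerate) {u : ι → F} (hu : u ∈ N) (hu0 : u ≠ 0) (hQu : Q u = 0) :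
    ∃ v ∈ N, Q v = 0 ∧ polar ⇑Q u v = 1 := by
  obtain ⟨y, hy, hne⟩ := h.nondeg hQ hu hu0
  obtain ⟨a, b, h1, h2⟩ := exists_partner_of_polar_ne u y hQu hne
  exact ⟨_, N.add_mem (N.smul_mem _ hy) (N.smul_mem _ hu), h1, h2⟩

/-- The projection of `x` to the orthogonal complement of a hyperbolic pair `u`, `v`. -/
theorem polar_proj (u v x : ι → F) (hu : Q u = 0) (hv : Q v = 0) (huv : polar ⇑Q u v = 1) :
    polar ⇑Q u (x - polar ⇑Q x v • u - polar ⇑Q x u • v) = 0 ∧
    polar ⇑Q v (x - polar ⇑Q x v • u - polar ⇑Q x u • v) = 0 := by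
  have huu : polar ⇑Q u u = 0 := by
    rw [Cfsg.Agent.Lib.Helper51.polar_self, hu, mul_zero]
  have hvv : polar ⇑Q v v = 0 := by
    rw [Cfsg.Agent.Lib.Helper51.polar_self, hv, mul_zero]
  have hvu : polar ⇑Q v u = 1 := by rw [polar_comm]; exact huv
  constructor
  · rw [polar_sub_right, polar_sub_right, polar_smul_right, polar_smul_right, huu, huv,
      polar_comm ⇑Q x u]
    simp
  · rw [polar_sub_right, polar_sub_right, polar_smul_right, polar_smul_right, hvv, hvu,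
      polar_comm ⇑Q x v]
    simp

theorem finrank_inf_orth_pair_ge (hQ : (polarBilin Q).Nondegenerate) (N : Submodule F (ι → F))
    (u v : ι → F) :
    finrank F N ≤ finrank F ↥(N ⊓ LinearMap.BilinForm.orthogonal (polarBilin Q)
      (Submodule.span F ({u, v} : Set (ι → F)))) + 2 := by
  classical
  have hS := finrank_orth_span_ge Q hQ ({u, v} : Finset (ι → F))
  have hcard : ({u, v} : Finset (ι → F)).card ≤ 2 := Finset.card_le_two
  have hcoe : ((({u, v} : Finset (ι → F)) : Set (ι → F))) = ({u, v} : Set (ι → F)) := by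
    simp
  rw [hcoe] at hS
  have hsup := Submodule.finrank_sup_add_finrank_inf_eq N
    (LinearMap.BilinForm.orthogonal (polarBilin Q) (Submodule.span F ({u, v} : Set (ι → F))))
  have hle : finrank F ↥(N ⊔ LinearMap.BilinForm.orthogonal (polarBilin Q)
      (Submodule.span F ({u, v} : Set (ι → F)))) ≤ Fintype.card ι := by
    have := Submodule.finrank_le (N ⊔ LinearMap.BilinForm.orthogonal (polarBilin Q)
      (Submodule.span F ({u, v} : Set (ι → F))))
    rwa [Module.finrank_fintype_fun_eq_card] at this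
  omega

theorem mem_inf_orth_pair (N : Submodule F (ι → F)) (u v x : ι → F) :
    x ∈ N ⊓ LinearMap.BilinForm.orthogonal (polarBilin Q)
      (Submodule.span F ({u, v} : Set (ι → F))) ↔
      x ∈ N ∧ polar ⇑Q u x = 0 ∧ polar ⇑Q v x = 0 := by
  rw [Submodule.mem_inf, mem_orth_span]
  constructor
  · rintro ⟨h1, h2⟩
    exact ⟨h1, h2 u (by simp), h2 v (by simp)⟩
  · rintro ⟨h1, h2, h3⟩
    refine ⟨h1, ?_⟩
    intro s hs
    rcases hs with rfl | hs
    · exact h2
    · rw [Set.mem_singleton_iff] at hs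
      rw [hs]; exact h3

/-- A second hyperbolic pair in `N`, orthogonal to a given one. -/
theorem OrthPair.exists_second_pair [Fintype F] {N U : Submodule F (ι → F)}
    (h : OrthPair Q N U) (hQ : (polarBilin Q).Nondegenerate) (hdim : 5 ≤ finrank F N)
    {u v : ι → F} (hu : u ∈ N) (hv : v ∈ N) (hQu : Q u = 0) (hQv : Q v = 0)
    (huv : polar ⇑Q u v = 1) :
    ∃ u₂ ∈ N, ∃ v₂ ∈ N, Q u₂ = 0 ∧ Q v₂ = 0 ∧ polar ⇑Q u₂ v₂ = 1 ∧ polar ⇑Q u u₂ = 0 ∧
      polar ⇑Q v u₂ = 0 ∧ polar ⇑Q u v₂ = 0 ∧ polar ⇑Q v v₂ = 0 := by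
  have hge := finrank_inf_orth_pair_ge hQ N u v
  obtain ⟨u₂, hu₂mem, hu₂0, hu₂⟩ := exists_singular_of_finrank Q
    (N ⊓ LinearMap.BilinForm.orthogonal (polarBilin Q) (Submodule.span F ({u, v} : Set (ι → F))))
    (by omega)
  obtain ⟨hu₂N, huu₂, hvu₂⟩ := (mem_inf_orth_pair N u v u₂).mp hu₂mem
  obtain ⟨y, hy, hne⟩ := h.nondeg hQ hu₂N hu₂0
  obtain ⟨hp1, hp2⟩ := polar_proj u v y hQu hQv huv
  have hne' : polar ⇑Q u₂ (y - polar ⇑Q y v • u - polar ⇑Q y u • v) ≠ 0 := by
    rw [polar_sub_right, polar_sub_right, polar_smul_right, polar_smul_right,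
      polar_comm ⇑Q u₂ u, polar_comm ⇑Q u₂ v, huu₂, hvu₂]
    simpa using hne
  obtain ⟨a, b, h1, h2⟩ := exists_partner_of_polar_ne u₂ _ hu₂ hne'
  refine ⟨u₂, hu₂N, _, ?_, hu₂, h1, h2, huu₂, hvu₂, ?_, ?_⟩
  · exact N.add_mem (N.smul_mem _ (N.sub_mem (N.sub_mem hy (N.smul_mem _ hu)) (N.smul_mem _ hv)))
      (N.smul_mem _ hu₂N)
  · rw [polar_add_right, polar_smul_right, polar_smul_right, hp1, huu₂]; simp
  · rw [polar_add_right, polar_smul_right, polar_smul_right, hp2, hvu₂]; simp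

/-- A vector orthogonal to all singular vectors of `N` is orthogonal to `N` (`dim N ≥ 3`). -/
theorem OrthPair.orth_of_orth_singular [Fintype F] {N U : Submodule F (ι → F)}
    (h : OrthPair Q N U) (hQ : (polarBilin Q).Nondegenerate) (hdim : 3 ≤ finrank F N)
    (x : ι → F) (hx : ∀ s ∈ N, Q s = 0 → polar ⇑Q x s = 0) : ∀ y ∈ N, polar ⇑Q x y = 0 := by
  obtain ⟨s₀, hs₀N, hs₀0, hs₀⟩ := exists_singular_of_finrank Q N hdim
  obtain ⟨m, hmN, hm, hsm⟩ := h.exists_partner hQ hs₀N hs₀0 hs₀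
  intro z hz
  obtain ⟨hp1, hp2⟩ := polar_proj s₀ m z hs₀ hm hsm
  obtain ⟨z₀, hz₀⟩ : ∃ z₀, z₀ = z - polar ⇑Q z m • s₀ - polar ⇑Q z s₀ • m := ⟨_, rfl⟩
  rw [← hz₀] at hp1 hp2
  have hz₀N : z₀ ∈ N := by
    rw [hz₀]
    exact N.sub_mem (N.sub_mem hz (N.smul_mem _ hs₀N)) (N.smul_mem _ hmN)
  have hQs : Q (z₀ + (-Q z₀) • s₀ + (1 : F) • m) = 0 := by
    rw [Q_add_smul_add_smul, hs₀, hm, polar_comm ⇑Q z₀ s₀, hp1, polar_comm ⇑Q z₀ m, hp2, hsm]
    ring
  have h1 := hx _ (N.add_mem (N.add_mem hz₀N (N.smul_mem _ hs₀N)) (N.smul_mem _ hmN)) hQs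
  rw [polar_add_right, polar_add_right, polar_smul_right, polar_smul_right, hx s₀ hs₀N hs₀,
    hx m hmN hm, smul_zero, smul_zero, add_zero, add_zero] at h1
  have e : z = z₀ + polar ⇑Q z m • s₀ + polar ⇑Q z s₀ • m := by
    rw [hz₀]; abel
  rw [e, polar_add_right, polar_add_right, polar_smul_right, polar_smul_right, h1,
    hx s₀ hs₀N hs₀, hx m hmN hm, smul_zero, smul_zero, add_zero, add_zero]

/-- Two non-proportional singular vectors in a subspace of dimension at least four. -/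
theorem exists_two_singular [Fintype F] (M : Submodule F (ι → F)) (hM : 4 ≤ finrank F M) :
    ∃ u ∈ M, ∃ u' ∈ M, u ≠ 0 ∧ u' ≠ 0 ∧ Q u = 0 ∧ Q u' = 0 ∧
      u' ∉ Submodule.span F ({u} : Set (ι → F)) ∧ u ∉ Submodule.span F ({u'} : Set (ι → F)) := by
  obtain ⟨u, huM, hu0, hu⟩ := exists_singular_of_finrank Q M (by omega)
  obtain ⟨K, hK⟩ := Submodule.exists_isCompl (Submodule.span F ({u} : Set (ι → F)))
  have hKdim := Submodule.finrank_add_eq_of_isCompl hK
  rw [Module.finrank_fintype_fun_eq_card, finrank_span_singleton hu0] at hKdim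
  have hsup := Submodule.finrank_sup_add_finrank_inf_eq M K
  have hle : finrank F ↥(M ⊔ K) ≤ Fintype.card ι := by
    have := Submodule.finrank_le (M ⊔ K)
    rwa [Module.finrank_fintype_fun_eq_card] at this
  obtain ⟨u', hu'mem, hu'0, hu'⟩ := exists_singular_of_finrank Q (M ⊓ K) (by omega)
  have hn1 : u' ∉ Submodule.span F ({u} : Set (ι → F)) := by
    intro hmem
    apply hu'0
    have : u' ∈ Submodule.span F ({u} : Set (ι → F)) ⊓ K := ⟨hmem, hu'mem.2⟩
    rw [hK.inf_eq_bot, Submodule.mem_bot] at this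
    exact this
  refine ⟨u, huM, u', hu'mem.1, hu0, hu'0, hu, hu', hn1, ?_⟩
  intro hmem
  obtain ⟨c, hc⟩ := Submodule.mem_span_singleton.mp hmem
  have hc0 : c ≠ 0 := by
    rintro rfl
    apply hu0
    rw [← hc, zero_smul]
  apply hn1
  rw [Submodule.mem_span_singleton]
  exact ⟨c⁻¹, by rw [← hc, smul_smul, inv_mul_cancel₀ hc0, one_smul]⟩

end NondegGeom

end Cfsg.Agent.Lib.Helper52
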