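import Mathlib
import Cfsg.Agent.Lib.Helper52.NondegGeom

/-!
For an orthogonal decomposition `V = N ⊥ U` with `dim N ≥ 5`, the Eichler transformations
`ρ_{z,y}` with `z`, `y` in `N` (they generate `Ω(N)`, acting trivially on `U`) have fixed space
`U` (`orth_of_fixed`), act irreducibly on `N` (`irreducible`), and stabilise no subspace of the
dimension of `N` other than `N` itself and possibly `U` (`exists_eich_move`).
-/

set_option autoImplicit false
set_option linter.unusedSectionVars false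

namespace Cfsg.Agent.Lib.Helper52

open Module QuadraticMap
open Cfsg.Agent.Lib.Helper51

section NondegIrr

variable {ι : Type} [Fintype ι] [DecidableEq ι] {F : Type*} [Field F] [Fintype F]
variable {Q : QuadraticForm F (ι → F)}

theorem eichMat_mulVec_mem (N : Submodule F (ι → F)) {z y x : ι → F} (hz : z ∈ N) (hy : y ∈ N)
    (hx : x ∈ N) : (eichMat Q z y).mulVec x ∈ N := by
  rw [eichMat_mulVec]
  exact N.sub_mem (N.sub_mem (N.add_mem hx (N.smul_mem _ hz)) (N.smul_mem _ hy))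
    (N.smul_mem _ hz)

theorem eichMat_mulVec_sub_mem (N : Submodule F (ι → F)) {z y : ι → F} (hz : z ∈ N)
    (hy : y ∈ N) (x : ι → F) : (eichMat Q z y).mulVec x - x ∈ N := by
  rw [eichMat_mulVec]
  have e : x + polar ⇑Q y x • z - polar ⇑Q z x • y - (Q y * polar ⇑Q z x) • z - x
      = polar ⇑Q y x • z - polar ⇑Q z x • y - (Q y * polar ⇑Q z x) • z := by abel
  rw [e]
  exact N.sub_mem (N.sub_mem (N.smul_mem _ hz) (N.smul_mem _ hy)) (N.smul_mem _ hz)

/-- A vector fixed by all Eichler transformations of `N` is orthogonal to `N`. -/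
theorem OrthPair.orth_of_fixed {N U : Submodule F (ι → F)} (h : OrthPair Q N U)
    (hQ : (polarBilin Q).Nondegenerate) (hdim : 5 ≤ finrank F N) (x : ι → F)
    (hfix : ∀ z ∈ N, ∀ y ∈ N, Q z = 0 → polar ⇑Q z y = 0 → (eichMat Q z y).mulVec x = x) :
    ∀ y ∈ N, polar ⇑Q x y = 0 := by
  apply h.orth_of_orth_singular hQ (by omega)
  intro s hsN hs
  by_cases hs0 : s = 0
  · rw [hs0]; exact polar_zero_right _ _
  obtain ⟨v, hvN, hv, hsv⟩ := h.exists_partner hQ hsN hs0 hs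
  obtain ⟨u₂, hu₂N, v₂, hv₂N, hu₂, hv₂, hu₂v₂, hsu₂, hvu₂, hsv₂, hvv₂⟩ :=
    h.exists_second_pair hQ hdim hsN hvN hs hv hsv
  have h1 := hfix s hsN u₂ hu₂N hs hsu₂
  rw [eichMat_mulVec, hu₂, zero_mul, zero_smul, sub_zero] at h1
  have h2 : polar ⇑Q u₂ x • s - polar ⇑Q s x • u₂ = 0 := by
    have e : polar ⇑Q u₂ x • s - polar ⇑Q s x • u₂
        = (x + polar ⇑Q u₂ x • s - polar ⇑Q s x • u₂) - x := by abel
    rw [e, h1, sub_self]
  have h3 : polar ⇑Q v₂ (polar ⇑Q u₂ x • s - polar ⇑Q s x • u₂) = 0 := by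
    rw [h2]; exact polar_zero_right _ _
  rw [polar_sub_right, polar_smul_right, polar_smul_right, polar_comm ⇑Q v₂ s, hsv₂,
    polar_comm ⇑Q v₂ u₂, hu₂v₂, smul_zero, zero_sub, smul_eq_mul, mul_one, neg_eq_zero] at h3
  rw [polar_comm]; exact h3

/-- The Eichler transformations of `N` act irreducibly on `N`. -/
theorem OrthPair.irreducible {N U : Submodule F (ι → F)} (h : OrthPair Q N U)
    (hQ : (polarBilin Q).Nondegenerate) (hdim : 5 ≤ finrank F N) (Y : Submodule F (ι → F))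
    (hYN : Y ≤ N)
    (hinv : ∀ z ∈ N, ∀ y ∈ N, Q z = 0 → polar ⇑Q z y = 0 → ∀ x ∈ Y,
      (eichMat Q z y).mulVec x ∈ Y)
    (hY : Y ≠ ⊥) : N ≤ Y := by
  -- the key step
  have key : ∀ z ∈ N, Q z = 0 → ∀ y₀ ∈ Y, polar ⇑Q z y₀ ≠ 0 →
      z ∈ Y ∧ ∀ y ∈ N, polar ⇑Q z y = 0 → y ∈ Y := by
    intro z hzN hz y₀ hy₀ hc
    have hz0 : z ≠ 0 := by
      rintro rfl
      exact hc (polar_zero_left _ _)
    obtain ⟨v, hvN, hv, hzv⟩ := h.exists_partner hQ hzN hz0 hz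
    obtain ⟨u₂, hu₂N, v₂, hv₂N, hu₂, hv₂, hu₂v₂, hzu₂, hvu₂, hzv₂, hvv₂⟩ :=
      h.exists_second_pair hQ hdim hzN hvN hz hv hzv
    have hφ : ∀ y ∈ N, polar ⇑Q z y = 0 →
        polar ⇑Q y y₀ • z - polar ⇑Q z y₀ • y - (Q y * polar ⇑Q z y₀) • z ∈ Y := by
      intro y hyN hzy
      have h1 := Y.sub_mem (hinv z hzN y hyN hz hzy y₀ hy₀) hy₀
      rw [eichMat_mulVec] at h1
      have e : y₀ + polar ⇑Q y y₀ • z - polar ⇑Q z y₀ • y - (Q y * polar ⇑Q z y₀) • z - y₀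
          = polar ⇑Q y y₀ • z - polar ⇑Q z y₀ • y - (Q y * polar ⇑Q z y₀) • z := by abel
      rwa [e] at h1
    have hzY : z ∈ Y := by
      have h1 := hφ u₂ hu₂N hzu₂
      have h2 := hφ v₂ hv₂N hzv₂
      have h3 := hφ (u₂ + v₂) (N.add_mem hu₂N hv₂N)
        (by rw [polar_add_right, hzu₂, hzv₂, add_zero])
      have hQ12 : Q (u₂ + v₂) = 1 := by
        have := Q_add_smul Q u₂ v₂ 1
        rw [one_smul] at this
        rw [this, hu₂, hv₂, hu₂v₂]; ring
      rw [hu₂, zero_mul, zero_smul, sub_zero] at h1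
      rw [hv₂, zero_mul, zero_smul, sub_zero] at h2
      rw [hQ12, one_mul, polar_add_left] at h3
      have h4 := Y.sub_mem (Y.add_mem h1 h2) h3
      have e : polar ⇑Q u₂ y₀ • z - polar ⇑Q z y₀ • u₂
            + (polar ⇑Q v₂ y₀ • z - polar ⇑Q z y₀ • v₂)
            - ((polar ⇑Q u₂ y₀ + polar ⇑Q v₂ y₀) • z - polar ⇑Q z y₀ • (u₂ + v₂)
              - polar ⇑Q z y₀ • z) = polar ⇑Q z y₀ • z := by
        module
      rw [e] at h4
      have h5 := Y.smul_mem (polar ⇑Q z y₀)⁻¹ h4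
      rwa [smul_smul, inv_mul_cancel₀ hc, one_smul] at h5
    refine ⟨hzY, ?_⟩
    intro y hyN hzy
    have h1 := hφ y hyN hzy
    have h2 : polar ⇑Q z y₀ • y ∈ Y := by
      have h3 := Y.sub_mem (Y.sub_mem (Y.smul_mem (polar ⇑Q y y₀) hzY)
        (Y.smul_mem (Q y * polar ⇑Q z y₀) hzY)) h1
      have e : polar ⇑Q y y₀ • z - (Q y * polar ⇑Q z y₀) • z
          - (polar ⇑Q y y₀ • z - polar ⇑Q z y₀ • y - (Q y * polar ⇑Q z y₀) • z)
          = polar ⇑Q z y₀ • y := by module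
      rwa [e] at h3
    have h5 := Y.smul_mem (polar ⇑Q z y₀)⁻¹ h2
    rwa [smul_smul, inv_mul_cancel₀ hc, one_smul] at h5
  obtain ⟨y₀, hy₀Y, hy₀0⟩ := Submodule.exists_mem_ne_zero_of_ne_bot hY
  obtain ⟨z, hzN, hz, hzy₀⟩ : ∃ z ∈ N, Q z = 0 ∧ polar ⇑Q z y₀ ≠ 0 := by
    by_contra hcon
    push Not at hcon
    obtain ⟨y, hyN, hne⟩ := h.nondeg hQ (hYN hy₀Y) hy₀0
    apply hne
    apply h.orth_of_orth_singular hQ (by omega) y₀ _ y hyN
    intro s hsN hs
    rw [polar_comm]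
    exact hcon s hsN hs
  obtain ⟨hzY, hzperp⟩ := key z hzN hz y₀ hy₀Y hzy₀
  have hz0 : z ≠ 0 := by
    rintro rfl
    exact hzy₀ (polar_zero_left _ _)
  obtain ⟨v, hvN, hv, hzv⟩ := h.exists_partner hQ hzN hz0 hz
  have hvz : polar ⇑Q v z ≠ 0 := by
    rw [polar_comm, hzv]; exact one_ne_zero
  obtain ⟨hvY, -⟩ := key v hvN hv z hzY hvz
  intro x hxN
  have h1 : x - polar ⇑Q z x • v ∈ Y := by
    apply hzperp _ (N.sub_mem hxN (N.smul_mem _ hvN))
    rw [polar_sub_right, polar_smul_right, hzv, smul_eq_mul, mul_one, sub_self]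
  have h2 := Y.add_mem h1 (Y.smul_mem (polar ⇑Q z x) hvY)
  rwa [sub_add_cancel] at h2

/-- A subspace of the dimension of `N`, different from `N` and not contained in `U`, is moved
by some Eichler transformation of `N`. -/
theorem OrthPair.exists_eich_move {N U : Submodule F (ι → F)} (h : OrthPair Q N U)
    (hQ : (polarBilin Q).Nondegenerate) (hdim : 5 ≤ finrank F N) (N₁ : Submodule F (ι → F))
    (hfin : finrank F N₁ = finrank F N) (hne : N₁ ≠ N) (hU : ¬ N₁ ≤ U) :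
    ∃ z ∈ N, ∃ y ∈ N, Q z = 0 ∧ polar ⇑Q z y = 0 ∧
      ∃ x ∈ N₁, (eichMat Q z y).mulVec x ∉ N₁ := by
  by_contra hcon
  push Not at hcon
  by_cases hY : N₁ ⊓ N = ⊥
  · apply hU
    intro x hx
    apply h.mem_of_orth hQ
    intro y hy
    rw [polar_comm]
    apply h.orth_of_fixed hQ hdim x _ y hy
    intro z hzN y' hy'N hz hzy'
    have h1 : (eichMat Q z y').mulVec x - x ∈ N₁ ⊓ N :=
      ⟨N₁.sub_mem (hcon z hzN y' hy'N hz hzy' x hx) hx, eichMat_mulVec_sub_mem N hzN hy'N x⟩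
    rw [hY, Submodule.mem_bot, sub_eq_zero] at h1
    exact h1
  · have hle : N ≤ N₁ ⊓ N := by
      apply h.irreducible hQ hdim (N₁ ⊓ N) inf_le_right _ hY
      intro z hzN y hyN hz hzy x hx
      exact ⟨hcon z hzN y hyN hz hzy x hx.1, eichMat_mulVec_mem N hzN hyN hx.2⟩
    have hle' : N ≤ N₁ := hle.trans inf_le_left
    exact hne (Submodule.eq_of_le_of_finrank_eq hle' hfin.symm).symm

end NondegIrr

end Cfsg.Agent.Lib.Helper52
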