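import Mathlib
import Cfsg.Agent.Lib.Helper52.NondegIrr

/-!
Let `V = N ⊥ U` with `dim N ≥ 6` and let `H` be a subgroup of the isometry group containing the
stabiliser of the decomposition in `Ω`. If some element of `H` does not stabilise `N` (and no
element of `H` maps `N` into `U`), then `H` contains a "mixed" Eichler transformation
`ρ_{u,a}` with `u` a non-zero singular vector of `N` and `a` a non-zero vector of `U`.
-/

set_option autoImplicit false
set_option linter.unusedSectionVars false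

namespace Cfsg.Agent.Lib.Helper52

open Module QuadraticMap
open Cfsg.Agent.Lib.Helper51

section NondegMixed

variable {ι : Type} [Fintype ι] [DecidableEq ι] {F : Type*} [Field F] [Fintype F]
variable (Q : QuadraticForm F (ι → F))

local notation "mt(" g ")" => ((g : Matrix.GeneralLinearGroup ι F) : Matrix ι ι F)

/-- `H` contains every element of `Ω` mapping `N` into `N` and `U` into `U`. -/
def ContainsStab (H : Subgroup ↥(Cfsg.isometryGroup F ⇑Q)) (N U : Submodule F (ι → F)) : Prop :=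
  ∀ g ∈ commutator ↥(Cfsg.isometryGroup F ⇑Q), (∀ x ∈ N, mt(g).mulVec x ∈ N) →
    (∀ x ∈ U, mt(g).mulVec x ∈ U) → g ∈ H

variable {Q}

theorem ContainsStab.symm {H : Subgroup ↥(Cfsg.isometryGroup F ⇑Q)}
    {N U : Submodule F (ι → F)} (hP : ContainsStab Q H N U) : ContainsStab Q H U N :=
  fun g hg h1 h2 => hP g hg h2 h1

/-- The Eichler transformations of `N` lie in `H`. -/
theorem OrthPair.eich_mem {N U : Submodule F (ι → F)} (h : OrthPair Q N U)
    (hQ : (polarBilin Q).Nondegenerate) (hn : 5 ≤ Fintype.card ι)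
    {H : Subgroup ↥(Cfsg.isometryGroup F ⇑Q)} (hP : ContainsStab Q H N U) {z y : ι → F}
    (hzN : z ∈ N) (hyN : y ∈ N) (hz : Q z = 0) (hzy : polar ⇑Q z y = 0) :
    eich Q z y hz hzy ∈ H := by
  apply hP _ (eich_mem_commutator Q hQ hn z y hz hzy)
  · intro x hx
    rw [coe_eich]
    exact eichMat_mulVec_mem N hzN hyN hx
  · intro x hx
    rw [coe_eich, eichMat_mulVec_of_orth Q z y x (h.orth y hyN x hx) (h.orth z hzN x hx)]
    exact hx

/-- From an element of `H` fixing a singular vector `u` of `N` and moving a vector of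
`N ∩ u^⊥` out of `N`, a mixed Eichler transformation in `H`. -/
theorem OrthPair.mixed_of_fix {N U : Submodule F (ι → F)} (h : OrthPair Q N U)
    (hQ : (polarBilin Q).Nondegenerate) (hn : 5 ≤ Fintype.card ι)
    {H : Subgroup ↥(Cfsg.isometryGroup F ⇑Q)} (hP : ContainsStab Q H N U)
    (k : ↥(Cfsg.isometryGroup F ⇑Q)) (hk : k ∈ H) {u w : ι → F} (huN : u ∈ N) (hQu : Q u = 0)
    (hku : mt(k).mulVec u = u) (hwN : w ∈ N) (huw : polar ⇑Q u w = 0)
    (hkw : mt(k).mulVec w ∉ N) :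
    ∃ a ∈ U, a ≠ 0 ∧ ∃ hua : polar ⇑Q u a = 0, eich Q u a hQu hua ∈ H := by
  have h1 : eich Q u w hQu huw ∈ H := h.eich_mem hQ hn hP huN hwN hQu huw
  have h2 : k * eich Q u w hQu huw * k⁻¹ ∈ H := H.mul_mem (H.mul_mem hk h1) (H.inv_mem hk)
  rw [conj_eich] at h2
  have huw' : polar ⇑Q u (mt(k).mulVec w) = 0 := by
    have := isometry_polar Q k u w
    rw [hku, huw] at this
    exact this
  have h3 : eich Q u (mt(k).mulVec w) hQu huw' ∈ H := by
    have e : eich Q u (mt(k).mulVec w) hQu huw'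
        = eich Q (mt(k).mulVec u) (mt(k).mulVec w) (by rw [isometry_apply, hQu])
          (by rw [isometry_polar, huw]) := by
      apply eich_congr
      rw [hku]
    rw [e]; exact h2
  obtain ⟨b, hb, a, ha, hba⟩ := h.exists_decomp (mt(k).mulVec w)
  have hua : polar ⇑Q u a = 0 := h.orth u huN a ha
  have hub : polar ⇑Q u b = 0 := by
    have := huw'
    rw [← hba, polar_add_right, hua, add_zero] at this
    exact this
  have hub' : polar ⇑Q u (-b) = 0 := by rw [polar_neg_right, hub, neg_zero]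
  refine ⟨a, ha, ?_, hua, ?_⟩
  · rintro rfl
    apply hkw
    rw [← hba, add_zero]
    exact hb
  · have e : eich Q u a hQu hua
        = eich Q u (mt(k).mulVec w) hQu huw' * eich Q u (-b) hQu hub' := by
      rw [eich_mul]
      apply eich_congr
      rw [← hba]
      congr 1
      abel
    rw [e]
    exact H.mul_mem h3 (h.eich_mem hQ hn hP huN (N.neg_mem hb) hQu hub')

/-- From an element of `H` not stabilising `N`, an element of `H` not stabilising `N` and
fixing pointwise a subspace of `N` of codimension at most 2. -/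
theorem OrthPair.exists_fixing_move {N U : Submodule F (ι → F)} (h : OrthPair Q N U)
    (hQ : (polarBilin Q).Nondegenerate) (hn : 5 ≤ Fintype.card ι) (hdim : 5 ≤ finrank F N)
    {H : Subgroup ↥(Cfsg.isometryGroup F ⇑Q)} (hP : ContainsStab Q H N U)
    (hswap : ∀ k ∈ H, ¬ ∀ x ∈ N, mt(k).mulVec x ∈ U)
    (g : ↥(Cfsg.isometryGroup F ⇑Q)) (hg : g ∈ H) (hmove : ∃ x ∈ N, mt(g).mulVec x ∉ N) :
    ∃ k ∈ H, (∃ x ∈ N, mt(k).mulVec x ∉ N) ∧ ∃ M : Submodule F (ι → F), M ≤ N ∧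
      finrank F N ≤ finrank F M + 2 ∧ ∀ s ∈ M, mt(k).mulVec s = s := by
  obtain ⟨N₁, hN₁⟩ : ∃ N₁ : Submodule F (ι → F),
      N₁ = N.map (Matrix.mulVecLin mt((g⁻¹ : ↥(Cfsg.isometryGroup F ⇑Q)))) := ⟨_, rfl⟩
  have hmem : ∀ x, x ∈ N₁ ↔ ∃ y ∈ N, mt((g⁻¹ : ↥(Cfsg.isometryGroup F ⇑Q))).mulVec y = x := by
    intro x
    rw [hN₁, Submodule.mem_map]
    simp only [Matrix.mulVecLin_apply]
  have hfin : finrank F N₁ = finrank F N := by
    rw [hN₁]; exact finrank_map_isometry Q g⁻¹ N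
  have hne : N₁ ≠ N := by
    intro heq
    obtain ⟨x, hxN, hx⟩ := hmove
    apply hx
    rw [← heq] at hxN
    obtain ⟨y, hyN, rfl⟩ := (hmem x).mp hxN
    rw [coe_inv_mulVec]
    exact hyN
  have hU : ¬ N₁ ≤ U := by
    intro hle
    apply hswap g⁻¹ (H.inv_mem hg)
    intro x hx
    exact hle ((hmem _).mpr ⟨x, hx, rfl⟩)
  obtain ⟨z, hzN, y, hyN, hz, hzy, x₁, hx₁, hmv⟩ := h.exists_eich_move hQ hdim N₁ hfin hne hU
  obtain ⟨x₀, hx₀N, rfl⟩ := (hmem x₁).mp hx₁
  have hp : eich Q z y hz hzy ∈ H := h.eich_mem hQ hn hP hzN hyN hz hzy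
  have hkapp : ∀ s, mt((g * eich Q z y hz hzy * g⁻¹ : ↥(Cfsg.isometryGroup F ⇑Q))).mulVec s
      = mt(g).mulVec ((eichMat Q z y).mulVec
        (mt((g⁻¹ : ↥(Cfsg.isometryGroup F ⇑Q))).mulVec s)) := by
    intro s
    rw [coe_mul', coe_mul', coe_eich, ← Matrix.mulVec_mulVec, ← Matrix.mulVec_mulVec]
  refine ⟨g * eich Q z y hz hzy * g⁻¹, H.mul_mem (H.mul_mem hg hp) (H.inv_mem hg),
    ⟨x₀, hx₀N, ?_⟩,
    (N₁ ⊓ LinearMap.BilinForm.orthogonal (polarBilin Q)
      (Submodule.span F ({z, y} : Set (ι → F)))).map (Matrix.mulVecLin mt(g)), ?_, ?_, ?_⟩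
  · intro hcon
    apply hmv
    rw [hmem]
    refine ⟨_, hcon, ?_⟩
    rw [hkapp, coe_inv_mulVec']
  · rintro s ⟨s', hs', rfl⟩
    obtain ⟨n, hnN, rfl⟩ := (hmem s').mp hs'.1
    rw [Matrix.mulVecLin_apply, coe_inv_mulVec]
    exact hnN
  · rw [finrank_map_isometry Q g, ← hfin]
    exact finrank_inf_orth_pair_ge hQ N₁ z y
  · rintro s ⟨s', hs', rfl⟩
    obtain ⟨-, hzs, hys⟩ := (mem_inf_orth_pair N₁ z y s').mp hs'
    rw [Matrix.mulVecLin_apply, hkapp, coe_inv_mulVec', eichMat_mulVec_of_orth Q z y s' hys hzs]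

/-- A mixed Eichler transformation in `H`. -/
theorem OrthPair.exists_mixed {N U : Submodule F (ι → F)} (h : OrthPair Q N U)
    (hQ : (polarBilin Q).Nondegenerate) (hn : 5 ≤ Fintype.card ι) (hdim : 6 ≤ finrank F N)
    {H : Subgroup ↥(Cfsg.isometryGroup F ⇑Q)} (hP : ContainsStab Q H N U)
    (hswap : ∀ k ∈ H, ¬ ∀ x ∈ N, mt(k).mulVec x ∈ U)
    (g : ↥(Cfsg.isometryGroup F ⇑Q)) (hg : g ∈ H) (hmove : ∃ x ∈ N, mt(g).mulVec x ∉ N) :
    ∃ u ∈ N, u ≠ 0 ∧ ∃ hQu : Q u = 0, ∃ a ∈ U, a ≠ 0 ∧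
      ∃ hua : polar ⇑Q u a = 0, eich Q u a hQu hua ∈ H := by
  obtain ⟨k, hk, hkmove, M, hMN, hMdim, hfix⟩ :=
    h.exists_fixing_move hQ hn (by omega) hP hswap g hg hmove
  obtain ⟨u, huM, u', hu'M, hu0, hu'0, hQu, hQu', hn1, hn2⟩ :=
    exists_two_singular (Q := Q) M (by omega)
  have hgood : (∃ w ∈ N, polar ⇑Q u w = 0 ∧ mt(k).mulVec w ∉ N) ∨
      (∃ w ∈ N, polar ⇑Q u' w = 0 ∧ mt(k).mulVec w ∉ N) := by
    by_contra hcon
    push Not at hcon
    obtain ⟨hc1, hc2⟩ := hcon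
    obtain ⟨x, hxN, hx⟩ := hkmove
    apply hx
    obtain ⟨y, hyu, hyo⟩ := exists_polar_sep Q hQ _ u hn2
    have hyu' : polar ⇑Q y u' = 0 := hyo u' (Submodule.mem_span_singleton_self u')
    obtain ⟨a, ha, b, hb, hab⟩ := h.exists_decomp y
    have hau : polar ⇑Q u a = 1 := by
      have := hyu
      rw [← hab, polar_add_left, polar_comm ⇑Q b u, h.orth u (hMN huM) b hb, add_zero] at this
      rw [polar_comm]; exact this
    have hau' : polar ⇑Q u' a = 0 := by
      have := hyu'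
      rw [← hab, polar_add_left, polar_comm ⇑Q b u', h.orth u' (hMN hu'M) b hb, add_zero] at this
      rw [polar_comm]; exact this
    have e : x = (x - polar ⇑Q u x • a) + polar ⇑Q u x • a := by abel
    rw [e, Matrix.mulVec_add]
    apply N.add_mem
    · apply hc1 _ (N.sub_mem hxN (N.smul_mem _ ha))
      rw [polar_sub_right, polar_smul_right, hau, smul_eq_mul, mul_one, sub_self]
    · apply hc2 _ (N.smul_mem _ ha)
      rw [polar_smul_right, hau', smul_zero]
  rcases hgood with ⟨w, hwN, huw, hkw⟩ | ⟨w, hwN, huw, hkw⟩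
  · obtain ⟨a, ha, ha0, hua, hmem⟩ := h.mixed_of_fix hQ hn hP k hk (hMN huM) hQu
      (hfix u huM) hwN huw hkw
    exact ⟨u, hMN huM, hu0, hQu, a, ha, ha0, hua, hmem⟩
  · obtain ⟨a, ha, ha0, hua, hmem⟩ := h.mixed_of_fix hQ hn hP k hk (hMN hu'M) hQu'
      (hfix u' hu'M) hwN huw hkw
    exact ⟨u', hMN hu'M, hu'0, hQu', a, ha, ha0, hua, hmem⟩

end NondegMixed

end Cfsg.Agent.Lib.Helper52
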