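import Mathlib
import Cfsg.Agent.Lib.Helper52.NondegMixed

/-!
Maximality in `Ω` of the stabiliser of an orthogonal decomposition `V = N ⊥ U`
(`nondeg_stabiliser_maximal`): for a singular vector `u` of `N`, the set `A_u` of `a ∈ U` with
`ρ_{u,a} ∈ H` is a subspace of `U` invariant under the reflections and the Eichler
transformations of `U`; such a non-zero subspace is `U` unless `|F| ≤ 3` and `U` is a
hyperbolic plane (`invariant_eq`). Then `u` is a full point of `H`, as is its image under a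
suitable Eichler transformation of `N`, which is not orthogonal to `u`.
-/

set_option autoImplicit false
set_option linter.unusedSectionVars false

namespace Cfsg.Agent.Lib.Helper52

open Module QuadraticMap
open Cfsg.Agent.Lib.Helper51

section NondegFull

variable {ι : Type} [Fintype ι] [DecidableEq ι] {F : Type*} [Field F] [Fintype F]
variable (Q : QuadraticForm F (ι → F))

local notation "mt(" g ")" => ((g : Matrix.GeneralLinearGroup ι F) : Matrix ι ι F)

/-- The Eichler transformation `ρ_{u,a}` lies in `H`. -/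
def MixedIn (H : Subgroup ↥(Cfsg.isometryGroup F ⇑Q)) (u a : ι → F) : Prop :=
  ∃ (hu : Q u = 0) (hua : polar ⇑Q u a = 0), eich Q u a hu hua ∈ H

variable {Q}

theorem mixedIn_zero (H : Subgroup ↥(Cfsg.isometryGroup F ⇑Q)) {u : ι → F} (hu : Q u = 0) :
    MixedIn Q H u 0 :=
  ⟨hu, polar_zero_right _ _, by rw [eich_zero]; exact H.one_mem⟩

theorem mixedIn_add {H : Subgroup ↥(Cfsg.isometryGroup F ⇑Q)} {u a a' : ι → F}
    (h : MixedIn Q H u a) (h' : MixedIn Q H u a') : MixedIn Q H u (a + a') := by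
  obtain ⟨hu, hua, hmem⟩ := h
  obtain ⟨hu', hua', hmem'⟩ := h'
  refine ⟨hu, by rw [polar_add_right, hua, hua', add_zero], ?_⟩
  have := H.mul_mem hmem hmem'
  rwa [eich_mul] at this

theorem mixedIn_conj {H : Subgroup ↥(Cfsg.isometryGroup F ⇑Q)} {u a : ι → F}
    (hm : MixedIn Q H u a) (k : ↥(Cfsg.isometryGroup F ⇑Q)) (hk : k ∈ H) (c : F)
    (hku : mt(k).mulVec u = c • u) : MixedIn Q H u (c • mt(k).mulVec a) := by
  obtain ⟨hu, hua, hmem⟩ := hm
  have h2 : k * eich Q u a hu hua * k⁻¹ ∈ H := H.mul_mem (H.mul_mem hk hmem) (H.inv_mem hk)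
  rw [conj_eich] at h2
  have h3 : polar ⇑Q u (c • mt(k).mulVec a) = 0 := by
    have := isometry_polar Q k u a
    rw [hku, hua, polar_smul_left] at this
    rw [polar_smul_right]; exact this
  refine ⟨hu, h3, ?_⟩
  have e : eich Q u (c • mt(k).mulVec a) hu h3
      = eich Q (mt(k).mulVec u) (mt(k).mulVec a) (by rw [isometry_apply, hu])
        (by rw [isometry_polar, hua]) := by
    apply eich_congr
    rw [hku, eichMat_smul_left]
  rw [e]; exact h2

/-- An element of `H` scaling the singular vector `u` of `N` by `c` and fixing `U`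
pointwise. -/
theorem OrthPair.exists_torus {N U : Submodule F (ι → F)} (h : OrthPair Q N U)
    (hQ : (polarBilin Q).Nondegenerate) (hn : 5 ≤ Fintype.card ι) (hdim : 5 ≤ finrank F N)
    {H : Subgroup ↥(Cfsg.isometryGroup F ⇑Q)} (hP : ContainsStab Q H N U) {u : ι → F}
    (huN : u ∈ N) (hu0 : u ≠ 0) (hQu : Q u = 0) (c : F) (hc : c ≠ 0) :
    ∃ t ∈ H, mt(t).mulVec u = c • u ∧ ∀ a ∈ U, mt(t).mulVec a = a := by
  obtain ⟨v, hvN, hv, huv⟩ := h.exists_partner hQ huN hu0 hQu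
  obtain ⟨u₂, hu₂N, v₂, hv₂N, hu₂, hv₂, hu₂v₂, huu₂, hvu₂, huv₂, hvv₂⟩ :=
    h.exists_second_pair hQ hdim huN hvN hQu hv huv
  have hvu : polar ⇑Q v u = 1 := by rw [polar_comm]; exact huv
  have hv₂u₂ : polar ⇑Q v₂ u₂ = 1 := by rw [polar_comm]; exact hu₂v₂
  have hv₂u : polar ⇑Q v₂ u = 0 := by rw [polar_comm]; exact huv₂
  have hQp₁ : Q (v + v₂) = 0 := by
    have := Q_add_smul Q v v₂ 1
    rw [one_smul] at this
    rw [this, hv, hv₂, hvv₂]; ring
  have hQp₂ : Q (c⁻¹ • v + v₂) = 0 := by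
    have := Q_add_smul Q (c⁻¹ • v) v₂ 1
    rw [one_smul] at this
    rw [this, QuadraticMap.map_smul, hv, hv₂, polar_smul_left, hvv₂]; simp
  have h11 : polar ⇑Q (v + v₂) u = 1 := by rw [polar_add_left, hvu, hv₂u, add_zero]
  have h12 : polar ⇑Q (v + v₂) u₂ = 1 := by rw [polar_add_left, hvu₂, hv₂u₂, zero_add]
  have h21 : polar ⇑Q (c⁻¹ • v + v₂) u₂ = 1 := by
    rw [polar_add_left, polar_smul_left, hvu₂, hv₂u₂, smul_zero, zero_add]
  have h22 : polar ⇑Q (c⁻¹ • v + v₂) (c • u) = 1 := by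
    rw [polar_smul_right, polar_add_left, polar_smul_left, hvu, hv₂u, add_zero, smul_eq_mul,
      smul_eq_mul, mul_one, mul_inv_cancel₀ hc]
  have ho1 : polar ⇑Q (v + v₂) (u - u₂) = 0 := by rw [polar_sub_right, h11, h12, sub_self]
  have ho2 : polar ⇑Q (c⁻¹ • v + v₂) (u₂ - c • u) = 0 := by
    rw [polar_sub_right, h21, h22, sub_self]
  have hp₁N : v + v₂ ∈ N := N.add_mem hvN hv₂N
  have hp₂N : c⁻¹ • v + v₂ ∈ N := N.add_mem (N.smul_mem _ hvN) hv₂N
  have hw₁N : u - u₂ ∈ N := N.sub_mem huN hu₂N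
  have hw₂N : u₂ - c • u ∈ N := N.sub_mem hu₂N (N.smul_mem _ huN)
  refine ⟨eich Q (c⁻¹ • v + v₂) (u₂ - c • u) hQp₂ ho2 * eich Q (v + v₂) (u - u₂) hQp₁ ho1,
    H.mul_mem (h.eich_mem hQ hn hP hp₂N hw₂N hQp₂ ho2) (h.eich_mem hQ hn hP hp₁N hw₁N hQp₁ ho1),
    ?_, ?_⟩
  · rw [coe_mul', coe_eich, coe_eich, ← Matrix.mulVec_mulVec,
      eichMat_mulVec_of_pair Q (v + v₂) u u₂ h11 h12 (by rw [hQu, hu₂]),
      eichMat_mulVec_of_pair Q (c⁻¹ • v + v₂) u₂ (c • u) h21 h22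
        (by rw [QuadraticMap.map_smul, hQu, hu₂, smul_zero])]
  · intro a ha
    rw [coe_mul', coe_eich, coe_eich, ← Matrix.mulVec_mulVec,
      eichMat_mulVec_of_orth Q _ _ a (h.orth _ hw₁N a ha) (h.orth _ hp₁N a ha),
      eichMat_mulVec_of_orth Q _ _ a (h.orth _ hw₂N a ha) (h.orth _ hp₂N a ha)]

theorem OrthPair.mixedIn_smul {N U : Submodule F (ι → F)} (h : OrthPair Q N U)
    (hQ : (polarBilin Q).Nondegenerate) (hn : 5 ≤ Fintype.card ι) (hdim : 5 ≤ finrank F N)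
    {H : Subgroup ↥(Cfsg.isometryGroup F ⇑Q)} (hP : ContainsStab Q H N U) {u a : ι → F}
    (huN : u ∈ N) (hu0 : u ≠ 0) (haU : a ∈ U) (hm : MixedIn Q H u a) (c : F) :
    MixedIn Q H u (c • a) := by
  by_cases hc : c = 0
  · rw [hc, zero_smul]; exact mixedIn_zero H hm.1
  obtain ⟨t, ht, htu, hta⟩ := h.exists_torus hQ hn hdim hP huN hu0 hm.1 c hc
  have := mixedIn_conj hm t ht c htu
  rwa [hta a haU] at this

theorem OrthPair.mixedIn_refl {N U : Submodule F (ι → F)} (h : OrthPair Q N U)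
    (hQ : (polarBilin Q).Nondegenerate) (hn : 5 ≤ Fintype.card ι) (hdim : 5 ≤ finrank F N)
    {H : Subgroup ↥(Cfsg.isometryGroup F ⇑Q)} (hP : ContainsStab Q H N U) {u a b : ι → F}
    (huN : u ∈ N) (hu0 : u ≠ 0) (haU : a ∈ U) (hm : MixedIn Q H u a) (hbU : b ∈ U)
    (hb : Q b ≠ 0) : MixedIn Q H u (a - ((Q b)⁻¹ * polar ⇑Q b a) • b) := by
  have hQu := hm.1
  obtain ⟨v, hvN, hv, huv⟩ := h.exists_partner hQ huN hu0 hQu
  obtain ⟨u₂, hu₂N, v₂, hv₂N, hu₂, hv₂, hu₂v₂, huu₂, hvu₂, huv₂, hvv₂⟩ :=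
    h.exists_second_pair hQ hdim huN hvN hQu hv huv
  have hQc : Q (u₂ + Q b • v₂) = Q b := by
    rw [Q_add_smul, hu₂, hv₂, hu₂v₂]; ring
  have hc : Q (u₂ + Q b • v₂) ≠ 0 := by rw [hQc]; exact hb
  have hcN : u₂ + Q b • v₂ ∈ N := N.add_mem hu₂N (N.smul_mem _ hv₂N)
  have hcu : polar ⇑Q (u₂ + Q b • v₂) u = 0 := by
    rw [polar_add_left, polar_smul_left, polar_comm ⇑Q u₂ u, huu₂, polar_comm ⇑Q v₂ u, huv₂,
      smul_zero, add_zero]
  have hρc : refl Q b hb * refl Q (u₂ + Q b • v₂) hc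
      ∈ commutator ↥(Cfsg.isometryGroup F ⇑Q) :=
    Cfsg.Agent.Lib.Helper7.refl_mul_refl_mem_commutator Q hQ (Or.inr (by omega)) b _ hb hc
      hQc.symm
  have happ : ∀ x, mt((refl Q b hb * refl Q (u₂ + Q b • v₂) hc :
      ↥(Cfsg.isometryGroup F ⇑Q))).mulVec x
      = (Cfsg.reflectionMatrix ⇑Q b).mulVec
        ((Cfsg.reflectionMatrix ⇑Q (u₂ + Q b • v₂)).mulVec x) := by
    intro x
    rw [coe_mul', coe_refl, coe_refl, ← Matrix.mulVec_mulVec]
  have hbN : ∀ y ∈ N, (Cfsg.reflectionMatrix ⇑Q b).mulVec y = y := by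
    intro y hy
    rw [reflectionMatrix_mulVec, polar_comm ⇑Q b y, h.orth y hy b hbU, mul_zero, zero_smul,
      sub_zero]
  have hcU : ∀ y ∈ U, (Cfsg.reflectionMatrix ⇑Q (u₂ + Q b • v₂)).mulVec y = y := by
    intro y hy
    rw [reflectionMatrix_mulVec, h.orth _ hcN y hy, mul_zero, zero_smul, sub_zero]
  have hρH : refl Q b hb * refl Q (u₂ + Q b • v₂) hc ∈ H := by
    apply hP _ hρc
    · intro x hx
      rw [happ]
      have h1 : (Cfsg.reflectionMatrix ⇑Q (u₂ + Q b • v₂)).mulVec x ∈ N := by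
        rw [reflectionMatrix_mulVec]
        exact N.sub_mem hx (N.smul_mem _ hcN)
      rw [hbN _ h1]; exact h1
    · intro x hx
      rw [happ, hcU x hx, reflectionMatrix_mulVec]
      exact U.sub_mem hx (U.smul_mem _ hbU)
  have hρu : mt((refl Q b hb * refl Q (u₂ + Q b • v₂) hc :
      ↥(Cfsg.isometryGroup F ⇑Q))).mulVec u = (1 : F) • u := by
    rw [happ, reflectionMatrix_mulVec Q (u₂ + Q b • v₂), hcu, mul_zero, zero_smul, sub_zero,
      hbN u huN, one_smul]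
  have := mixedIn_conj hm _ hρH 1 hρu
  rwa [one_smul, happ, hcU a haU, reflectionMatrix_mulVec] at this

theorem OrthPair.mixedIn_eich {N U : Submodule F (ι → F)} (h : OrthPair Q N U)
    (hQ : (polarBilin Q).Nondegenerate) (hn : 5 ≤ Fintype.card ι)
    {H : Subgroup ↥(Cfsg.isometryGroup F ⇑Q)} (hP : ContainsStab Q H N U) {u a x w : ι → F}
    (huN : u ∈ N) (hm : MixedIn Q H u a) (hxU : x ∈ U) (hwU : w ∈ U) (hx : Q x = 0)
    (hxw : polar ⇑Q x w = 0) : MixedIn Q H u ((eichMat Q x w).mulVec a) := by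
  have he : eich Q x w hx hxw ∈ H := h.symm.eich_mem hQ hn hP.symm hxU hwU hx hxw
  have heu : mt(eich Q x w hx hxw).mulVec u = (1 : F) • u := by
    rw [coe_eich, one_smul]
    exact eichMat_mulVec_of_orth Q x w u (h.symm.orth w hwU u huN) (h.symm.orth x hxU u huN)
  have := mixedIn_conj hm _ he 1 heu
  rwa [one_smul, coe_eich] at this

/-- A non-zero subspace of `U` invariant under the reflections and the Eichler transformations
of `U` is `U`, unless `|F| ≤ 3` and `U` is a hyperbolic plane. -/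
theorem OrthPair.invariant_eq {N U : Submodule F (ι → F)} (h : OrthPair Q N U)
    (hQ : (polarBilin Q).Nondegenerate) (A : Submodule F (ι → F)) (hAU : A ≤ U) (hA : A ≠ ⊥)
    (hrefl : ∀ b ∈ U, Q b ≠ 0 → ∀ a ∈ A, a - ((Q b)⁻¹ * polar ⇑Q b a) • b ∈ A)
    (heich : ∀ x ∈ U, ∀ w ∈ U, Q x = 0 → polar ⇑Q x w = 0 → ∀ a ∈ A,
      (eichMat Q x w).mulVec a ∈ A)
    (hex : ¬ (Fintype.card F ≤ 3 ∧ finrank F U = 2 ∧ ∃ x ∈ U, x ≠ 0 ∧ Q x = 0)) : U ≤ A := by
  classical
  by_contra hcon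
  obtain ⟨x₀, hx₀U, hx₀A⟩ := SetLike.not_le_iff_exists.mp hcon
  have hU := h.symm
  have h1 : ∀ b ∈ U, Q b ≠ 0 → b ∉ A → ∀ a ∈ A, polar ⇑Q b a = 0 := by
    intro b hbU hb hbA a ha
    by_contra hne
    apply hbA
    have h2 := A.sub_mem ha (hrefl b hbU hb a ha)
    rw [sub_sub_cancel] at h2
    have h3 := A.smul_mem ((Q b)⁻¹ * polar ⇑Q b a)⁻¹ h2
    rwa [smul_smul, inv_mul_cancel₀ (mul_ne_zero (inv_ne_zero hb) hne), one_smul] at h3
  obtain ⟨a₀, ha₀A, ha₀0⟩ := Submodule.exists_mem_ne_zero_of_ne_bot hA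
  obtain ⟨y₁, hy₁U, hy₁⟩ := hU.nondeg hQ (hAU ha₀A) ha₀0
  obtain ⟨x, hxU, hxA, a, haA, hxa⟩ : ∃ x ∈ U, x ∉ A ∧ ∃ a ∈ A, polar ⇑Q x a ≠ 0 := by
    by_cases hc1 : ∃ a ∈ A, polar ⇑Q x₀ a ≠ 0
    · exact ⟨x₀, hx₀U, hx₀A, hc1⟩
    push Not at hc1
    by_cases hc2 : y₁ ∈ A
    · refine ⟨x₀ + y₁, U.add_mem hx₀U hy₁U, ?_, a₀, ha₀A, ?_⟩
      · intro hmem
        apply hx₀A
        have := A.sub_mem hmem hc2
        rwa [add_sub_cancel_right] at this
      · rw [polar_add_left, hc1 a₀ ha₀A, zero_add, polar_comm]; exact hy₁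
    · exact ⟨y₁, hy₁U, hc2, a₀, ha₀A, by rw [polar_comm]; exact hy₁⟩
  have hQx : Q x = 0 := by
    by_contra hne
    exact hxa (h1 x hxU hne hxA a haA)
  have hx0 : x ≠ 0 := by
    rintro rfl
    exact hxa (polar_zero_left _ _)
  have h4 : ∀ w ∈ U, ∀ w' ∈ U, polar ⇑Q x w = 0 → polar ⇑Q x w' = 0 → polar ⇑Q w w' = 0 := by
    intro w hw w' hw' hxw hxw'
    by_contra hne
    apply hxA
    have hψ : ∀ y ∈ U, polar ⇑Q x y = 0 →
        polar ⇑Q y a • x - polar ⇑Q x a • y - (Q y * polar ⇑Q x a) • x ∈ A := by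
      intro y hyU hxy
      have h5 := A.sub_mem (heich x hxU y hyU hQx hxy a haA) haA
      rw [eichMat_mulVec] at h5
      have e : a + polar ⇑Q y a • x - polar ⇑Q x a • y - (Q y * polar ⇑Q x a) • x - a
          = polar ⇑Q y a • x - polar ⇑Q x a • y - (Q y * polar ⇑Q x a) • x := by abel
      rwa [e] at h5
    have e1 := hψ w hw hxw
    have e2 := hψ w' hw' hxw'
    have e3 := hψ (w + w') (U.add_mem hw hw') (by rw [polar_add_right, hxw, hxw', add_zero])
    have hQww : Q (w + w') = Q w + Q w' + polar ⇑Q w w' := by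
      unfold QuadraticMap.polar; ring
    have e4 := A.sub_mem (A.add_mem e1 e2) e3
    have e : polar ⇑Q w a • x - polar ⇑Q x a • w - (Q w * polar ⇑Q x a) • x
          + (polar ⇑Q w' a • x - polar ⇑Q x a • w' - (Q w' * polar ⇑Q x a) • x)
          - (polar ⇑Q (w + w') a • x - polar ⇑Q x a • (w + w')
            - (Q (w + w') * polar ⇑Q x a) • x)
        = (polar ⇑Q w w' * polar ⇑Q x a) • x := by
      rw [hQww, polar_add_left]; module
    rw [e] at e4
    have e5 := A.smul_mem (polar ⇑Q w w' * polar ⇑Q x a)⁻¹ e4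
    rwa [smul_smul, inv_mul_cancel₀ (mul_ne_zero hne hxa), one_smul] at e5
  obtain ⟨y', hy'U, hQy', hxy'⟩ := hU.exists_partner hQ hxU hx0 hQx
  have hy'x : polar ⇑Q y' x = 1 := by rw [polar_comm]; exact hxy'
  have hxx : polar ⇑Q x x = 0 := by
    rw [Cfsg.Agent.Lib.Helper51.polar_self, hQx, mul_zero]
  have hy'y' : polar ⇑Q y' y' = 0 := by
    rw [Cfsg.Agent.Lib.Helper51.polar_self, hQy', mul_zero]
  have h5 : ∀ m ∈ U, m - polar ⇑Q m y' • x - polar ⇑Q m x • y' = 0 := by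
    intro m hm
    by_contra hne
    obtain ⟨hp1, hp2⟩ := polar_proj x y' m hQx hQy' hxy'
    have hm₀U : m - polar ⇑Q m y' • x - polar ⇑Q m x • y' ∈ U :=
      U.sub_mem (U.sub_mem hm (U.smul_mem _ hxU)) (U.smul_mem _ hy'U)
    obtain ⟨m', hm'U, hne'⟩ := hU.nondeg hQ hm₀U hne
    obtain ⟨hp1', hp2'⟩ := polar_proj x y' m' hQx hQy' hxy'
    have hm'₀U : m' - polar ⇑Q m' y' • x - polar ⇑Q m' x • y' ∈ U :=
      U.sub_mem (U.sub_mem hm'U (U.smul_mem _ hxU)) (U.smul_mem _ hy'U)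
    apply hne'
    have h6 := h4 _ hm₀U _ hm'₀U hp1 hp1'
    have hp1c : polar ⇑Q (m - polar ⇑Q m y' • x - polar ⇑Q m x • y') x = 0 := by
      rw [polar_comm]; exact hp1
    have hp2c : polar ⇑Q (m - polar ⇑Q m y' • x - polar ⇑Q m x • y') y' = 0 := by
      rw [polar_comm]; exact hp2
    rw [polar_sub_right, polar_sub_right, polar_smul_right, polar_smul_right,
      hp1c, hp2c, smul_zero, smul_zero, sub_zero, sub_zero] at h6
    exact h6
  have hUspan : U = Submodule.span F ({x, y'} : Set (ι → F)) := by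
    apply le_antisymm
    · intro m hm
      rw [Submodule.mem_span_pair]
      refine ⟨polar ⇑Q m y', polar ⇑Q m x, ?_⟩
      have := h5 m hm
      rw [sub_sub, sub_eq_zero] at this
      exact this.symm
    · rw [Submodule.span_le]
      intro z hz
      rcases hz with rfl | hz
      · exact hxU
      · rw [Set.mem_singleton_iff] at hz
        rw [hz]; exact hy'U
  have hli : LinearIndependent F ![x, y'] := by
    rw [LinearIndependent.pair_iff]
    intro s t hst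
    have e1 : polar ⇑Q x (s • x + t • y') = 0 := by rw [hst]; exact polar_zero_right _ _
    have e2 : polar ⇑Q y' (s • x + t • y') = 0 := by rw [hst]; exact polar_zero_right _ _
    rw [polar_add_right, polar_smul_right, polar_smul_right, hxx, hxy', smul_zero, zero_add,
      smul_eq_mul, mul_one] at e1
    rw [polar_add_right, polar_smul_right, polar_smul_right, hy'x, hy'y', smul_zero, add_zero,
      smul_eq_mul, mul_one] at e2
    exact ⟨e2, e1⟩
  have hfin : finrank F U = 2 := by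
    have := finrank_span_eq_card hli
    rw [Matrix.range_cons_cons_empty, Fintype.card_fin] at this
    rw [hUspan]; exact this
  have hcard : 4 ≤ Fintype.card F := by
    by_contra hlt
    exact hex ⟨by omega, hfin, x, hxU, hx0, hQx⟩
  -- the non-singular vectors `x + t y'`
  have hb : ∀ t : F, t ≠ 0 → x + t • y' ∈ A ∨ polar ⇑Q (x + t • y') a = 0 := by
    intro t ht
    by_cases hmem : x + t • y' ∈ A
    · exact Or.inl hmem
    · right
      apply h1 _ (U.add_mem hxU (U.smul_mem _ hy'U)) _ hmem a haA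
      rw [Q_add_smul, hQx, hQy', hxy']
      simpa using ht
  have c1 : ∀ t t' : F, t ≠ t' → x + t • y' ∈ A → x + t' • y' ∈ A → False := by
    intro t t' htt' h1' h2'
    apply hxA
    have h3 := A.sub_mem h1' h2'
    have e : x + t • y' - (x + t' • y') = (t - t') • y' := by module
    rw [e] at h3
    have h4' := A.smul_mem (t - t')⁻¹ h3
    rw [smul_smul, inv_mul_cancel₀ (sub_ne_zero.mpr htt'), one_smul] at h4'
    have h5' := A.sub_mem h1' (A.smul_mem t h4')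
    rwa [add_sub_cancel_right] at h5'
  have c2 : ∀ t t' : F, t ≠ t' → polar ⇑Q (x + t • y') a = 0 → polar ⇑Q (x + t' • y') a = 0 →
      False := by
    intro t t' htt' h1' h2'
    rw [polar_add_left, polar_smul_left, smul_eq_mul] at h1' h2'
    have h3 : (t - t') * polar ⇑Q y' a = 0 := by linear_combination h1' - h2'
    rcases mul_eq_zero.mp h3 with h3 | h3
    · exact htt' (sub_eq_zero.mp h3)
    · rw [h3, mul_zero, add_zero] at h1'
      exact hxa h1'
  obtain ⟨t₂, -, ht₂⟩ := Finset.exists_mem_notMem_of_card_lt_card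
    (s := ({0, 1} : Finset F)) (t := Finset.univ) (by
      rw [Finset.card_univ]
      have := Finset.card_le_two (a := (0 : F)) (b := 1)
      omega)
  obtain ⟨t₃, -, ht₃⟩ := Finset.exists_mem_notMem_of_card_lt_card
    (s := ({0, 1, t₂} : Finset F)) (t := Finset.univ) (by
      rw [Finset.card_univ]
      have := Finset.card_le_three (a := (0 : F)) (b := 1) (c := t₂)
      omega)
  simp only [Finset.mem_insert, Finset.mem_singleton, not_or] at ht₂ ht₃
  obtain ⟨ht₂0, ht₂1⟩ := ht₂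
  obtain ⟨ht₃0, ht₃1, ht₃2⟩ := ht₃
  rcases hb 1 one_ne_zero with k1 | k1
  · rcases hb t₂ ht₂0 with k2 | k2
    · exact c1 1 t₂ (Ne.symm ht₂1) k1 k2
    · rcases hb t₃ ht₃0 with k3 | k3
      · exact c1 1 t₃ (Ne.symm ht₃1) k1 k3
      · exact c2 t₂ t₃ (Ne.symm ht₃2) k2 k3
  · rcases hb t₂ ht₂0 with k2 | k2
    · rcases hb t₃ ht₃0 with k3 | k3
      · exact c1 t₂ t₃ (Ne.symm ht₃2) k2 k3
      · exact c2 1 t₃ (Ne.symm ht₃1) k1 k3
    · exact c2 1 t₂ (Ne.symm ht₂1) k1 k2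

/-- The stabiliser in `Ω` of an orthogonal decomposition `V = N ⊥ U`, together with an element
not stabilising `N`, generates `Ω`. -/
theorem nondeg_stabiliser_maximal {N U : Submodule F (ι → F)} (h : OrthPair Q N U)
    (hQ : (polarBilin Q).Nondegenerate) (hn : 5 ≤ Fintype.card ι) (hdim : 6 ≤ finrank F N)
    (hex : ¬ (Fintype.card F ≤ 3 ∧ finrank F U = 2 ∧ ∃ x ∈ U, x ≠ 0 ∧ Q x = 0))
    {H : Subgroup ↥(Cfsg.isometryGroup F ⇑Q)} (hP : ContainsStab Q H N U)
    (hswap : ∀ k ∈ H, ¬ ∀ x ∈ N, mt(k).mulVec x ∈ U)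
    (hne : ∃ g ∈ H, ∃ x ∈ N, mt(g).mulVec x ∉ N) :
    commutator ↥(Cfsg.isometryGroup F ⇑Q) ≤ H := by
  have hdim5 : 5 ≤ finrank F N := by omega
  obtain ⟨g, hg, hmove⟩ := hne
  obtain ⟨u, huN, hu0, hQu, a, haU, ha0, hua, hmem⟩ :=
    h.exists_mixed hQ hn hdim hP hswap g hg hmove
  have hma : MixedIn Q H u a := ⟨hQu, hua, hmem⟩
  obtain ⟨A, hAdef⟩ : ∃ A : Submodule F (ι → F), ∀ b, b ∈ A ↔ b ∈ U ∧ MixedIn Q H u b :=
    ⟨{ carrier := {b | b ∈ U ∧ MixedIn Q H u b}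
       add_mem' := fun {b b'} hb hb' => ⟨U.add_mem hb.1 hb'.1, mixedIn_add hb.2 hb'.2⟩
       zero_mem' := ⟨U.zero_mem, mixedIn_zero H hQu⟩
       smul_mem' := fun c {b} hb =>
         ⟨U.smul_mem c hb.1, h.mixedIn_smul hQ hn hdim5 hP huN hu0 hb.1 hb.2 c⟩ },
      fun b => Iff.rfl⟩
  have hAU : A ≤ U := fun b hb => ((hAdef b).mp hb).1
  have hA0 : A ≠ ⊥ := by
    intro hbot
    have : a ∈ A := (hAdef a).mpr ⟨haU, hma⟩
    rw [hbot, Submodule.mem_bot] at this
    exact ha0 this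
  have hUA : U ≤ A := by
    apply h.invariant_eq hQ A hAU hA0 _ _ hex
    · intro b hbU hb a' ha'
      obtain ⟨ha'U, hm'⟩ := (hAdef a').mp ha'
      exact (hAdef _).mpr ⟨U.sub_mem ha'U (U.smul_mem _ hbU),
        h.mixedIn_refl hQ hn hdim5 hP huN hu0 ha'U hm' hbU hb⟩
    · intro x hxU w hwU hx hxw a' ha'
      obtain ⟨ha'U, hm'⟩ := (hAdef a').mp ha'
      exact (hAdef _).mpr ⟨eichMat_mulVec_mem U hxU hwU ha'U,
        h.mixedIn_eich hQ hn hP huN hm' hxU hwU hx hxw⟩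
  have hfull : IsFullPt Q H u := by
    refine ⟨hQu, ?_⟩
    intro w huw
    obtain ⟨b, hb, a', ha', hba⟩ := h.exists_decomp w
    have hua' : polar ⇑Q u a' = 0 := h.orth u huN a' ha'
    have hub : polar ⇑Q u b = 0 := by
      have := huw
      rw [← hba, polar_add_right, hua', add_zero] at this
      exact this
    have e : eich Q u w hQu huw = eich Q u b hQu hub * eich Q u a' hQu hua' := by
      rw [eich_mul]
      apply eich_congr
      rw [hba]
    rw [e]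
    obtain ⟨hu'', hua'', hm'⟩ := ((hAdef a').mp (hUA ha')).2
    exact H.mul_mem (h.eich_mem hQ hn hP huN hb hQu hub) hm'
  obtain ⟨v, hvN, hv, huv⟩ := h.exists_partner hQ huN hu0 hQu
  obtain ⟨u₂, hu₂N, v₂, hv₂N, hu₂, hv₂, hu₂v₂, huu₂, hvu₂, huv₂, hvv₂⟩ :=
    h.exists_second_pair hQ hdim5 huN hvN hQu hv huv
  have hvw₀ : polar ⇑Q v (u₂ + v₂) = 0 := by rw [polar_add_right, hvu₂, hvv₂, add_zero]
  have hQw₀ : Q (u₂ + v₂) = 1 := by
    have := Q_add_smul Q u₂ v₂ 1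
    rw [one_smul] at this
    rw [this, hu₂, hv₂, hu₂v₂]; ring
  have hp₀ : eich Q v (u₂ + v₂) hv hvw₀ ∈ H :=
    h.eich_mem hQ hn hP hvN (N.add_mem hu₂N hv₂N) hv hvw₀
  have hfull' := isFullPt_map Q hfull _ hp₀
  apply commutator_le_of_fullPair Q hQ hn hfull hfull'
  have huu : polar ⇑Q u u = 0 := by
    rw [Cfsg.Agent.Lib.Helper51.polar_self, hQu, mul_zero]
  have hvu : polar ⇑Q v u = 1 := by rw [polar_comm]; exact huv
  rw [coe_eich, eichMat_mulVec, hQw₀, hvu, polar_add_left, polar_comm ⇑Q u₂ u, huu₂,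
    polar_comm ⇑Q v₂ u, huv₂]
  simp only [polar_sub_right, polar_add_right, polar_smul_right, huu, huv, huu₂, huv₂,
    smul_eq_mul]
  simp

end NondegFull

end Cfsg.Agent.Lib.Helper52
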