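import Mathlib
import Cfsg.Agent.Lib.Helper52.NondegFull
import Cfsg.Agent.Lib.Helper52.GeoOmega

/-!
Bridge from `nondeg_stabiliser_maximal` to the statement form
`Cfsg.Geo.IsMaximalIn (omegaGL Q) (subspaceStabilizer W ⊓ omegaGL Q)` for a subspace `W` on
which the polar form is non-degenerate (`W` or its orthogonal complement has dimension at
least 6).
-/

set_option autoImplicit false
set_option linter.unusedSectionVars false

namespace Cfsg.Agent.Lib.Helper52

open Module QuadraticMap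
open Cfsg.Agent.Lib.Helper51

section NondegBridge

variable {ι : Type} [Fintype ι] [DecidableEq ι] {F : Type*} [Field F] [Fintype F]
variable {Q : QuadraticForm F (ι → F)}

local notation "mt(" g ")" => ((g : Matrix.GeneralLinearGroup ι F) : Matrix ι ι F)

/-- An isometry mapping `N` into `N` maps `U` into `U`. -/
theorem OrthPair.map_right {N U : Submodule F (ι → F)} (h : OrthPair Q N U)
    (hQ : (polarBilin Q).Nondegenerate) (g : ↥(Cfsg.isometryGroup F ⇑Q))
    (hg : ∀ x ∈ N, mt(g).mulVec x ∈ N) : ∀ x ∈ U, mt(g).mulVec x ∈ U := by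
  intro x hx
  apply h.mem_of_orth hQ
  intro y hy
  have hle : N.map (Matrix.mulVecLin mt(g)) ≤ N := by
    rintro _ ⟨z, hz, rfl⟩
    rw [Matrix.mulVecLin_apply]
    exact hg z hz
  have heq : N.map (Matrix.mulVecLin mt(g)) = N :=
    Submodule.eq_of_le_of_finrank_eq hle (finrank_map_isometry Q g N)
  rw [← heq] at hy
  obtain ⟨y', hy', rfl⟩ := hy
  rw [Matrix.mulVecLin_apply, isometry_polar]
  exact h.orth y' hy' x hx

theorem OrthPair.isNondegenerateOn {N U : Submodule F (ι → F)} (h : OrthPair Q N U)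
    (hQ : (polarBilin Q).Nondegenerate) : Cfsg.Geo.IsNondegenerateOn (polar ⇑Q) N := by
  intro w hw hw0
  obtain ⟨y, hy, hne⟩ := h.nondeg hQ hw hw0
  exact ⟨⟨y, hy, by rw [polar_comm]; exact hne⟩, ⟨y, hy, hne⟩⟩

/-- A subspace on which the polar form is non-degenerate and its orthogonal complement. -/
theorem orthPair_orthogonal (hQ : (polarBilin Q).Nondegenerate) (W : Submodule F (ι → F))
    (hW : Cfsg.Geo.IsNondegenerateOn (polar ⇑Q) W) :
    OrthPair Q W (LinearMap.BilinForm.orthogonal (polarBilin Q) W) := by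
  refine ⟨?_, ?_⟩
  · intro x hx y hy
    have := (LinearMap.BilinForm.mem_orthogonal_iff.mp hy) x hx
    rw [polarBilin_apply_apply] at this
    exact this
  · have hinf : W ⊓ LinearMap.BilinForm.orthogonal (polarBilin Q) W = ⊥ := by
      rw [eq_bot_iff]
      rintro x ⟨hxW, hxo⟩
      rw [Submodule.mem_bot]
      by_contra hne
      obtain ⟨⟨y, hy, hne'⟩, -⟩ := hW x hxW hne
      apply hne'
      have := (LinearMap.BilinForm.mem_orthogonal_iff.mp hxo) y hy
      rw [polarBilin_apply_apply] at this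
      exact this
    have h1 := Submodule.finrank_sup_add_finrank_inf_eq W
      (LinearMap.BilinForm.orthogonal (polarBilin Q) W)
    rw [hinf, finrank_bot, LinearMap.BilinForm.finrank_orthogonal hQ] at h1
    have h2 := Submodule.finrank_le W
    apply Submodule.eq_top_of_finrank_eq
    omega

theorem isPlusTypeOn_of_singular (U : Submodule F (ι → F)) (hU : finrank F U = 2) {x : ι → F}
    (hxU : x ∈ U) (hx0 : x ≠ 0) (hx : Q x = 0) : Cfsg.Geo.IsPlusTypeOn ⇑Q U := by
  refine ⟨Submodule.span F ({x} : Set (ι → F)), ?_, ?_, ?_⟩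
  · rw [Submodule.span_le]
    intro z hz
    rw [Set.mem_singleton_iff] at hz
    rw [hz]; exact hxU
  · intro w hw
    obtain ⟨c, rfl⟩ := Submodule.mem_span_singleton.mp hw
    rw [QuadraticMap.map_smul, hx, smul_zero]
  · rw [finrank_span_singleton hx0, hU]

theorem not_map_into_of_finrank_lt {N U : Submodule F (ι → F)}
    (hlt : finrank F U < finrank F N) (g : ↥(Cfsg.isometryGroup F ⇑Q)) :
    ¬ ∀ x ∈ N, mt(g).mulVec x ∈ U := by
  intro hg
  have hle : N.map (Matrix.mulVecLin mt(g)) ≤ U := by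
    rintro _ ⟨z, hz, rfl⟩
    rw [Matrix.mulVecLin_apply]
    exact hg z hz
  have := Submodule.finrank_mono hle
  rw [finrank_map_isometry Q g N] at this
  omega

/-- The stabiliser in `Ω` of a summand of an orthogonal decomposition `V = N ⊥ U` is a
maximal subgroup of `Ω`. -/
theorem isMaximalIn_nondeg (hQ : (polarBilin Q).Nondegenerate) (hn : 5 ≤ Fintype.card ι)
    {N U : Submodule F (ι → F)} (h : OrthPair Q N U) (hdim : 6 ≤ finrank F N) (hU0 : U ≠ ⊥)
    (hex : ¬ (Fintype.card F ≤ 3 ∧ finrank F U = 2 ∧ ∃ x ∈ U, x ≠ 0 ∧ Q x = 0))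
    (hswap : ∀ k ∈ commutator ↥(Cfsg.isometryGroup F ⇑Q), ¬ ∀ x ∈ N, mt(k).mulVec x ∈ U)
    (W : Submodule F (ι → F)) (hW : W = N ∨ W = U) :
    Cfsg.Geo.IsMaximalIn (Cfsg.Geo.omegaGL ⇑Q)
      (Cfsg.Geo.subspaceStabilizer W ⊓ Cfsg.Geo.omegaGL ⇑Q) := by
  classical
  -- stabilising `W` is the same as stabilising `N`
  have hstab : ∀ g : ↥(Cfsg.isometryGroup F ⇑Q),
      (g : Matrix.GeneralLinearGroup ι F) ∈ Cfsg.Geo.subspaceStabilizer W ↔
        ∀ x ∈ N, mt(g).mulVec x ∈ N := by
    intro g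
    constructor
    · intro hg
      have hW' : ∀ w ∈ W, mt(g).mulVec w ∈ W := fun w hw =>
        ((mem_subspaceStabilizer_iff W _).mp hg w).mp hw
      rcases hW with rfl | rfl
      · exact hW'
      · exact h.symm.map_right hQ g hW'
    · intro hg
      apply coe_mem_subspaceStabilizer Q
      rcases hW with rfl | rfl
      · exact hg
      · exact h.map_right hQ g hg
  constructor
  · rw [SetLike.lt_iff_le_and_exists]
    refine ⟨inf_le_right, ?_⟩
    obtain ⟨u, huN, hu0, hQu⟩ := exists_singular_of_finrank Q N (by omega)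
    obtain ⟨a, haU, ha0⟩ := Submodule.exists_mem_ne_zero_of_ne_bot hU0
    obtain ⟨v, hvN, hv, huv⟩ := h.exists_partner hQ huN hu0 hQu
    have hua : polar ⇑Q u a = 0 := h.orth u huN a haU
    refine ⟨((eich Q u a hQu hua : ↥(Cfsg.isometryGroup F ⇑Q)) :
      Matrix.GeneralLinearGroup ι F),
      coe_mem_omegaGL Q (eich_mem_commutator Q hQ hn u a hQu hua), ?_⟩
    rintro ⟨h1, -⟩
    have h2 := (hstab _).mp h1 v hvN
    rw [coe_eich, eichMat_mulVec, huv, polar_comm ⇑Q a v, h.orth v hvN a haU] at h2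
    have h3 : a ∈ N := by
      have h4 := N.sub_mem (N.sub_mem hvN h2) (N.smul_mem (Q a) huN)
      have e : v - (v + (0 : F) • u - (1 : F) • a - (Q a * 1) • u) - Q a • u = a := by
        module
      rwa [e] at h4
    have h5 : a ∈ N ⊓ U := ⟨h3, haU⟩
    rw [h.inf_eq_bot hQ, Submodule.mem_bot] at h5
    exact ha0 h5
  · intro M hPM hMK
    by_cases hMP : M ≤ Cfsg.Geo.subspaceStabilizer W ⊓ Cfsg.Geo.omegaGL ⇑Q
    · left; exact le_antisymm hMP hPM
    right
    apply le_antisymm hMK
    obtain ⟨x, hxM, hxP⟩ := SetLike.not_le_iff_exists.mp hMP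
    obtain ⟨g, hg, rfl⟩ := exists_of_mem_omegaGL Q (hMK hxM)
    have hHle : ∀ k ∈ M.comap (Cfsg.isometryGroup F ⇑Q).subtype,
        k ∈ commutator ↥(Cfsg.isometryGroup F ⇑Q) := by
      intro k hk
      obtain ⟨k', hk', hkk'⟩ := exists_of_mem_omegaGL Q (hMK hk)
      have : k' = k := Subtype.ext hkk'
      rw [← this]; exact hk'
    have key := nondeg_stabiliser_maximal h hQ hn hdim hex
      (H := M.comap (Cfsg.isometryGroup F ⇑Q).subtype) ?_ ?_ ?_
    · intro y hy
      obtain ⟨g', hg', rfl⟩ := exists_of_mem_omegaGL Q hy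
      exact key hg'
    · intro g' hg' h1 h2
      apply hPM
      exact ⟨(hstab g').mpr h1, coe_mem_omegaGL Q hg'⟩
    · intro k hk
      exact hswap k (hHle k hk)
    · refine ⟨g, hxM, ?_⟩
      by_contra hcon
      push Not at hcon
      exact hxP ⟨(hstab g).mpr hcon, hMK hxM⟩

end NondegBridge

end Cfsg.Agent.Lib.Helper52
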