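import Mathlib
import Cfsg.Agent.Lib.Helper52.LPDefs
import Cfsg.Agent.Lib.Helper52.OutMain
import Cfsg.Agent.Lib.Helper52.LangOdd

set_option autoImplicit false
set_option linter.unusedSectionVars false
set_option linter.unusedVariables false

namespace Cfsg.Agent.Lib.Helper52.LP5

open Module QuadraticMap Matrix
open Cfsg Cfsg.Agent.Lib.Helper51 Cfsg.Agent.Lib.Helper52 Cfsg.Agent.Lib.Helper54
open Cfsg.Agent.Lib.Helper52.OU Cfsg.Agent.Lib.Helper52.OUMain Cfsg.Agent.Lib.Helper52.LP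
open Cfsg.Agent.Lib.Helper52.LSMain (ind_congr ind_smul orderOf_conj_eq)

variable {ι : Type} [Fintype ι] [DecidableEq ι] {F : Type*} [Field F]

local notation "mt(" g ")" => ((g : Matrix.GeneralLinearGroup ι F) : Matrix ι ι F)

theorem map_refl (X : GL ι F) :
    Matrix.GeneralLinearGroup.map ((RingEquiv.refl F) : F →+* F) X = X := by
  ext i j
  rw [Matrix.GeneralLinearGroup.map_apply]
  rfl

theorem map_trans_symm (τ : F ≃+* F) (X : GL ι F) :
    Matrix.GeneralLinearGroup.map ((RingEquiv.refl F).trans τ : F →+* F)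
      (Matrix.GeneralLinearGroup.map (τ.symm : F →+* F) X) = X := by
  ext i j
  rw [Matrix.GeneralLinearGroup.map_apply, Matrix.GeneralLinearGroup.map_apply]
  simp

theorem ind_mul_lin (Q : (ι → F) → F) {β β' : MulAut (Cfsg.POmega F Q)} {g g' : GL ι F}
    (h : Ind Q β g (RingEquiv.refl F)) (h' : Ind Q β' g' (RingEquiv.refl F)) :
    Ind Q (β * β') (g * g') (RingEquiv.refl F) :=
  ind_congr Q (ind_mul Q h h') (by rw [map_refl]) (fun x => rfl)

theorem ind_inv_lin (Q : (ι → F) → F) {β : MulAut (Cfsg.POmega F Q)} {g : GL ι F}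
    (h : Ind Q β g (RingEquiv.refl F)) : Ind Q β⁻¹ g⁻¹ (RingEquiv.refl F) :=
  ind_congr Q (ind_inv Q h) (by
    have : ((RingEquiv.refl F).symm : F →+* F) = ((RingEquiv.refl F) : F →+* F) := rfl
    rw [this, map_refl]) (fun x => rfl)

theorem ind_conj_lin' (Q : (ι → F) → F) {α ξ : MulAut (Cfsg.POmega F Q)} {a z : GL ι F}
    {τ : F ≃+* F} (hα : Ind Q α a τ) (hξ : Ind Q ξ z (RingEquiv.refl F)) :
    Ind Q (α * ξ * α⁻¹) (a * Matrix.GeneralLinearGroup.map (τ : F →+* F) z * a⁻¹)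
      (RingEquiv.refl F) :=
  ind_congr Q (ind_mul Q (ind_mul Q hα hξ) (ind_inv Q hα))
    (by rw [map_trans_symm]) (fun x => by simp)

theorem sim_of_pair (Q : (ι → F) → F) (g : GL ι F)
    (h : Cfsg.IsSemisimilarityPair Q g (RingEquiv.refl F)) :
    g ∈ Cfsg.Geo.quadSimilarityGroup (F := F) Q := by
  obtain ⟨c, hc⟩ := h
  exact ⟨c, fun v => by simpa using hc v⟩

theorem pair_of_sim (Q : (ι → F) → F) (g : GL ι F)
    (h : g ∈ Cfsg.Geo.quadSimilarityGroup (F := F) Q) :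
    Cfsg.IsSemisimilarityPair Q g (RingEquiv.refl F) := by
  obtain ⟨c, hc⟩ := h
  exact ⟨c, fun v => by simpa using hc v⟩

theorem sig_mulVec (τ : F ≃+* F) (A : Matrix ι ι F) (v : ι → F) :
    (A.map τ) *ᵥ (fun i => τ (v i)) = fun i => τ ((A *ᵥ v) i) := by
  funext i
  simp [Matrix.mulVec, dotProduct, map_sum, map_mul]

theorem coe_map (σ : F ≃+* F) (h : GL ι F) :
    mt(Matrix.GeneralLinearGroup.map (σ : F →+* F) h) = (mt(h)).map σ := by
  ext i j
  rw [Matrix.GeneralLinearGroup.map_apply]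
  rfl

/-- The semilinear conjugate of a class-preserving matrix is class-preserving (in terms of
Lagrangians). -/
theorem pres_semi_conj {m : ℕ} (Q : QuadraticForm F (ι → F)) (q : (ι → F) → F) (hq : ⇑Q = q)
    (hmax : ∀ U : Submodule F (ι → F), IsMaxTotallySingular q U ↔ IsLag m Q U)
    (a g : GL ι F) (τ : F ≃+* F) (ha : Cfsg.IsSemisimilarityPair q a τ)
    (hP : PreservesSingularClasses q mt(g)) :
    PreservesSingularClasses q
      mt(a * Matrix.GeneralLinearGroup.map (τ : F →+* F) g * a⁻¹) := by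
  subst hq
  intro U hU
  rw [hmax] at hU
  obtain ⟨ca, hca⟩ := ha
  obtain ⟨U', hU'def⟩ : ∃ U' : Submodule F (ι → F),
      U' = sigSub τ.symm (imageSubmodule mt(a⁻¹) U) := ⟨_, rfl⟩
  have hU'1 : sigSub τ U' = imageSubmodule mt(a⁻¹) U := by
    rw [hU'def, sigSub_sigSub_symm]
  have hUa : imageSubmodule mt(a) (sigSub τ U') = U := by
    rw [hU'1, ← imageSubmodule_mul, ← Units.val_mul, mul_inv_cancel, Units.val_one,
      imageSubmodule_one]
  have hU'lag : IsLag m Q U' := by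
    refine ⟨?_, ?_⟩
    · rw [hU'def, finrank_sigSub, finrank_imageSubmodule]
      exact hU.1
    · intro u hu
      have h1 : (fun i => τ (u i)) ∈ sigSub τ U' := (sig_mem_sigSub τ U' u).mpr hu
      have h2 : mt(a) *ᵥ (fun i => τ (u i)) ∈ U := by
        rw [← hUa, mem_imageSubmodule]
        exact ⟨_, h1, rfl⟩
      have h3 := hU.2 _ h2
      rw [hca u] at h3
      rcases mul_eq_zero.mp h3 with h4 | h4
      · exact absurd h4 ca.ne_zero
      · exact (map_eq_zero_iff τ τ.injective).mp h4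
  have h5 := hP U' ((hmax U').mpr hU'lag)
  unfold SameParityClass at h5 ⊢
  have himg : imageSubmodule mt(a * Matrix.GeneralLinearGroup.map (τ : F →+* F) g * a⁻¹) U
      = imageSubmodule mt(a) (sigSub τ (imageSubmodule mt(g) U')) := by
    rw [Matrix.GeneralLinearGroup.coe_mul, Matrix.GeneralLinearGroup.coe_mul,
      imageSubmodule_mul, imageSubmodule_mul, ← hU'1, coe_map, ← sigSub_imageSubmodule]
  have hinf : U ⊓ imageSubmodule mt(a * Matrix.GeneralLinearGroup.map (τ : F →+* F) g * a⁻¹) U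
      = imageSubmodule mt(a) (sigSub τ (U' ⊓ imageSubmodule mt(g) U')) := by
    rw [himg, sigSub_inf, imageSubmodule_inf, hUa]
  rw [hinf, finrank_imageSubmodule, finrank_sigSub, hU.1, ← hU'lag.1]
  exact h5

theorem inndiag_plus_ind {m : ℕ}
    (hmul : ∀ g h : GL (Fin m ⊕ Fin m) F,
      g ∈ Cfsg.Geo.quadSimilarityGroup (F := F) (Cfsg.quadFormPlus m F) →
      h ∈ Cfsg.Geo.quadSimilarityGroup (F := F) (Cfsg.quadFormPlus m F) →
      PreservesSingularClasses (Cfsg.quadFormPlus m F)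
        (g : Matrix (Fin m ⊕ Fin m) (Fin m ⊕ Fin m) F) →
      PreservesSingularClasses (Cfsg.quadFormPlus m F)
        (h : Matrix (Fin m ⊕ Fin m) (Fin m ⊕ Fin m) F) →
      PreservesSingularClasses (Cfsg.quadFormPlus m F)
        ((g * h : GL (Fin m ⊕ Fin m) F) : Matrix (Fin m ⊕ Fin m) (Fin m ⊕ Fin m) F))
    (hinv : ∀ g : GL (Fin m ⊕ Fin m) F,
      g ∈ Cfsg.Geo.quadSimilarityGroup (F := F) (Cfsg.quadFormPlus m F) →
      PreservesSingularClasses (Cfsg.quadFormPlus m F)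
        (g : Matrix (Fin m ⊕ Fin m) (Fin m ⊕ Fin m) F) →
      PreservesSingularClasses (Cfsg.quadFormPlus m F)
        ((g⁻¹ : GL (Fin m ⊕ Fin m) F) : Matrix (Fin m ⊕ Fin m) (Fin m ⊕ Fin m) F))
    (δ : MulAut (Cfsg.POmega F (Cfsg.quadFormPlus m F)))
    (hδ : δ ∈ Cfsg.inndiagPOmegaPlus m F) :
    ∃ g : GL (Fin m ⊕ Fin m) F,
      g ∈ Cfsg.Geo.quadSimilarityGroup (F := F) (Cfsg.quadFormPlus m F) ∧
      PreservesSingularClasses (Cfsg.quadFormPlus m F)
        (g : Matrix (Fin m ⊕ Fin m) (Fin m ⊕ Fin m) F) ∧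
      Ind (Cfsg.quadFormPlus m F) δ g (RingEquiv.refl F) := by
  unfold Cfsg.inndiagPOmegaPlus Cfsg.autSubgroupOf at hδ
  induction hδ using Subgroup.closure_induction with
  | mem x hx =>
    obtain ⟨g, hg, hP, hI⟩ := hx
    exact ⟨g, hg, hP, pair_of_sim _ g hg, hI⟩
  | one =>
    refine ⟨1, Subgroup.one_mem _, ?_, ind_one _⟩
    intro U hU
    unfold SameParityClass
    rw [Units.val_one, imageSubmodule_one, inf_idem, Nat.sub_self]
    exact Even.zero
  | mul x y _ _ hx hy =>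
    obtain ⟨g, hg, hP, hI⟩ := hx
    obtain ⟨h, hh, hP', hI'⟩ := hy
    exact ⟨g * h, Subgroup.mul_mem _ hg hh, hmul g h hg hh hP hP', ind_mul_lin _ hI hI'⟩
  | inv x _ hx =>
    obtain ⟨g, hg, hP, hI⟩ := hx
    exact ⟨g⁻¹, Subgroup.inv_mem _ hg, hinv g hg hP, ind_inv_lin _ hI⟩

theorem inndiag_plus_conj {m : ℕ}
    (hmax : ∀ U : Submodule F (Fin m ⊕ Fin m → F),
      IsMaxTotallySingular (Cfsg.quadFormPlus m F) U ↔ IsLag m (QPlus m F) U)
    (hmul : ∀ g h : GL (Fin m ⊕ Fin m) F,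
      g ∈ Cfsg.Geo.quadSimilarityGroup (F := F) (Cfsg.quadFormPlus m F) →
      h ∈ Cfsg.Geo.quadSimilarityGroup (F := F) (Cfsg.quadFormPlus m F) →
      PreservesSingularClasses (Cfsg.quadFormPlus m F)
        (g : Matrix (Fin m ⊕ Fin m) (Fin m ⊕ Fin m) F) →
      PreservesSingularClasses (Cfsg.quadFormPlus m F)
        (h : Matrix (Fin m ⊕ Fin m) (Fin m ⊕ Fin m) F) →
      PreservesSingularClasses (Cfsg.quadFormPlus m F)
        ((g * h : GL (Fin m ⊕ Fin m) F) : Matrix (Fin m ⊕ Fin m) (Fin m ⊕ Fin m) F))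
    (hinv : ∀ g : GL (Fin m ⊕ Fin m) F,
      g ∈ Cfsg.Geo.quadSimilarityGroup (F := F) (Cfsg.quadFormPlus m F) →
      PreservesSingularClasses (Cfsg.quadFormPlus m F)
        (g : Matrix (Fin m ⊕ Fin m) (Fin m ⊕ Fin m) F) →
      PreservesSingularClasses (Cfsg.quadFormPlus m F)
        ((g⁻¹ : GL (Fin m ⊕ Fin m) F) : Matrix (Fin m ⊕ Fin m) (Fin m ⊕ Fin m) F))
    (α δ : MulAut (Cfsg.POmega F (Cfsg.quadFormPlus m F))) (a : GL (Fin m ⊕ Fin m) F)
    (τ : F ≃+* F) (hα : Ind (Cfsg.quadFormPlus m F) α a τ)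
    (hδ : δ ∈ Cfsg.inndiagPOmegaPlus m F) :
    α * δ * α⁻¹ ∈ Cfsg.inndiagPOmegaPlus m F := by
  have hconj : ∀ y : MulAut (Cfsg.POmega F (Cfsg.quadFormPlus m F)),
      α * y * α⁻¹ = MulAut.conj α y := fun y => rfl
  rw [hconj]
  unfold Cfsg.inndiagPOmegaPlus Cfsg.autSubgroupOf at hδ ⊢
  induction hδ using Subgroup.closure_induction with
  | mem x hx =>
    obtain ⟨g, hg, hP, hI⟩ := hx
    have hI2 := ind_conj_lin' _ hα (⟨pair_of_sim _ g hg, hI⟩ :
      Ind (Cfsg.quadFormPlus m F) x g (RingEquiv.refl F))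
    rw [← hconj]
    exact Subgroup.subset_closure ⟨_, sim_of_pair _ _ hI2.1,
      pres_semi_conj (QPlus m F) _ (coe_QPlus m F) hmax a g τ hα.1 hP, hI2.2⟩
  | one =>
    rw [map_one]
    exact Subgroup.one_mem _
  | mul x y _ _ hx hy =>
    rw [map_mul]
    exact Subgroup.mul_mem _ hx hy
  | inv x _ hx =>
    rw [map_inv]
    exact Subgroup.inv_mem _ hx

end Cfsg.Agent.Lib.Helper52.LP5
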