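import Mathlib
import Cfsg.Agent.Lib.Helper52.LPDefs
import Cfsg.Agent.Lib.Helper52.OutMain
import Cfsg.Agent.Lib.Helper52.LangOdd
import Cfsg.Agent.Lib.Helper53.LSNorm
import Cfsg.Agent.Lib.Helper53.LSOdd
import Cfsg.Agent.Lib.Helper51.OAF
import Cfsg.Agent.Lib.Helper51.Spinor
import Cfsg.Agent.Lib.Helper44.OrthForms
import Cfsg.Agent.S0831
import Cfsg.Agent.S2616
import Cfsg.Agent.Lib.Helper77.LP1a
import Cfsg.Agent.Lib.Helper66.LP1b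
import Cfsg.Agent.Lib.Helper2.LP1c
import Cfsg.Agent.Lib.Helper21.LP2
import Cfsg.Agent.Lib.Helper51.LP3
import Cfsg.Agent.Lib.Helper88.LP4
import Cfsg.Agent.Lib.Helper52.LP5

set_option autoImplicit false
set_option linter.unusedSectionVars false
set_option linter.unusedVariables false

namespace Cfsg.Agent.Lib.Helper52.LPMain

open Module QuadraticMap Matrix
open Cfsg Cfsg.Agent.Lib.Helper51 Cfsg.Agent.Lib.Helper52 Cfsg.Agent.Lib.Helper54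
open Cfsg.Agent.Lib.Helper52.OU Cfsg.Agent.Lib.Helper52.OUMain Cfsg.Agent.Lib.Helper52.LP
open Cfsg.Agent.Lib.Helper52.LSMain (ind_congr ind_smul orderOf_conj_eq)

variable {ι : Type} [Fintype ι] [DecidableEq ι] {F : Type*} [Field F]

local notation "mt(" g ")" => ((g : Matrix.GeneralLinearGroup ι F) : Matrix ι ι F)

/-! The pieces LP-1a .. LP-5 are proved in the modules imported above. -/








/-! # WIRING (helper52): the statements in the form used by the assembly -/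

theorem maxTS_iff_lag [Fintype F] {m : ℕ} (hm : 1 ≤ m) (Q : QuadraticForm F (ι → F))
    (hH : IsHyp m Q) (U : Submodule F (ι → F)) :
    IsMaxTotallySingular ⇑Q U ↔ IsLag m Q U :=
  Cfsg.Agent.Lib.Helper77.LP1a.maxTS_iff_lag hm Q hH U

theorem parity3 {m : ℕ} (hm : 1 ≤ m) (Q : QuadraticForm F (ι → F)) (hH : IsHyp m Q)
    (U W X : Submodule F (ι → F)) (hU : IsLag m Q U) (hW : IsLag m Q W) (hX : IsLag m Q X) :
    Even ((m - finrank F ↥(U ⊓ W)) + (m - finrank F ↥(W ⊓ X)) + (m - finrank F ↥(U ⊓ X))) :=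
  Cfsg.Agent.Lib.Helper77.LP1a.parity3 hm Q hH U W X hU hW hX

theorem pres_of_lag [Fintype F] {m : ℕ} (hm : 1 ≤ m) (Q : QuadraticForm F (ι → F))
    (hH : IsHyp m Q) (g : GL ι F) (hg : g ∈ Cfsg.Geo.quadSimilarityGroup (F := F) ⇑Q)
    (U : Submodule F (ι → F)) (hU : IsLag m Q U)
    (h : Even (m - finrank F ↥(U ⊓ imageSubmodule mt(g) U))) :
    PreservesSingularClasses ⇑Q mt(g) :=
  Cfsg.Agent.Lib.Helper66.LP1b.pres_of_lag Q (maxTS_iff_lag hm Q hH) (parity3 hm Q hH) g hg U hU h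

theorem not_pres_of_lag [Fintype F] {m : ℕ} (hm : 1 ≤ m) (Q : QuadraticForm F (ι → F))
    (hH : IsHyp m Q) (g : GL ι F)
    (U : Submodule F (ι → F)) (hU : IsLag m Q U)
    (h : ¬ Even (m - finrank F ↥(U ⊓ imageSubmodule mt(g) U))) :
    ¬ PreservesSingularClasses ⇑Q mt(g) :=
  Cfsg.Agent.Lib.Helper66.LP1b.not_pres_of_lag Q (maxTS_iff_lag hm Q hH) g U hU h

theorem pres_mul [Fintype F] {m : ℕ} (hm : 1 ≤ m) (Q : QuadraticForm F (ι → F))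
    (hH : IsHyp m Q) (g h : GL ι F) (hg : g ∈ Cfsg.Geo.quadSimilarityGroup (F := F) ⇑Q)
    (hh : h ∈ Cfsg.Geo.quadSimilarityGroup (F := F) ⇑Q)
    (Pg : PreservesSingularClasses ⇑Q mt(g)) (Ph : PreservesSingularClasses ⇑Q mt(h)) :
    PreservesSingularClasses ⇑Q mt(g * h) :=
  Cfsg.Agent.Lib.Helper66.LP1b.pres_mul Q (maxTS_iff_lag hm Q hH) (parity3 hm Q hH) g h hg hh Pg Ph

theorem pres_inv [Fintype F] {m : ℕ} (hm : 1 ≤ m) (Q : QuadraticForm F (ι → F))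
    (hH : IsHyp m Q) (g : GL ι F) (hg : g ∈ Cfsg.Geo.quadSimilarityGroup (F := F) ⇑Q)
    (Pg : PreservesSingularClasses ⇑Q mt(g)) :
    PreservesSingularClasses ⇑Q mt(g⁻¹) :=
  Cfsg.Agent.Lib.Helper66.LP1b.pres_inv Q (maxTS_iff_lag hm Q hH) g hg Pg

theorem pres_of_not_not [Fintype F] {m : ℕ} (hm : 1 ≤ m) (Q : QuadraticForm F (ι → F))
    (hH : IsHyp m Q) (g h : GL ι F) (hg : g ∈ Cfsg.Geo.quadSimilarityGroup (F := F) ⇑Q)
    (hh : h ∈ Cfsg.Geo.quadSimilarityGroup (F := F) ⇑Q)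
    (Pg : ¬ PreservesSingularClasses ⇑Q mt(g)) (Ph : ¬ PreservesSingularClasses ⇑Q mt(h)) :
    PreservesSingularClasses ⇑Q mt(g * h) :=
  Cfsg.Agent.Lib.Helper66.LP1b.pres_of_not_not Q (maxTS_iff_lag hm Q hH) (parity3 hm Q hH) g h hg hh Pg Ph

theorem refl_not_pres [Fintype F] {m : ℕ} (hm : 1 ≤ m) (Q : QuadraticForm F (ι → F))
    (hH : IsHyp m Q) (v : ι → F) (hv : Q v ≠ 0) :
    ¬ PreservesSingularClasses ⇑Q (reflectionMatrix ⇑Q v) :=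
  Cfsg.Agent.Lib.Helper66.LP1b.refl_not_pres Q (maxTS_iff_lag hm Q hH) (Cfsg.Agent.Lib.Helper77.LP1a.hyp_nondeg Q hH) (Cfsg.Agent.Lib.Helper77.LP1a.hyp_card Q hH)
    (Cfsg.Agent.Lib.Helper77.LP1a.hyp_exists_lag Q hH) v hv

theorem semi_pres [Fintype F] {m : ℕ} (hm : 1 ≤ m) (Q : QuadraticForm F (ι → F))
    (hH : IsHyp m Q) (σ : F ≃+* F) (hσ : SigInv σ Q)
    (U₀ : Submodule F (ι → F)) (hU₀ : IsLag m Q U₀) (hU₀σ : sigSub σ U₀ = U₀)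
    (a : GL ι F) (ha : a ∈ Cfsg.Geo.quadSimilarityGroup (F := F) ⇑Q)
    (W : Submodule F (ι → F)) (hW : IsLag m Q W)
    (h : Even (m - finrank F ↥(W ⊓ imageSubmodule mt(a) (sigSub σ W)))) :
    PreservesSingularClasses ⇑Q mt(a) :=
  Cfsg.Agent.Lib.Helper2.LP1c.semi_pres Q (parity3 hm Q hH) (fun g hg U hU h => pres_of_lag hm Q hH g hg U hU h)
    σ hσ U₀ hU₀ hU₀σ a ha W hW h

theorem semi_not_pres [Fintype F] {m : ℕ} (hm : 1 ≤ m) (Q : QuadraticForm F (ι → F))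
    (hH : IsHyp m Q) (σ : F ≃+* F) (hσ : SigInv σ Q)
    (U₀ : Submodule F (ι → F)) (hU₀ : IsLag m Q U₀) (hU₀σ : sigSub σ U₀ = U₀)
    (a : GL ι F) (ha : a ∈ Cfsg.Geo.quadSimilarityGroup (F := F) ⇑Q)
    (W : Submodule F (ι → F)) (hW : IsLag m Q W)
    (h : ¬ Even (m - finrank F ↥(W ⊓ imageSubmodule mt(a) (sigSub σ W)))) :
    ¬ PreservesSingularClasses ⇑Q mt(a) :=
  Cfsg.Agent.Lib.Helper2.LP1c.semi_not_pres Q (parity3 hm Q hH) (fun g U hU h => not_pres_of_lag hm Q hH g U hU h)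
    σ hσ U₀ hU₀ hU₀σ a ha W hW h

theorem normal_form [Fintype F] (k : ℕ) (hcard : Fintype.card ι = 2 * (k + 1)) (σ : F ≃+* F)
    (Q1 : QuadraticForm F (ι → F)) (hQ1 : (polarBilin Q1).Nondegenerate) (hσ : SigInv σ Q1) :
    IsSplit (k + 1) σ Q1 ∨ IsEll k σ Q1 :=
  Cfsg.Agent.Lib.Helper21.LP2.normal_form k hcard σ Q1 hQ1 hσ

theorem split_stable {m : ℕ} (σ : F ≃+* F) (Q1 : QuadraticForm F (ι → F))
    (h : IsSplit m σ Q1) : ∃ W : Submodule F (ι → F), IsLag m Q1 W ∧ sigSub σ W = W :=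
  Cfsg.Agent.Lib.Helper51.LP3.split_stable σ Q1 h

theorem ell_swap (k : ℕ) (σ : F ≃+* F) (Q1 : QuadraticForm F (ι → F))
    (h : IsEll k σ Q1) (hex : ∃ W : Submodule F (ι → F), IsLag (k + 1) Q1 W) :
    ∃ W : Submodule F (ι → F), IsLag (k + 1) Q1 W ∧ finrank F ↥(W ⊓ sigSub σ W) = k :=
  Cfsg.Agent.Lib.Helper51.LP3.ell_swap k σ Q1 h hex

theorem split_sim {m : ℕ} (σ : F ≃+* F) (Q1 Q1' : QuadraticForm F (ι → F))
    (h : IsSplit m σ Q1) (h' : IsSplit m σ Q1') :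
    ∃ (R : GL ι F) (c : Fˣ), (mt(R)).map σ = mt(R) ∧
      ∀ v : ι → F, Q1 (mt(R) *ᵥ v) = (c : F) * Q1' v :=
  Cfsg.Agent.Lib.Helper88.LP4.split_sim σ Q1 Q1' h h'

theorem ell_sim [Fintype F] (k : ℕ) (σ : F ≃+* F) (Q1 Q1' : QuadraticForm F (ι → F))
    (h : IsEll k σ Q1) (h' : IsEll k σ Q1') :
    ∃ (R : GL ι F) (c : Fˣ), (mt(R)).map σ = mt(R) ∧
      ∀ v : ι → F, Q1 (mt(R) *ᵥ v) = (c : F) * Q1' v :=
  Cfsg.Agent.Lib.Helper88.LP4.ell_sim k σ Q1 Q1' h h'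

/-! ## ASSEMBLY (helper52) -/

section Assembly

theorem isHyp_plus (m : ℕ) : IsHyp m (QPlus m F) :=
  ⟨LinearEquiv.refl F _, fun x => by rw [LinearEquiv.refl_apply, coe_QPlus]⟩

theorem pres_mul_plus [Fintype F] {m : ℕ} (hm : 1 ≤ m) :
    ∀ g h : GL (Fin m ⊕ Fin m) F,
      g ∈ Cfsg.Geo.quadSimilarityGroup (F := F) (Cfsg.quadFormPlus m F) →
      h ∈ Cfsg.Geo.quadSimilarityGroup (F := F) (Cfsg.quadFormPlus m F) →
      PreservesSingularClasses (Cfsg.quadFormPlus m F)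
        (g : Matrix (Fin m ⊕ Fin m) (Fin m ⊕ Fin m) F) →
      PreservesSingularClasses (Cfsg.quadFormPlus m F)
        (h : Matrix (Fin m ⊕ Fin m) (Fin m ⊕ Fin m) F) →
      PreservesSingularClasses (Cfsg.quadFormPlus m F)
        ((g * h : GL (Fin m ⊕ Fin m) F) : Matrix (Fin m ⊕ Fin m) (Fin m ⊕ Fin m) F) := by
  rw [← coe_QPlus]
  exact fun g h hg hh Pg Ph => pres_mul hm (QPlus m F) (isHyp_plus m) g h hg hh Pg Ph

theorem pres_inv_plus [Fintype F] {m : ℕ} (hm : 1 ≤ m) :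
    ∀ g : GL (Fin m ⊕ Fin m) F,
      g ∈ Cfsg.Geo.quadSimilarityGroup (F := F) (Cfsg.quadFormPlus m F) →
      PreservesSingularClasses (Cfsg.quadFormPlus m F)
        (g : Matrix (Fin m ⊕ Fin m) (Fin m ⊕ Fin m) F) →
      PreservesSingularClasses (Cfsg.quadFormPlus m F)
        ((g⁻¹ : GL (Fin m ⊕ Fin m) F) : Matrix (Fin m ⊕ Fin m) (Fin m ⊕ Fin m) F) := by
  rw [← coe_QPlus]
  exact fun g hg Pg => pres_inv hm (QPlus m F) (isHyp_plus m) g hg Pg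

theorem maxTS_plus [Fintype F] {m : ℕ} (hm : 1 ≤ m) (U : Submodule F (Fin m ⊕ Fin m → F)) :
    IsMaxTotallySingular (Cfsg.quadFormPlus m F) U ↔ IsLag m (QPlus m F) U := by
  rw [← coe_QPlus]
  exact maxTS_iff_lag hm (QPlus m F) (isHyp_plus m) U

theorem inndiag_plus_ind [Fintype F] {m : ℕ} (hm : 1 ≤ m)
    (δ : MulAut (Cfsg.POmega F (Cfsg.quadFormPlus m F)))
    (hδ : δ ∈ Cfsg.inndiagPOmegaPlus m F) :
    ∃ g : GL (Fin m ⊕ Fin m) F,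
      g ∈ Cfsg.Geo.quadSimilarityGroup (F := F) (Cfsg.quadFormPlus m F) ∧
      PreservesSingularClasses (Cfsg.quadFormPlus m F)
        (g : Matrix (Fin m ⊕ Fin m) (Fin m ⊕ Fin m) F) ∧
      Ind (Cfsg.quadFormPlus m F) δ g (RingEquiv.refl F) :=
  Cfsg.Agent.Lib.Helper52.LP5.inndiag_plus_ind (pres_mul_plus hm) (pres_inv_plus hm) δ hδ

theorem inndiag_plus_conj [Fintype F] {m : ℕ} (hm : 1 ≤ m)
    (α δ : MulAut (Cfsg.POmega F (Cfsg.quadFormPlus m F))) (a : GL (Fin m ⊕ Fin m) F)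
    (τ : F ≃+* F) (hα : Ind (Cfsg.quadFormPlus m F) α a τ)
    (hδ : δ ∈ Cfsg.inndiagPOmegaPlus m F) :
    α * δ * α⁻¹ ∈ Cfsg.inndiagPOmegaPlus m F :=
  Cfsg.Agent.Lib.Helper52.LP5.inndiag_plus_conj (maxTS_plus hm) (pres_mul_plus hm) (pres_inv_plus hm) α δ a τ hα hδ

theorem sigInv_plus (m : ℕ) (σ : F ≃+* F) : SigInv σ (QPlus m F) := by
  intro v
  rw [coe_QPlus]
  simp [Cfsg.quadFormPlus, map_sum, map_mul]

theorem sigSub_stdLag (m : ℕ) (σ : F ≃+* F) : sigSub σ (stdLag m F) = stdLag m F := by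
  ext v
  rw [mem_sigSub, mem_stdLag, mem_stdLag]
  constructor
  · intro h k
    have := h k
    simpa using this
  · intro h k
    rw [h k, map_zero]

theorem refl_sigma_fixed (Q : QuadraticForm F (ι → F)) (σ : F ≃+* F) (hσ : SigInv σ Q)
    (v : ι → F) (hv : ∀ i, σ (v i) = v i) :
    (reflectionMatrix ⇑Q v).map σ = reflectionMatrix ⇑Q v := by
  have hv' : (fun i => σ (v i)) = v := funext hv
  have hQv : σ (Q v) = Q v := by rw [← hσ v, hv']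
  have hpol : ∀ j, σ (QuadraticMap.polar ⇑Q v (Pi.single j 1))
      = QuadraticMap.polar ⇑Q v (Pi.single j 1) := by
    intro j
    have e1 : (fun i => σ ((Pi.single j 1 : ι → F) i)) = (Pi.single j 1 : ι → F) := by
      funext i
      by_cases h : i = j
      · subst h; simp
      · simp [Pi.single_eq_of_ne h]
    have e2 : (fun i => σ ((v + (Pi.single j 1 : ι → F)) i)) = v + (Pi.single j 1 : ι → F) := by
      funext i
      have := congrFun e1 i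
      simp only [Pi.add_apply, map_add, hv i]
      rw [this]
    unfold QuadraticMap.polar
    rw [map_sub, map_sub, ← hσ, ← hσ, ← hσ, e2, hv', e1]
  ext i j
  simp only [reflectionMatrix, Matrix.map_apply, Matrix.sub_apply, Matrix.smul_apply,
    Matrix.vecMulVec_apply, polarVec, smul_eq_mul, map_sub, map_mul, map_inv₀, hQv, hv i, hpol j]
  congr 1
  by_cases h : i = j
  · subst h; simp
  · simp [Matrix.one_apply_ne h]

theorem map_mul_map_inv (σ : F ≃+* F) (h : GL ι F) :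
    (mt(h)).map σ * mt(Matrix.GeneralLinearGroup.map (σ : F →+* F) h⁻¹) = 1 := by
  have : (mt(h)).map σ = mt(Matrix.GeneralLinearGroup.map (σ : F →+* F) h) := by
    ext i j
    rw [Matrix.GeneralLinearGroup.map_apply]
    rfl
  rw [this, ← Units.val_mul, ← map_mul, mul_inv_cancel, map_one, Units.val_one]

theorem map_inv_mul_map (σ : F ≃+* F) (h : GL ι F) :
    mt(Matrix.GeneralLinearGroup.map (σ : F →+* F) h⁻¹) * (mt(h)).map σ = 1 := by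
  have : (mt(h)).map σ = mt(Matrix.GeneralLinearGroup.map (σ : F →+* F) h) := by
    ext i j
    rw [Matrix.GeneralLinearGroup.map_apply]
    rfl
  rw [this, ← Units.val_mul, ← map_mul, inv_mul_cancel, map_one, Units.val_one]

theorem coe_map_eq (σ : F ≃+* F) (h : GL ι F) :
    mt(Matrix.GeneralLinearGroup.map (σ : F →+* F) h) = (mt(h)).map σ := by
  ext i j
  rw [Matrix.GeneralLinearGroup.map_apply]
  rfl

theorem ind_mul_refl (Q : (ι → F) → F) {β β' : MulAut (Cfsg.POmega F Q)} {g g' : GL ι F}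
    {σ' : F ≃+* F} (h : Ind Q β g (RingEquiv.refl F)) (h' : Ind Q β' g' σ') :
    Ind Q (β * β') (g * g') σ' :=
  ind_congr Q (ind_mul Q h h') (by simp) (fun x => rfl)

theorem ind_conj_refl (Q : (ι → F) → F) {η x' : MulAut (Cfsg.POmega F Q)} {h g₀ : GL ι F}
    {σ : F ≃+* F} (hη : Ind Q η h (RingEquiv.refl F)) (hx : Ind Q x' g₀ σ) :
    Ind Q (η * x' * η⁻¹) (h * g₀ * Matrix.GeneralLinearGroup.map (σ : F →+* F) h⁻¹) σ :=
  ind_congr Q (ind_mul Q (ind_mul Q hη hx) (ind_inv Q hη)) (by simp) (fun x => rfl)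

theorem ind_of_sim (Q : (ι → F) → F) (h : GL ι F)
    (hh : h ∈ Cfsg.Geo.quadSimilarityGroup (F := F) Q) :
    Ind Q (simAut Q ⟨h, hh⟩) h (RingEquiv.refl F) := by
  refine ⟨?_, (induced_iff Q ⟨h, hh⟩ _).mpr rfl⟩
  obtain ⟨c, hc⟩ := hh
  exact ⟨c, fun v => by simpa using hc v⟩

theorem conj_key (σ : F ≃+* F) (a B R B₀ g₀ : GL ι F) (μ μ₀ : Fˣ)
    (hB : mt(a) * (mt(B)).map σ = (μ : F) • mt(B))
    (hB₀ : mt(g₀) * (mt(B₀)).map σ = (μ₀ : F) • mt(B₀))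
    (hRσ : (mt(R)).map σ = mt(R)) :
    mt(a) * (mt(B * R * B₀⁻¹)).map σ = ((μ * μ₀⁻¹ : Fˣ) : F) • (mt(B * R * B₀⁻¹) * mt(g₀)) := by
  have hXY : (mt(B₀⁻¹)).map σ * (mt(B₀)).map σ = 1 := by
    rw [← coe_map_eq, ← coe_map_eq, ← Units.val_mul, ← map_mul, inv_mul_cancel, map_one,
      Units.val_one]
  have hYX : (mt(B₀)).map σ * (mt(B₀⁻¹)).map σ = 1 := by
    rw [← coe_map_eq, ← coe_map_eq, ← Units.val_mul, ← map_mul, mul_inv_cancel, map_one,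
      Units.val_one]
  have hZY : (((μ₀⁻¹ : Fˣ) : F) • (mt(B₀⁻¹) * mt(g₀))) * (mt(B₀)).map σ = 1 := by
    rw [Matrix.smul_mul, Matrix.mul_assoc, hB₀, Matrix.mul_smul, smul_smul,
      ← Units.val_mul, inv_mul_cancel, Units.val_one, one_smul, ← Units.val_mul,
      inv_mul_cancel, Units.val_one]
  have hX : (mt(B₀⁻¹)).map σ = ((μ₀⁻¹ : Fˣ) : F) • (mt(B₀⁻¹) * mt(g₀)) := by
    have e1 := congrArg (fun Z => Z * (mt(B₀⁻¹)).map σ) hZY
    simp only [Matrix.mul_assoc, hYX, Matrix.mul_one, Matrix.one_mul] at e1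
    exact e1.symm
  rw [Units.val_mul (B * R) B₀⁻¹, Units.val_mul B R, Matrix.map_mul, Matrix.map_mul, hRσ, hX,
    ← Matrix.mul_assoc, ← Matrix.mul_assoc, hB, Matrix.smul_mul, Matrix.smul_mul,
    Matrix.mul_smul, smul_smul, Units.val_mul, ← Matrix.mul_assoc]

theorem fix_key (σ : F ≃+* F) (a h t g₀ : GL ι F) (κ : Fˣ)
    (hkey : mt(a) * (mt(h)).map σ = (κ : F) • (mt(h) * mt(g₀)))
    (htσ : mt(g₀) * (mt(t)).map σ = mt(t) * mt(g₀)) :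
    mt(a) * (mt(h * t)).map σ = (κ : F) • (mt(h * t) * mt(g₀)) := by
  rw [Units.val_mul h t, Matrix.map_mul, ← Matrix.mul_assoc, hkey, Matrix.smul_mul,
    Matrix.mul_assoc, htσ, ← Matrix.mul_assoc]

theorem key2_of_key (σ : F ≃+* F) (a h g₀ : GL ι F) (κ : Fˣ)
    (hkey : mt(a) * (mt(h)).map σ = (κ : F) • (mt(h) * mt(g₀))) :
    mt(a) = (κ : F) • mt(h * g₀ * Matrix.GeneralLinearGroup.map (σ : F →+* F) h⁻¹) := by
  calc mt(a) = mt(a) * ((mt(h)).map σ * mt(Matrix.GeneralLinearGroup.map (σ : F →+* F) h⁻¹)) := by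
        rw [map_mul_map_inv, mul_one]
    _ = _ := by
        rw [← Matrix.mul_assoc, hkey, Matrix.smul_mul, Units.val_mul (h * g₀), Units.val_mul h]

theorem sim_comp (Q : QuadraticForm F (ι → F)) (B R B₀ : GL ι F) (ν cR ν₀ : Fˣ)
    (hR : ∀ v : ι → F, (ν : F) * Q (mt(B) *ᵥ (mt(R) *ᵥ v)) = (cR : F) * ((ν₀ : F) * Q (mt(B₀) *ᵥ v))) :
    B * R * B₀⁻¹ ∈ Cfsg.Geo.quadSimilarityGroup (F := F) ⇑Q := by
  refine ⟨ν⁻¹ * cR * ν₀, fun w => ?_⟩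
  have h1 := hR (mt(B₀⁻¹) *ᵥ w)
  rw [Matrix.mulVec_mulVec, Matrix.mulVec_mulVec, Matrix.mulVec_mulVec,
    Units.mul_inv, Matrix.one_mulVec] at h1
  rw [Units.val_mul, Units.val_mul, Units.val_mul, Units.val_mul, Units.val_inv_eq_inv_val]
  have h2 : Q ((mt(B) * mt(R) * mt(B₀⁻¹)) *ᵥ w)
      = (ν : F)⁻¹ * ((cR : F) * ((ν₀ : F) * Q w)) := by
    rw [← h1, ← mul_assoc, inv_mul_cancel₀ ν.ne_zero, one_mul, Matrix.mul_assoc]
  rw [h2]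
  ring

/-- The twisted form of a cocycle is split iff the cocycle preserves the classes. -/
theorem split_iff_pres [Fintype F] (k : ℕ) (σ : F ≃+* F)
    (a B : GL (Fin (k + 1) ⊕ Fin (k + 1)) F) (μ ν : Fˣ)
    (ha : a ∈ Cfsg.Geo.quadSimilarityGroup (F := F) ⇑(QPlus (k + 1) F))
    (hB : (a : Matrix (Fin (k + 1) ⊕ Fin (k + 1)) (Fin (k + 1) ⊕ Fin (k + 1)) F)
        * (B : Matrix (Fin (k + 1) ⊕ Fin (k + 1)) (Fin (k + 1) ⊕ Fin (k + 1)) F).map σ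
      = (μ : F) • (B : Matrix (Fin (k + 1) ⊕ Fin (k + 1)) (Fin (k + 1) ⊕ Fin (k + 1)) F))
    (hinv : SigInv σ (Cfsg.Agent.Lib.Helper53.LS.twForm (QPlus (k + 1) F)
      (B : Matrix (Fin (k + 1) ⊕ Fin (k + 1)) (Fin (k + 1) ⊕ Fin (k + 1)) F) (ν : F))) :
    IsSplit (k + 1) σ (Cfsg.Agent.Lib.Helper53.LS.twForm (QPlus (k + 1) F)
      (B : Matrix (Fin (k + 1) ⊕ Fin (k + 1)) (Fin (k + 1) ⊕ Fin (k + 1)) F) (ν : F)) ↔
    PreservesSingularClasses ⇑(QPlus (k + 1) F)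
      (a : Matrix (Fin (k + 1) ⊕ Fin (k + 1)) (Fin (k + 1) ⊕ Fin (k + 1)) F) := by
  classical
  have hm : 1 ≤ k + 1 := by omega
  obtain ⟨Q, hQdef⟩ : ∃ Q : QuadraticForm F (Fin (k + 1) ⊕ Fin (k + 1) → F),
      Q = QPlus (k + 1) F := ⟨_, rfl⟩
  rw [← hQdef] at ha hinv ⊢
  have hH : IsHyp (k + 1) Q := hQdef ▸ isHyp_plus (k + 1)
  have hσQ : SigInv σ Q := hQdef ▸ sigInv_plus (k + 1) σ
  have hQnd : (polarBilin Q).Nondegenerate :=
    hQdef ▸ Cfsg.Agent.Lib.Helper44.nondeg_QPlus (k + 1) F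
  have hU₀ : IsLag (k + 1) Q (stdLag (k + 1) F) :=
    (maxTS_iff_lag hm Q hH _).mp (hQdef ▸ stdLag_maxTS)
  have hU₀σ : sigSub σ (stdLag (k + 1) F) = stdLag (k + 1) F := sigSub_stdLag (k + 1) σ
  obtain ⟨Q1, hQ1⟩ : ∃ Q1 : QuadraticForm F (Fin (k + 1) ⊕ Fin (k + 1) → F),
      Q1 = Cfsg.Agent.Lib.Helper53.LS.twForm Q
        (B : Matrix (Fin (k + 1) ⊕ Fin (k + 1)) (Fin (k + 1) ⊕ Fin (k + 1)) F) (ν : F) :=
    ⟨_, rfl⟩
  rw [← hQ1] at hinv ⊢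
  have hQ1app : ∀ v, Q1 v = (ν : F) * Q
      ((B : Matrix (Fin (k + 1) ⊕ Fin (k + 1)) (Fin (k + 1) ⊕ Fin (k + 1)) F) *ᵥ v) := by
    intro v
    rw [hQ1, Cfsg.Agent.Lib.Helper53.LS.twForm_apply]
  have hBdet : IsUnit
      (B : Matrix (Fin (k + 1) ⊕ Fin (k + 1)) (Fin (k + 1) ⊕ Fin (k + 1)) F).det := by
    rw [← Matrix.isUnit_iff_isUnit_det]
    exact ⟨B, rfl⟩
  have hQ1nd : (polarBilin Q1).Nondegenerate := by
    rw [hQ1]
    exact Cfsg.Agent.Lib.Helper53.LS.twForm_nondeg _ hQnd _ hBdet _ ν.ne_zero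
  -- images under `B` of Lagrangians of `Q1` are Lagrangians of `Q`
  have hlagB : ∀ W1 : Submodule F (Fin (k + 1) ⊕ Fin (k + 1) → F), IsLag (k + 1) Q1 W1 →
      IsLag (k + 1) Q (imageSubmodule
        (B : Matrix (Fin (k + 1) ⊕ Fin (k + 1)) (Fin (k + 1) ⊕ Fin (k + 1)) F) W1) := by
    intro W1 hW1
    refine ⟨by rw [finrank_imageSubmodule]; exact hW1.1, ?_⟩
    intro w hw
    obtain ⟨u, hu, rfl⟩ := (mem_imageSubmodule _ _ _).mp hw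
    have h1 := hW1.2 u hu
    rw [hQ1app] at h1
    rcases mul_eq_zero.mp h1 with h2 | h2
    · exact absurd h2 ν.ne_zero
    · exact h2
  -- the image of `B W1` under the semilinear map
  have himg : ∀ W1 : Submodule F (Fin (k + 1) ⊕ Fin (k + 1) → F),
      imageSubmodule (a : Matrix (Fin (k + 1) ⊕ Fin (k + 1)) (Fin (k + 1) ⊕ Fin (k + 1)) F)
        (sigSub σ (imageSubmodule
          (B : Matrix (Fin (k + 1) ⊕ Fin (k + 1)) (Fin (k + 1) ⊕ Fin (k + 1)) F) W1))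
      = imageSubmodule
          (B : Matrix (Fin (k + 1) ⊕ Fin (k + 1)) (Fin (k + 1) ⊕ Fin (k + 1)) F)
          (sigSub σ W1) := by
    intro W1
    rw [sigSub_imageSubmodule, ← imageSubmodule_mul, hB, imageSubmodule_smul _ μ.ne_zero]
  constructor
  · intro hsp
    obtain ⟨W1, hW1, hW1σ⟩ := split_stable σ Q1 hsp
    refine semi_pres hm Q hH σ hσQ _ hU₀ hU₀σ a ha _ (hlagB W1 hW1) ?_
    rw [himg, hW1σ, inf_idem, (hlagB W1 hW1).1, Nat.sub_self]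
    exact Even.zero
  · intro hP
    by_contra hsp
    have hcard : Fintype.card (Fin (k + 1) ⊕ Fin (k + 1)) = 2 * (k + 1) := by
      simp
      omega
    have hell : IsEll k σ Q1 := (normal_form k hcard σ Q1 hQ1nd hinv).resolve_left hsp
    have hex : ∃ W : Submodule F (Fin (k + 1) ⊕ Fin (k + 1) → F), IsLag (k + 1) Q1 W := by
      refine ⟨imageSubmodule ((B⁻¹ : GL (Fin (k + 1) ⊕ Fin (k + 1)) F) :
        Matrix (Fin (k + 1) ⊕ Fin (k + 1)) (Fin (k + 1) ⊕ Fin (k + 1)) F) (stdLag (k + 1) F),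
        by rw [finrank_imageSubmodule]; exact hU₀.1, ?_⟩
      intro w hw
      obtain ⟨u, hu, rfl⟩ := (mem_imageSubmodule _ _ _).mp hw
      rw [hQ1app, Matrix.mulVec_mulVec, Units.mul_inv, Matrix.one_mulVec, hU₀.2 u hu, mul_zero]
    obtain ⟨W1, hW1, hW1σ⟩ := ell_swap k σ Q1 hell hex
    refine semi_not_pres hm Q hH σ hσQ _ hU₀ hU₀σ a ha _ (hlagB W1 hW1) ?_ hP
    rw [himg, ← imageSubmodule_inf, finrank_imageSubmodule, hW1σ]
    have : k + 1 - k = 1 := by omega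
    rw [this]
    decide

/-- The core: conjugacy in the coset of a standard field or graph-field automorphism. -/
theorem plus_core [Fintype F] {p f : ℕ} [Fact p.Prime] (hF : Fintype.card F = p ^ f) (k : ℕ)
    (hk : 5 ≤ k + 1) (q : (Fin (k + 1) ⊕ Fin (k + 1) → F) → F)
    (hq : ⇑(QPlus (k + 1) F) = q) (D : Subgroup (MulAut (Cfsg.POmega F q)))
    (hDind : ∀ δ ∈ D, ∃ g : GL (Fin (k + 1) ⊕ Fin (k + 1)) F,
      g ∈ Cfsg.Geo.quadSimilarityGroup (F := F) q ∧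
      PreservesSingularClasses q
        (g : Matrix (Fin (k + 1) ⊕ Fin (k + 1)) (Fin (k + 1) ⊕ Fin (k + 1)) F) ∧
      Ind q δ g (RingEquiv.refl F))
    (hDmem : ∀ (g : GL (Fin (k + 1) ⊕ Fin (k + 1)) F) (η : MulAut (Cfsg.POmega F q)),
      g ∈ Cfsg.Geo.quadSimilarityGroup (F := F) q →
      PreservesSingularClasses q
        (g : Matrix (Fin (k + 1) ⊕ Fin (k + 1)) (Fin (k + 1) ⊕ Fin (k + 1)) F) →
      Ind q η g (RingEquiv.refl F) → η ∈ D)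
    (x' δ' : MulAut (Cfsg.POmega F q))
    (g₀ : GL (Fin (k + 1) ⊕ Fin (k + 1)) F) (σ : F ≃+* F) (hσ1 : σ ≠ RingEquiv.refl F)
    (hx' : Ind q x' g₀ σ)
    (hg₀ : g₀ ∈ Cfsg.Geo.quadSimilarityGroup (F := F) q)
    (t : GL (Fin (k + 1) ⊕ Fin (k + 1)) F)
    (ht : t ∈ Cfsg.Geo.quadSimilarityGroup (F := F) q)
    (htP : ¬ PreservesSingularClasses q
      (t : Matrix (Fin (k + 1) ⊕ Fin (k + 1)) (Fin (k + 1) ⊕ Fin (k + 1)) F))
    (htσ : (g₀ : Matrix (Fin (k + 1) ⊕ Fin (k + 1)) (Fin (k + 1) ⊕ Fin (k + 1)) F)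
        * (t : Matrix (Fin (k + 1) ⊕ Fin (k + 1)) (Fin (k + 1) ⊕ Fin (k + 1)) F).map σ
      = (t : Matrix (Fin (k + 1) ⊕ Fin (k + 1)) (Fin (k + 1) ⊕ Fin (k + 1)) F)
        * (g₀ : Matrix (Fin (k + 1) ⊕ Fin (k + 1)) (Fin (k + 1) ⊕ Fin (k + 1)) F))
    {r : ℕ} (hr : r.Prime) (hxr : orderOf x' = r)
    (hδ' : δ' ∈ D) (hord : orderOf (δ' * x') = r) :
    Cfsg.IsConjUnder D x' (δ' * x') := by
  classical
  subst hq
  have hm : 1 ≤ k + 1 := by omega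
  obtain ⟨Q, hQdef⟩ : ∃ Q : QuadraticForm F (Fin (k + 1) ⊕ Fin (k + 1) → F),
      Q = QPlus (k + 1) F := ⟨_, rfl⟩
  subst hQdef
  have hQ : (polarBilin (QPlus (k + 1) F)).Nondegenerate :=
    Cfsg.Agent.Lib.Helper44.nondeg_QPlus (k + 1) F
  have hn : 7 ≤ Fintype.card (Fin (k + 1) ⊕ Fin (k + 1)) := by
    simp
    omega
  have hγ : Cfsg.gammaPOmega F ⇑(QPlus (k + 1) F) = ⊤ := by
    obtain ⟨Q', hq', hQ', hn', h8'⟩ := Cfsg.Agent.Lib.Helper51.OAF.plus_data (F := F) hk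
    have e : Q' = QPlus (k + 1) F := by
      apply DFunLike.coe_injective
      rw [hq', coe_QPlus]
    rw [← e]
    exact Cfsg.Agent.Lib.Helper52.OA.gamma_eq_top Q' hQ' hn' h8'
  have hH : IsHyp (k + 1) (QPlus (k + 1) F) := isHyp_plus (k + 1)
  have hσQ : SigInv σ (QPlus (k + 1) F) := sigInv_plus (k + 1) σ
  have hv : ∃ v : Fin (k + 1) ⊕ Fin (k + 1) → F, (QPlus (k + 1) F) v ≠ 0 := hv_plus hm
  obtain ⟨ρ, hρ, hker, -, -⟩ := core_data hF (QPlus (k + 1) F) hQ hn hγ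
  -- the order of σ
  have hρx : ρ x' = σ := hρ x' g₀ σ hx'
  have hσr : (σ : RingAut F) ^ r = 1 := by
    rw [← hρx, ← map_pow, ← hxr, pow_orderOf_eq_one, map_one]
  have hσord : orderOf (σ : RingAut F) = r := by
    have : Fact r.Prime := ⟨hr⟩
    exact orderOf_eq_prime hσr hσ1
  -- δ' is induced by a class-preserving similarity
  obtain ⟨g, hg, hgP, hδI⟩ := hDind δ' hδ'
  have hyI : Ind ⇑(QPlus (k + 1) F) (δ' * x') (g * g₀) σ := ind_mul_refl _ hδI hx'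
  have hgg₀ : g * g₀ ∈ Cfsg.Geo.quadSimilarityGroup (F := F) ⇑(QPlus (k + 1) F) :=
    Subgroup.mul_mem _ hg hg₀
  -- the norms are scalar
  have hpowy := ind_pow _ hyI r
  rw [← hord, pow_orderOf_eq_one, hord, hσr] at hpowy
  obtain ⟨-, c, hc⟩ := ind_one_scalar (QPlus (k + 1) F) hQ hn (semi_conj_mem _) _ _ hpowy
  have hpowx := ind_pow _ hx' r
  rw [← hxr, pow_orderOf_eq_one, hxr, hσr] at hpowx
  obtain ⟨-, c₀, hc₀⟩ := ind_one_scalar (QPlus (k + 1) F) hQ hn (semi_conj_mem _) _ _ hpowx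
  -- Hilbert 90
  obtain ⟨B, μ, ν, hB, hinv⟩ := Cfsg.Agent.Lib.Helper53.LS.lang_norm (QPlus (k + 1) F) hv σ hσQ
    r hr.pos hσord (g * g₀) hgg₀ c hc
  obtain ⟨B₀, μ₀, ν₀, hB₀, hinv₀⟩ := Cfsg.Agent.Lib.Helper53.LS.lang_norm (QPlus (k + 1) F) hv σ
    hσQ r hr.pos hσord g₀ hg₀ c₀ hc₀
  obtain ⟨Q1, hQ1⟩ : ∃ Q1 : QuadraticForm F (Fin (k + 1) ⊕ Fin (k + 1) → F),
      Q1 = Cfsg.Agent.Lib.Helper53.LS.twForm (QPlus (k + 1) F)
        (B : Matrix (Fin (k + 1) ⊕ Fin (k + 1)) (Fin (k + 1) ⊕ Fin (k + 1)) F) (ν : F) :=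
    ⟨_, rfl⟩
  obtain ⟨Q0, hQ0⟩ : ∃ Q0 : QuadraticForm F (Fin (k + 1) ⊕ Fin (k + 1) → F),
      Q0 = Cfsg.Agent.Lib.Helper53.LS.twForm (QPlus (k + 1) F)
        (B₀ : Matrix (Fin (k + 1) ⊕ Fin (k + 1)) (Fin (k + 1) ⊕ Fin (k + 1)) F) (ν₀ : F) :=
    ⟨_, rfl⟩
  have hQ1app : ∀ v, Q1 v = (ν : F) * (QPlus (k + 1) F)
      ((B : Matrix (Fin (k + 1) ⊕ Fin (k + 1)) (Fin (k + 1) ⊕ Fin (k + 1)) F) *ᵥ v) := by
    intro v
    rw [hQ1, Cfsg.Agent.Lib.Helper53.LS.twForm_apply]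
  have hQ0app : ∀ v, Q0 v = (ν₀ : F) * (QPlus (k + 1) F)
      ((B₀ : Matrix (Fin (k + 1) ⊕ Fin (k + 1)) (Fin (k + 1) ⊕ Fin (k + 1)) F) *ᵥ v) := by
    intro v
    rw [hQ0, Cfsg.Agent.Lib.Helper53.LS.twForm_apply]
  have hQ1σ : SigInv σ Q1 := by
    intro v
    rw [hQ1app, hQ1app]
    exact hinv v
  have hQ0σ : SigInv σ Q0 := by
    intro v
    rw [hQ0app, hQ0app]
    exact hinv₀ v
  have hdet : ∀ X : GL (Fin (k + 1) ⊕ Fin (k + 1)) F, IsUnit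
      (X : Matrix (Fin (k + 1) ⊕ Fin (k + 1)) (Fin (k + 1) ⊕ Fin (k + 1)) F).det := by
    intro X
    rw [← Matrix.isUnit_iff_isUnit_det]
    exact ⟨X, rfl⟩
  have hQ1nd : (polarBilin Q1).Nondegenerate := by
    rw [hQ1]
    exact Cfsg.Agent.Lib.Helper53.LS.twForm_nondeg _ hQ _ (hdet B) _ ν.ne_zero
  have hQ0nd : (polarBilin Q0).Nondegenerate := by
    rw [hQ0]
    exact Cfsg.Agent.Lib.Helper53.LS.twForm_nondeg _ hQ _ (hdet B₀) _ ν₀.ne_zero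
  -- types
  have hs1 : IsSplit (k + 1) σ Q1 ↔ PreservesSingularClasses ⇑(QPlus (k + 1) F)
      ((g * g₀ : GL (Fin (k + 1) ⊕ Fin (k + 1)) F) :
        Matrix (Fin (k + 1) ⊕ Fin (k + 1)) (Fin (k + 1) ⊕ Fin (k + 1)) F) := by
    rw [hQ1]
    exact split_iff_pres k σ (g * g₀) B μ ν hgg₀ hB (hQ1 ▸ hQ1σ)
  have hs0 : IsSplit (k + 1) σ Q0 ↔ PreservesSingularClasses ⇑(QPlus (k + 1) F)
      (g₀ : Matrix (Fin (k + 1) ⊕ Fin (k + 1)) (Fin (k + 1) ⊕ Fin (k + 1)) F) := by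
    rw [hQ0]
    exact split_iff_pres k σ g₀ B₀ μ₀ ν₀ hg₀ hB₀ (hQ0 ▸ hQ0σ)
  have hPP : PreservesSingularClasses ⇑(QPlus (k + 1) F)
      ((g * g₀ : GL (Fin (k + 1) ⊕ Fin (k + 1)) F) :
        Matrix (Fin (k + 1) ⊕ Fin (k + 1)) (Fin (k + 1) ⊕ Fin (k + 1)) F) ↔
      PreservesSingularClasses ⇑(QPlus (k + 1) F)
        (g₀ : Matrix (Fin (k + 1) ⊕ Fin (k + 1)) (Fin (k + 1) ⊕ Fin (k + 1)) F) := by
    constructor
    · intro h
      have h1 := pres_mul hm _ hH g⁻¹ (g * g₀) (Subgroup.inv_mem _ hg) hgg₀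
        (pres_inv hm _ hH g hg hgP) h
      rwa [inv_mul_cancel_left] at h1
    · intro h
      exact pres_mul hm _ hH g g₀ hg hg₀ hgP h
  have hcard : Fintype.card (Fin (k + 1) ⊕ Fin (k + 1)) = 2 * (k + 1) := by
    simp
    omega
  obtain ⟨R, cR, hRσ, hR⟩ : ∃ (R : GL (Fin (k + 1) ⊕ Fin (k + 1)) F) (cR : Fˣ),
      (R : Matrix (Fin (k + 1) ⊕ Fin (k + 1)) (Fin (k + 1) ⊕ Fin (k + 1)) F).map σ
        = (R : Matrix (Fin (k + 1) ⊕ Fin (k + 1)) (Fin (k + 1) ⊕ Fin (k + 1)) F) ∧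
      ∀ v, Q1 ((R : Matrix (Fin (k + 1) ⊕ Fin (k + 1)) (Fin (k + 1) ⊕ Fin (k + 1)) F) *ᵥ v)
        = (cR : F) * Q0 v := by
    by_cases hsp : IsSplit (k + 1) σ Q1
    · exact split_sim σ Q1 Q0 hsp (hs0.mpr (hPP.mp (hs1.mp hsp)))
    · have he1 : IsEll k σ Q1 := (normal_form k hcard σ Q1 hQ1nd hQ1σ).resolve_left hsp
      have he0 : IsEll k σ Q0 := (normal_form k hcard σ Q0 hQ0nd hQ0σ).resolve_left
        (fun h => hsp (hs1.mpr (hPP.mpr (hs0.mp h))))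
      exact ell_sim k σ Q1 Q0 he1 he0
  -- the conjugating similarity
  have hh : B * R * B₀⁻¹ ∈ Cfsg.Geo.quadSimilarityGroup (F := F) ⇑(QPlus (k + 1) F) := by
    refine sim_comp (QPlus (k + 1) F) B R B₀ ν cR ν₀ (fun v => ?_)
    have h1 := hR v
    rw [hQ1app, hQ0app] at h1
    exact h1
  have hkey := conj_key σ (g * g₀) B R B₀ g₀ μ μ₀ hB hB₀ hRσ
  -- make the conjugating similarity class-preserving
  obtain ⟨h', hh', hP', hkey'⟩ : ∃ (h : GL (Fin (k + 1) ⊕ Fin (k + 1)) F),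
      h ∈ Cfsg.Geo.quadSimilarityGroup (F := F) ⇑(QPlus (k + 1) F) ∧
      PreservesSingularClasses ⇑(QPlus (k + 1) F)
        (h : Matrix (Fin (k + 1) ⊕ Fin (k + 1)) (Fin (k + 1) ⊕ Fin (k + 1)) F) ∧
      ((g * g₀ : GL (Fin (k + 1) ⊕ Fin (k + 1)) F) :
          Matrix (Fin (k + 1) ⊕ Fin (k + 1)) (Fin (k + 1) ⊕ Fin (k + 1)) F)
        * (h : Matrix (Fin (k + 1) ⊕ Fin (k + 1)) (Fin (k + 1) ⊕ Fin (k + 1)) F).map σ
      = ((μ * μ₀⁻¹ : Fˣ) : F) •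
        ((h : Matrix (Fin (k + 1) ⊕ Fin (k + 1)) (Fin (k + 1) ⊕ Fin (k + 1)) F)
        * (g₀ : Matrix (Fin (k + 1) ⊕ Fin (k + 1)) (Fin (k + 1) ⊕ Fin (k + 1)) F)) := by
    by_cases hPh : PreservesSingularClasses ⇑(QPlus (k + 1) F)
        ((B * R * B₀⁻¹ : GL (Fin (k + 1) ⊕ Fin (k + 1)) F) :
          Matrix (Fin (k + 1) ⊕ Fin (k + 1)) (Fin (k + 1) ⊕ Fin (k + 1)) F)
    · exact ⟨_, hh, hPh, hkey⟩
    · exact ⟨_, Subgroup.mul_mem _ hh ht, pres_of_not_not hm _ hH _ t hh ht hPh htP,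
        fix_key σ (g * g₀) _ t g₀ _ hkey htσ⟩
  -- the conjugating automorphism
  obtain ⟨η, hη⟩ : ∃ η : MulAut (Cfsg.POmega F ⇑(QPlus (k + 1) F)),
      η = simAut ⇑(QPlus (k + 1) F) ⟨h', hh'⟩ := ⟨_, rfl⟩
  have hηI : Ind ⇑(QPlus (k + 1) F) η h' (RingEquiv.refl F) := by
    rw [hη]
    exact ind_of_sim _ h' hh'
  have hηD : η ∈ D := hDmem h' η hh' hP' hηI
  have hconjI : Ind ⇑(QPlus (k + 1) F) (η * x' * η⁻¹)
      (h' * g₀ * Matrix.GeneralLinearGroup.map (σ : F →+* F) h'⁻¹) σ := ind_conj_refl _ hηI hx'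
  have hkey2 := key2_of_key σ (g * g₀) h' g₀ _ hkey'
  have hfin : δ' * x' = η * x' * η⁻¹ :=
    ind_eq _ hyI (ind_smul (QPlus (k + 1) F) hconjI _ hkey2)
  exact ⟨η, hηD, hfin⟩

theorem conj_back {A : Type*} [Group A] (α δ x x' η : A) (hαx : α * x * α⁻¹ = x')
    (hfin : α * δ * α⁻¹ * x' = η * x' * η⁻¹) :
    δ * x = (α⁻¹ * η * α) * x * (α⁻¹ * η * α)⁻¹ := by
  subst hαx
  calc δ * x = α⁻¹ * (α * δ * α⁻¹ * (α * x * α⁻¹)) * α := by group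
    _ = α⁻¹ * (η * (α * x * α⁻¹) * η⁻¹) * α := by rw [hfin]
    _ = _ := by group

theorem ord_conj_coset {A : Type*} [Group A] (α δ x x' : A) (hαx : α * x * α⁻¹ = x') :
    orderOf (α * δ * α⁻¹ * x') = orderOf (δ * x) := by
  subst hαx
  have : α * δ * α⁻¹ * (α * x * α⁻¹) = α * (δ * x) * α⁻¹ := by group
  rw [this, orderOf_conj_eq]

theorem frob_pair_plus (m : ℕ) (σ : F ≃+* F) :
    Cfsg.IsSemisimilarityPair (Cfsg.quadFormPlus m F) 1 σ := by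
  refine ⟨1, fun v => ?_⟩
  simp [Cfsg.quadFormPlus, map_sum, map_mul]

theorem ind_field_plus (m : ℕ) (σ : F ≃+* F)
    (φ : MulAut (Cfsg.POmega F (Cfsg.quadFormPlus m F)))
    (hφ : Cfsg.IsFieldAutPOmegaOf (Cfsg.quadFormPlus m F) σ φ) :
    Ind (Cfsg.quadFormPlus m F) φ 1 σ := by
  refine ⟨frob_pair_plus m σ, ?_⟩
  intro s s' hs
  apply hφ
  simpa using hs

/-- data of a reflection in a rational non-singular vector -/
theorem refl_data [Fintype F] {m : ℕ} (hm : 1 ≤ m) (σ : F ≃+* F) (v : Fin m ⊕ Fin m → F)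
    (hv : Cfsg.quadFormPlus m F v ≠ 0) (hvσ : ∀ i, σ (v i) = v i)
    (rr : GL (Fin m ⊕ Fin m) F)
    (hrr : (rr : Matrix (Fin m ⊕ Fin m) (Fin m ⊕ Fin m) F)
      = reflectionMatrix (Cfsg.quadFormPlus m F) v) :
    rr ∈ Cfsg.Geo.quadSimilarityGroup (F := F) (Cfsg.quadFormPlus m F) ∧
    Cfsg.IsSemisimilarityPair (Cfsg.quadFormPlus m F) rr (RingEquiv.refl F) ∧
    ¬ PreservesSingularClasses (Cfsg.quadFormPlus m F)
      (rr : Matrix (Fin m ⊕ Fin m) (Fin m ⊕ Fin m) F) ∧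
    (rr : Matrix (Fin m ⊕ Fin m) (Fin m ⊕ Fin m) F).map σ
      = (rr : Matrix (Fin m ⊕ Fin m) (Fin m ⊕ Fin m) F) := by
  have hv' : (QPlus m F) v ≠ 0 := by
    rw [coe_QPlus]
    exact hv
  have hrr' : (rr : Matrix (Fin m ⊕ Fin m) (Fin m ⊕ Fin m) F)
      = reflectionMatrix ⇑(QPlus m F) v := by
    rw [coe_QPlus]
    exact hrr
  have hiso : ∀ x : Fin m ⊕ Fin m → F, Cfsg.quadFormPlus m F
      ((rr : Matrix (Fin m ⊕ Fin m) (Fin m ⊕ Fin m) F) *ᵥ x) = Cfsg.quadFormPlus m F x := by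
    intro x
    rw [hrr', ← coe_QPlus]
    exact Q_reflection (QPlus m F) v x hv'
  refine ⟨⟨1, fun x => ?_⟩, ⟨1, fun x => ?_⟩, ?_, ?_⟩
  · rw [hiso]
    simp
  · have : (fun i => (RingEquiv.refl F) (x i)) = x := rfl
    rw [this, hiso]
    simp
  · rw [hrr', ← coe_QPlus]
    exact refl_not_pres hm (QPlus m F) (isHyp_plus m) v hv'
  · rw [hrr']
    exact refl_sigma_fixed (QPlus m F) σ (sigInv_plus m σ) v hvσ

theorem r2736 {F : Type*} [Field F] [Fintype F] {m : ℕ} (hm : 5 ≤ m) (x δ : MulAut (Cfsg.POmega F (Cfsg.quadFormPlus m F))) (hx : Cfsg.IsFieldAutClassPOmega (Cfsg.quadFormPlus m F) x ∨ Cfsg.IsGraphFieldAutClassPOmegaPlus m x) {r : ℕ} (hr : r.Prime) (hxr : orderOf x = r) (hδ : δ ∈ Cfsg.inndiagPOmegaPlus m F) :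
    orderOf (δ * x) = r ↔ Cfsg.IsConjUnder (Cfsg.inndiagPOmegaPlus m F) x (δ * x) := by
  classical
  constructor
  swap
  · rintro ⟨h, -, e⟩
    rw [e, orderOf_conj_eq, hxr]
  intro hord
  obtain ⟨k, rfl⟩ : ∃ k, m = k + 1 := ⟨m - 1, by omega⟩
  obtain ⟨p, _, n, hp, hF⟩ := FiniteField.card' F
  have : Fact p.Prime := ⟨hp⟩
  have hm1 : 1 ≤ k + 1 := by omega
  have hγ : Cfsg.gammaPOmega F (Cfsg.quadFormPlus (k + 1) F) = ⊤ := by
    obtain ⟨Q', hq', hQ', hn', h8'⟩ := Cfsg.Agent.Lib.Helper51.OAF.plus_data (F := F) hm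
    rw [← hq']
    exact Cfsg.Agent.Lib.Helper52.OA.gamma_eq_top Q' hQ' hn' h8'
  -- reduce to a standard field or graph-field automorphism
  obtain ⟨α, x', g₀, σ, hσ1, hαx, hx'I, hg₀, t, ht, htP, htσ⟩ :
      ∃ (α x' : MulAut (Cfsg.POmega F (Cfsg.quadFormPlus (k + 1) F)))
        (g₀ : GL (Fin (k + 1) ⊕ Fin (k + 1)) F) (σ : F ≃+* F),
        σ ≠ RingEquiv.refl F ∧ α * x * α⁻¹ = x' ∧ Ind (Cfsg.quadFormPlus (k + 1) F) x' g₀ σ ∧
        g₀ ∈ Cfsg.Geo.quadSimilarityGroup (F := F) (Cfsg.quadFormPlus (k + 1) F) ∧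
        ∃ t : GL (Fin (k + 1) ⊕ Fin (k + 1)) F,
          t ∈ Cfsg.Geo.quadSimilarityGroup (F := F) (Cfsg.quadFormPlus (k + 1) F) ∧
          ¬ PreservesSingularClasses (Cfsg.quadFormPlus (k + 1) F)
            (t : Matrix (Fin (k + 1) ⊕ Fin (k + 1)) (Fin (k + 1) ⊕ Fin (k + 1)) F) ∧
          (g₀ : Matrix (Fin (k + 1) ⊕ Fin (k + 1)) (Fin (k + 1) ⊕ Fin (k + 1)) F)
            * (t : Matrix (Fin (k + 1) ⊕ Fin (k + 1)) (Fin (k + 1) ⊕ Fin (k + 1)) F).map σ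
          = (t : Matrix (Fin (k + 1) ⊕ Fin (k + 1)) (Fin (k + 1) ⊕ Fin (k + 1)) F)
            * (g₀ : Matrix (Fin (k + 1) ⊕ Fin (k + 1)) (Fin (k + 1) ⊕ Fin (k + 1)) F) := by
    rcases hx with hx | hx
    · obtain ⟨α, φ, σ, hσ1, hφ, hαx⟩ := hx
      obtain ⟨w, hw⟩ : ∃ w : Fin (k + 1) ⊕ Fin (k + 1) → F,
          w = Pi.single (Sum.inl 0) 1 + Pi.single (Sum.inr 0) 1 := ⟨_, rfl⟩
      have hw0 : (QPlus (k + 1) F) w ≠ 0 := by
        rw [hw]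
        exact (hypPlus (k + 1) F 0).Q_plus_ne
      have hwσ : ∀ i, σ (w i) = w i := by
        intro i
        rw [hw]
        simp only [Pi.add_apply, Pi.single_apply]
        split_ifs <;> simp
      obtain ⟨t, htdef⟩ : ∃ t : GL (Fin (k + 1) ⊕ Fin (k + 1)) F,
          t = ((Cfsg.Agent.Lib.Helper51.refl (QPlus (k + 1) F) w hw0 :
            Cfsg.isometryGroup F ⇑(QPlus (k + 1) F)) : GL (Fin (k + 1) ⊕ Fin (k + 1)) F) :=
        ⟨_, rfl⟩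
      have htm : (t : Matrix (Fin (k + 1) ⊕ Fin (k + 1)) (Fin (k + 1) ⊕ Fin (k + 1)) F)
          = reflectionMatrix (Cfsg.quadFormPlus (k + 1) F) w := by
        rw [htdef, Cfsg.Agent.Lib.Helper51.coe_refl, coe_QPlus]
      obtain ⟨h1, -, h3, h4⟩ := refl_data hm1 σ w (by rw [← coe_QPlus]; exact hw0) hwσ t htm
      refine ⟨α, φ, 1, σ, hσ1, hαx, ind_field_plus (k + 1) σ φ hφ, Subgroup.one_mem _,
        t, h1, h3, ?_⟩
      rw [h4, Units.val_one, Matrix.one_mul, Matrix.mul_one]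
    · obtain ⟨α, γ, φ, σ, v, rr, hσ1, hv, hvσ, hrr, hγI, hφ, hαx⟩ := hx
      obtain ⟨h1, h2, h3, h4⟩ := refl_data hm1 σ v hv hvσ rr hrr
      have hγ' : Ind (Cfsg.quadFormPlus (k + 1) F) γ rr (RingEquiv.refl F) := ⟨h2, hγI⟩
      have hx'I : Ind (Cfsg.quadFormPlus (k + 1) F) (γ * φ) rr σ :=
        ind_congr _ (ind_mul_refl _ hγ' (ind_field_plus (k + 1) σ φ hφ)) (by rw [mul_one])
          (fun x => rfl)
      refine ⟨α, γ * φ, rr, σ, hσ1, hαx, hx'I, h1, rr, h1, h3, ?_⟩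
      rw [h4]
  obtain ⟨a, τ, hα⟩ := exists_ind _ hγ α
  have hδ' : α * δ * α⁻¹ ∈ Cfsg.inndiagPOmegaPlus (k + 1) F :=
    inndiag_plus_conj hm1 α δ a τ hα hδ
  have hordy : orderOf (α * δ * α⁻¹ * x') = r := by rw [ord_conj_coset α δ x x' hαx, hord]
  have hordx : orderOf x' = r := by rw [← hαx, orderOf_conj_eq, hxr]
  obtain ⟨η, hηD, hfin⟩ := plus_core hF k hm (Cfsg.quadFormPlus (k + 1) F) (coe_QPlus _ _)
    (Cfsg.inndiagPOmegaPlus (k + 1) F) (fun δ hδ => inndiag_plus_ind hm1 δ hδ)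
    (fun g η hg hP hI => Subgroup.subset_closure ⟨g, hg, hP, hI.2⟩)
    x' (α * δ * α⁻¹) g₀ σ hσ1 hx'I hg₀ t ht htP htσ hr hordx hδ' hordy
  refine ⟨α⁻¹ * η * α, ?_, conj_back α δ x x' η hαx hfin⟩
  have h1 := inndiag_plus_conj hm1 α⁻¹ η _ _ (ind_inv _ hα) hηD
  rwa [inv_inv] at h1

end Assembly

end Cfsg.Agent.Lib.Helper52.LPMain
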