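import Mathlib
import Cfsg.Agent.Lib.Helper54.OrthInnPlus
import Cfsg.Agent.Lib.Helper53.OddFE

/-!
# Project PF (helper52, S2715), piece R2D (iii-b)

For a quadratic extension `F / F₀` of finite fields of odd characteristic and a nonsquare `δ₀` of
`F₀`, the automorphism of `PΩ⁺_{2m}(F)` induced by `diag(δ₀, …, δ₀, 1, …, 1)` is inner iff not
(`m` odd and `|F₀| ≡ 1 (mod 4)`).
-/

set_option autoImplicit false
set_option linter.unusedSectionVars false
set_option linter.unusedVariables false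

namespace Cfsg.Agent.Lib.Helper52.PF

open Cfsg Matrix
open Cfsg.Agent.Lib.Helper51 Cfsg.Agent.Lib.Helper54

universe u v

theorem spinChar_Lhom_diag_odd_sq {F : Type u} [Field F] [Fintype F] {m : ℕ} (h2 : (2 : F) ≠ 0)
    (hm : 1 ≤ m) (hs : IsSquare (-1 : F)) (u : Fˣ) (hu : IsSquare (u : F)) :
    spinChar (QPlus m F) 1 (Lhom (diagGL (fun _ : Fin m => u))) = 1 := by
  rw [spinChar_Lhom_diag hm]
  rw [spinChar_refl_of_isSquare _ h2 1 one_ne_zero _ _ (by
      rw [(hypPlus m F ⟨0, hm⟩).Q_minus, one_mul]; exact hs),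
    spinChar_refl_of_isSquare _ h2 1 one_ne_zero _ _ (by
      rw [(hypPlus m F ⟨0, hm⟩).Q_scale, one_mul, Units.val_pow_eq_pow_val]
      obtain ⟨i, hi⟩ := hs
      obtain ⟨j, hj⟩ := hu
      refine ⟨i * j ^ m, ?_⟩
      rw [hj]
      linear_combination (j ^ m * j ^ m) * hi)]
  decide

theorem plusScale_mul' {F : Type u} [Field F] [Fintype F] {m : ℕ} (a b : Fˣ) :
    plusScale m (a * b) = plusScale m a * plusScale m b := by
  apply Subtype.ext
  apply Units.ext
  show diagonal (Sum.elim (fun _ => ((a * b : Fˣ) : F)) (fun _ => 1)) =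
    diagonal (Sum.elim (fun _ => (a : F)) (fun _ => 1)) *
      diagonal (Sum.elim (fun _ => (b : F)) (fun _ => 1))
  rw [diagonal_mul_diagonal]
  congr 1
  funext i
  rcases i with i | i <;> simp

theorem pfr2_x0_inn {F₀ : Type v} [Field F₀] [Fintype F₀] {F : Type u} [Field F] [Fintype F]
    (h2 : (2 : F) ≠ 0) {m : ℕ} (hm : 4 ≤ m) (e : F₀ →+* F)
    (hcard : Fintype.card F = Fintype.card F₀ ^ 2) (δ₀ : F₀ˣ) (hδ₀ : ¬ IsSquare (δ₀ : F₀)) :
    simAut ⇑(QPlus m F) (plusScale m (Units.map (e : F₀ →* F) δ₀)) ∈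
      Cfsg.Inn (Cfsg.POmega F ⇑(QPlus m F)) ↔ ¬ (Odd m ∧ Fintype.card F₀ % 4 = 1) := by
  have hm1 : 1 ≤ m := by omega
  have hm3 : 3 ≤ m := by omega
  have hF : ringChar F ≠ 2 := Cfsg.Agent.Lib.Helper53.OddF.ringChar_ne_two h2
  have h2₀ : (2 : F₀) ≠ 0 := by
    intro h
    apply h2
    have h1 := congrArg e h
    rwa [map_ofNat, map_zero] at h1
  have hF₀ : ringChar F₀ ≠ 2 := Cfsg.Agent.Lib.Helper53.OddF.ringChar_ne_two h2₀
  have hodd₀ : Odd (Fintype.card F₀) :=
    Nat.odd_iff.mpr (FiniteField.odd_card_of_char_ne_two hF₀)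
  obtain ⟨j, hj⟩ := hodd₀
  have hodd₀ : Odd (Fintype.card F₀) := ⟨j, hj⟩
  have hF4 : Fintype.card F % 4 = 1 := by
    rw [hcard, hj]
    have h3 : (2 * j + 1) ^ 2 = 4 * (j * j + j) + 1 := by ring
    omega
  have hs : IsSquare (-1 : F) := by
    rw [FiniteField.isSquare_neg_one_iff]
    omega
  obtain ⟨ν, hν⟩ := Cfsg.Agent.Lib.Helper53.OddF.isSquare_up e h2 hodd₀ hcard (δ₀ : F₀)
  have heδ : e (δ₀ : F₀) ≠ 0 := by
    intro h0
    exact δ₀.ne_zero (e.injective (by rw [h0, map_zero]))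
  have hν0 : ν ≠ 0 := by
    rintro rfl
    rw [mul_zero] at hν
    exact heδ hν
  obtain ⟨n, hn⟩ : ∃ n : Fˣ, (n : F) = ν := ⟨Units.mk0 ν hν0, rfl⟩
  have hu : Units.map (e : F₀ →* F) δ₀ = n * n := by
    apply Units.ext
    rw [Units.val_mul, hn, ← hν]
    rfl
  have hneg : negO (QPlus m F) ∈ commutator ↥(isometryGroup F ⇑(QPlus m F)) := by
    rw [negO_mem_plus_iff h2]
    exact Or.inl hs
  have hdet : detO (QPlus m F) (Lhom (diagGL (fun _ : Fin m => n))) = 1 := by
    have h1 := congrArg (simSgn (QPlus m F) (hv_plus hm1) m) (plusScale_sq (m := m) n)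
    rw [map_mul, map_mul, simSgn_plusScale hm1, one_mul, simSgn_isoSim,
      simSgn_of_scalar _ _ m card_plus _ _ (coe_scalarSim _ _), one_mul] at h1
    exact h1.symm
  have hz : scalarSim (QPlus m F) n ∈
      (omegaGL ⇑(QPlus m F)).subgroupOf (Geo.quadSimilarityGroup (F := F) ⇑(QPlus m F)) ⊔
        (simAut ⇑(QPlus m F)).ker :=
    Subgroup.mem_sup_right (MonoidHom.mem_ker.mpr
      (simAut_of_scalar (QPlus m F) _ (n : F) (coe_scalarSim (QPlus m F) n)))
  have step1 : simAut ⇑(QPlus m F) (plusScale m (Units.map (e : F₀ →* F) δ₀)) ∈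
      Cfsg.Inn (Cfsg.POmega F ⇑(QPlus m F)) ↔
      Lhom (diagGL (fun _ : Fin m => n)) ∈ commutator ↥(isometryGroup F ⇑(QPlus m F)) := by
    rw [inn_eq, ← Subgroup.mem_comap, Subgroup.comap_map_eq, hu, plusScale_mul', plusScale_sq,
      Subgroup.mul_mem_cancel_left _ hz,
      iso_mem_join_iff (QPlus m F) (hv_plus hm1) (simAut_ker_plus hm3) hneg]
  rw [step1]
  -- squareness of `ν`
  have hδpow : (δ₀ : F₀) ^ j = -1 := by
    have hd := FiniteField.pow_dichotomy hF₀ δ₀.ne_zero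
    have hq : Fintype.card F₀ / 2 = j := by omega
    rw [hq] at hd
    rcases hd with hd | hd
    · exfalso
      apply hδ₀
      rw [FiniteField.isSquare_iff hF₀ δ₀.ne_zero, hq]
      exact hd
    · exact hd
  have hνpow : ν ^ (Fintype.card F / 2) = (-1) ^ (j + 1) := by
    have hq : Fintype.card F / 2 = 2 * (j * (j + 1)) := by
      rw [hcard, hj]
      have h3 : (2 * j + 1) ^ 2 = 2 * (2 * (j * (j + 1))) + 1 := by ring
      omega
    rw [hq, pow_mul, pow_two, ← hν, pow_mul, ← map_pow, hδpow, map_neg, map_one]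
  have hne : (-1 : F) ≠ 1 := by
    intro h
    apply h2
    linear_combination (-1 : F) * h
  have hnsq : IsSquare (n : F) ↔ Fintype.card F₀ % 4 = 3 := by
    rw [hn, FiniteField.isSquare_iff hF hν0, hνpow]
    rcases Nat.even_or_odd (j + 1) with hev | hod
    · rw [hev.neg_one_pow]
      obtain ⟨t, ht⟩ := hev
      constructor
      · intro _
        omega
      · intro _
        rfl
    · rw [hod.neg_one_pow]
      obtain ⟨t, ht⟩ := hod
      constructor
      · intro h
        exact absurd h hne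
      · intro h
        omega
  constructor
  · rintro hmem ⟨hmo, h41⟩
    have h1 := spinChar_eq_one_of_mem (QPlus m F) 1 _ hmem
    have hn' : ¬ IsSquare n := by
      rintro ⟨r, hr⟩
      have h5 : IsSquare (n : F) := ⟨(r : F), by rw [hr, Units.val_mul]⟩
      rw [hnsq] at h5
      omega
    rw [spinChar_Lhom_diag_odd h2 hm1 hmo hs _ hn'] at h1
    exact absurd h1 (by decide)
  · intro hcond
    apply mem_commutator_of_det_spin (QPlus m F) hF polarSep_plus _ hdet
    rcases Nat.even_or_odd m with hev | hmo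
    · exact spinChar_Lhom_diag_even h2 hm1 hev _
    · have h43 : Fintype.card F₀ % 4 = 3 := by
        have h6 : ¬ Fintype.card F₀ % 4 = 1 := fun h => hcond ⟨hmo, h⟩
        omega
      exact spinChar_Lhom_diag_odd_sq h2 hm1 hs _ (hnsq.2 h43)

end Cfsg.Agent.Lib.Helper52.PF
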