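import Mathlib
import Cfsg.Agent.Lib.Helper54.OrthInnPlus
import Cfsg.Agent.Lib.Helper53.OddFE
import Cfsg.Agent.Lib.Helper53.MinusDefs

/-!
# Project PF (helper52, S2715), piece R2D (ii)

The base change to `F` of an `F₀`-isometry of determinant one of the plus form lies in `Ω(F)`
as soon as every element of `F₀` becomes a square in `F`.
-/

set_option autoImplicit false
set_option linter.unusedSectionVars false
set_option linter.unusedVariables false

namespace Cfsg.Agent.Lib.Helper52.PF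

open Cfsg Matrix
open Cfsg.Agent.Lib.Helper51 Cfsg.Agent.Lib.Helper54

universe u v

theorem QPlus_map_up {F₀ : Type v} [Field F₀] {F : Type u} [Field F] (m : ℕ) (e : F₀ →+* F)
    (v : Fin m ⊕ Fin m → F₀) : QPlus m F (fun i => e (v i)) = e (QPlus m F₀ v) := by
  rw [QPlus_apply, QPlus_apply]
  simp only [map_sum, map_mul]

theorem pfr2_iso_up {F₀ : Type v} [Field F₀] [Fintype F₀] {F : Type u} [Field F] [Fintype F]
    (h2 : (2 : F) ≠ 0) {m : ℕ} (e : F₀ →+* F) (hsq : ∀ a₀ : F₀, IsSquare (e a₀))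
    (h₀ : ↥(isometryGroup F₀ ⇑(QPlus m F₀))) (hdet : detO (QPlus m F₀) h₀ = 1)
    (H : ↥(isometryGroup F ⇑(QPlus m F)))
    (hH : ((H : GL (Fin m ⊕ Fin m) F) : Matrix (Fin m ⊕ Fin m) (Fin m ⊕ Fin m) F) =
      ((h₀ : GL (Fin m ⊕ Fin m) F₀) : Matrix (Fin m ⊕ Fin m) (Fin m ⊕ Fin m) F₀).map e) :
    H ∈ commutator ↥(isometryGroup F ⇑(QPlus m F)) := by
  have h2₀ : (2 : F₀) ≠ 0 := by
    intro h
    apply h2
    have h1 := congrArg e h
    rwa [map_ofNat, map_zero] at h1
  obtain ⟨vs, hvs, rfl⟩ :=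
    Cfsg.Agent.Lib.Helper54.exists_reflList (QPlus m F₀) h2₀ polarSep_plus h₀
  rw [detO_reflList] at hdet
  have heven : Even vs.length := by
    by_contra hodd
    rw [Nat.not_even_iff_odd] at hodd
    rw [hodd.neg_one_pow] at hdet
    exact units_neg_one_ne_one (Cfsg.Agent.Lib.Helper53.OddF.ringChar_ne_two h2₀) hdet
  have hmap : ∀ v : Fin m ⊕ Fin m → F₀, QPlus m F (fun i => e (v i)) = e (QPlus m F₀ v) :=
    QPlus_map_up m e
  have hvs' : ∀ w ∈ vs.map (fun v : Fin m ⊕ Fin m → F₀ => (fun i => e (v i))),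
      QPlus m F w ≠ 0 := by
    intro w hw
    obtain ⟨v, hv, rfl⟩ := List.mem_map.1 hw
    rw [hmap]
    intro h0
    exact hvs v hv (e.injective (by rw [h0, map_zero]))
  have hHeq : H = reflList (QPlus m F) _ hvs' := by
    apply isometry_ext
    rw [hH, coe_reflList, coe_reflList,
      Cfsg.Agent.Lib.Helper53.MinusF.refl_prod_mapG e (QPlus m F₀) (QPlus m F) hmap]
  rw [hHeq, reflList_mem_commutator_iff (QPlus m F) h2]
  refine ⟨by rw [List.length_map]; exact heven, ?_⟩
  have h5 : ((vs.map (fun v : Fin m ⊕ Fin m → F₀ => (fun i => e (v i)))).map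
      (fun v => QPlus m F v)).prod = e ((vs.map (fun v => QPlus m F₀ v)).prod) := by
    rw [List.map_map, map_list_prod, List.map_map]
    congr 1
    apply List.map_congr_left
    intro v _
    exact hmap v
  rw [h5]
  exact hsq _

end Cfsg.Agent.Lib.Helper52.PF
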