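import Mathlib
import Cfsg.Agent.Lib.Helper52.PFR2X
import Cfsg.Agent.Lib.Helper52.PFR2Y

/-!
# Project PF (helper52, S2715), piece R2D (ii)+(iii-a)

The automorphism of `PΩ⁺_{2m}(F)` induced by (a scalar multiple of) the base change of an
`F₀`-similarity of sign one is inner, or inner up to the class of `diag(δ₀, …, δ₀, 1, …, 1)`.
-/

set_option autoImplicit false
set_option linter.unusedSectionVars false
set_option linter.unusedVariables false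

namespace Cfsg.Agent.Lib.Helper52.PF

open Cfsg Matrix
open Cfsg.Agent.Lib.Helper51 Cfsg.Agent.Lib.Helper54

universe u v

theorem plusScale_one' {F : Type u} [Field F] [Fintype F] {m : ℕ} :
    plusScale m (1 : Fˣ) = 1 := by
  apply Subtype.ext
  apply Units.ext
  show diagonal (Sum.elim (fun _ => ((1 : Fˣ) : F)) (fun _ => 1)) = 1
  rw [← diagonal_one]
  congr 1
  funext i
  rcases i with i | i <;> simp

theorem plusScale_inv' {F : Type u} [Field F] [Fintype F] {m : ℕ} (a : Fˣ) :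
    plusScale m a⁻¹ = (plusScale m a)⁻¹ := by
  apply eq_inv_of_mul_eq_one_right
  rw [← plusScale_mul', mul_inv_cancel, plusScale_one']

/-- square multiplier: the induced automorphism is inner -/
theorem pfr2_sq_inn {F₀ : Type v} [Field F₀] [Fintype F₀] {F : Type u} [Field F] [Fintype F]
    (h2 : (2 : F) ≠ 0) {m : ℕ} (hm1 : 1 ≤ m) (e : F₀ →+* F)
    (hsq : ∀ a₀ : F₀, IsSquare (e a₀))
    (g₀ : ↥(Geo.quadSimilarityGroup (F := F₀) ⇑(QPlus m F₀)))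
    (hg₀ : simSgn (QPlus m F₀) (hv_plus hm1) m g₀ = 1)
    (c : F₀ˣ) (hc : simMul (QPlus m F₀) (hv_plus hm1) g₀ = c * c)
    (G : ↥(Geo.quadSimilarityGroup (F := F) ⇑(QPlus m F))) (b : F) (hb : b ≠ 0)
    (hG : ((G : GL (Fin m ⊕ Fin m) F) : Matrix (Fin m ⊕ Fin m) (Fin m ⊕ Fin m) F) =
      b • ((g₀ : GL (Fin m ⊕ Fin m) F₀) : Matrix (Fin m ⊕ Fin m) (Fin m ⊕ Fin m) F₀).map e) :
    simAut ⇑(QPlus m F) G ∈ Cfsg.Inn (Cfsg.POmega F ⇑(QPlus m F)) := by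
  obtain ⟨t₀, ht₀⟩ : ∃ t₀ : ↥(Geo.quadSimilarityGroup (F := F₀) ⇑(QPlus m F₀)),
      t₀ = g₀ * scalarSim (QPlus m F₀) c⁻¹ := ⟨_, rfl⟩
  have hmul : simMul (QPlus m F₀) (hv_plus hm1) t₀ = 1 := by
    rw [ht₀, map_mul, hc]
    have h1 : simMul (QPlus m F₀) (hv_plus hm1) (scalarSim (QPlus m F₀) c⁻¹) = c⁻¹ * c⁻¹ := by
      apply Units.ext
      rw [simMul_of_scalar (QPlus m F₀) (hv_plus hm1) _ _ (coe_scalarSim (QPlus m F₀) c⁻¹),
        Units.val_mul]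
    rw [h1, mul_mul_mul_comm, mul_inv_cancel, one_mul]
  have hiso : (t₀ : GL (Fin m ⊕ Fin m) F₀) ∈ isometryGroup F₀ ⇑(QPlus m F₀) := by
    rw [Cfsg.Agent.Lib.Helper51.mem_isometryGroup_iff]
    intro v
    have h1 := simMul_spec (QPlus m F₀) (hv_plus hm1) t₀ v
    rw [hmul, Units.val_one, one_mul] at h1
    exact h1
  obtain ⟨h₀, hh₀⟩ : ∃ h₀ : ↥(isometryGroup F₀ ⇑(QPlus m F₀)),
      isoSim (QPlus m F₀) h₀ = t₀ := ⟨⟨_, hiso⟩, rfl⟩
  have hdet : detO (QPlus m F₀) h₀ = 1 := by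
    rw [← simSgn_isoSim (QPlus m F₀) (hv_plus hm1) m, hh₀, ht₀, map_mul, hg₀, one_mul]
    exact simSgn_of_scalar _ _ m card_plus _ _ (coe_scalarSim _ _)
  have hmap := QPlus_map_up (F := F) m e
  obtain ⟨H, hH⟩ : ∃ H : ↥(isometryGroup F ⇑(QPlus m F)),
      ((H : GL (Fin m ⊕ Fin m) F) : Matrix (Fin m ⊕ Fin m) (Fin m ⊕ Fin m) F) =
        ((h₀ : GL (Fin m ⊕ Fin m) F₀) : Matrix (Fin m ⊕ Fin m) (Fin m ⊕ Fin m) F₀).map e :=
    ⟨Cfsg.Agent.Lib.Helper53.MinusF.isoMapG e (QPlus m F₀) (QPlus m F) hmap h₀, rfl⟩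
  have hHc := pfr2_iso_up h2 e hsq h₀ hdet H hH
  have hc0 : b * e (c : F₀) ≠ 0 := mul_ne_zero hb (by
    intro h0
    exact c.ne_zero (e.injective (by rw [h0, map_zero])))
  have hGeq : G = scalarSim (QPlus m F) (Units.mk0 _ hc0) * isoSim (QPlus m F) H := by
    apply Subtype.ext
    apply Units.ext
    rw [hG]
    show _ = ((b * e (c : F₀)) • (1 : Matrix (Fin m ⊕ Fin m) (Fin m ⊕ Fin m) F)) *
      ((H : GL (Fin m ⊕ Fin m) F) : Matrix (Fin m ⊕ Fin m) (Fin m ⊕ Fin m) F)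
    rw [hH]
    have h3 : ((h₀ : GL (Fin m ⊕ Fin m) F₀) : Matrix (Fin m ⊕ Fin m) (Fin m ⊕ Fin m) F₀) =
        ((g₀ : GL (Fin m ⊕ Fin m) F₀) : Matrix (Fin m ⊕ Fin m) (Fin m ⊕ Fin m) F₀) *
          (((c⁻¹ : F₀ˣ) : F₀) • 1) :=
      congrArg (fun t : ↥(Geo.quadSimilarityGroup (F := F₀) ⇑(QPlus m F₀)) =>
        ((t : GL (Fin m ⊕ Fin m) F₀) : Matrix (Fin m ⊕ Fin m) (Fin m ⊕ Fin m) F₀))
        (hh₀.trans ht₀)
    rw [h3, Matrix.smul_mul, Matrix.one_mul, Matrix.mul_smul, Matrix.mul_one]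
    ext i j
    simp only [Matrix.smul_apply, Matrix.map_apply, smul_eq_mul, map_mul]
    have h4 : e (c : F₀) * e ((c⁻¹ : F₀ˣ) : F₀) = 1 := by
      rw [← map_mul, Units.mul_inv, map_one]
    linear_combination
      (-(b * e (((g₀ : GL (Fin m ⊕ Fin m) F₀) :
        Matrix (Fin m ⊕ Fin m) (Fin m ⊕ Fin m) F₀) i j))) * h4
  rw [hGeq, map_mul, simAut_of_scalar (QPlus m F) _ _ (coe_scalarSim (QPlus m F) _), one_mul,
    inn_eq]
  exact Subgroup.mem_map.2 ⟨isoSim (QPlus m F) H,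
    (mem_omega_sub_iff (QPlus m F) _).2 ⟨H, rfl, hHc⟩, rfl⟩

/-- the two classes -/
theorem pfr2_class {F₀ : Type v} [Field F₀] [Fintype F₀] {F : Type u} [Field F] [Fintype F]
    (h2 : (2 : F) ≠ 0) {m : ℕ} (hm1 : 1 ≤ m) (e : F₀ →+* F)
    (hsq : ∀ a₀ : F₀, IsSquare (e a₀)) (δ₀ : F₀ˣ) (hδ₀ : ¬ IsSquare (δ₀ : F₀))
    (g₀ : ↥(Geo.quadSimilarityGroup (F := F₀) ⇑(QPlus m F₀)))
    (hg₀ : simSgn (QPlus m F₀) (hv_plus hm1) m g₀ = 1)
    (G : ↥(Geo.quadSimilarityGroup (F := F) ⇑(QPlus m F))) (b : F) (hb : b ≠ 0)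
    (hG : ((G : GL (Fin m ⊕ Fin m) F) : Matrix (Fin m ⊕ Fin m) (Fin m ⊕ Fin m) F) =
      b • ((g₀ : GL (Fin m ⊕ Fin m) F₀) : Matrix (Fin m ⊕ Fin m) (Fin m ⊕ Fin m) F₀).map e) :
    simAut ⇑(QPlus m F) G ∈ Cfsg.Inn (Cfsg.POmega F ⇑(QPlus m F)) ∨
      simAut ⇑(QPlus m F) G *
        (simAut ⇑(QPlus m F) (plusScale m (Units.map (e : F₀ →* F) δ₀)))⁻¹ ∈
        Cfsg.Inn (Cfsg.POmega F ⇑(QPlus m F)) := by
  have h2₀ : (2 : F₀) ≠ 0 := by
    intro h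
    apply h2
    have h1 := congrArg e h
    rwa [map_ofNat, map_zero] at h1
  have hF₀ : ringChar F₀ ≠ 2 := Cfsg.Agent.Lib.Helper53.OddF.ringChar_ne_two h2₀
  obtain ⟨μ, hμ⟩ : ∃ μ : F₀ˣ, μ = simMul (QPlus m F₀) (hv_plus hm1) g₀ := ⟨_, rfl⟩
  by_cases hsqμ : IsSquare (μ : F₀)
  · left
    obtain ⟨c, hc⟩ := hsqμ
    have hc0 : c ≠ 0 := by
      rintro rfl
      rw [mul_zero] at hc
      exact μ.ne_zero hc
    exact pfr2_sq_inn h2 hm1 e hsq g₀ hg₀ (Units.mk0 c hc0)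
      (by rw [← hμ]; exact Units.ext hc) G b hb hG
  · right
    have hd1 : (μ : F₀) ^ (Fintype.card F₀ / 2) = -1 := by
      rcases FiniteField.pow_dichotomy hF₀ μ.ne_zero with hd | hd
      · exact absurd ((FiniteField.isSquare_iff hF₀ μ.ne_zero).2 hd) hsqμ
      · exact hd
    have hd2 : (δ₀ : F₀) ^ (Fintype.card F₀ / 2) = -1 := by
      rcases FiniteField.pow_dichotomy hF₀ δ₀.ne_zero with hd | hd
      · exact absurd ((FiniteField.isSquare_iff hF₀ δ₀.ne_zero).2 hd) hδ₀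
      · exact hd
    have hq : IsSquare (((μ * δ₀⁻¹ : F₀ˣ)) : F₀) := by
      rw [FiniteField.isSquare_iff hF₀ (μ * δ₀⁻¹).ne_zero, Units.val_mul, mul_pow, hd1,
        Units.val_inv_eq_inv_val, inv_pow, hd2]
      field_simp
    obtain ⟨c, hc⟩ := hq
    have hc0 : c ≠ 0 := by
      rintro rfl
      rw [mul_zero] at hc
      exact (μ * δ₀⁻¹).ne_zero hc
    have key := pfr2_sq_inn h2 hm1 e hsq (g₀ * plusScale m δ₀⁻¹)
      (by rw [map_mul, hg₀, simSgn_plusScale hm1, one_mul]) (Units.mk0 c hc0)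
      (by rw [map_mul, simMul_plusScale hm1, ← hμ]; exact Units.ext hc)
      (G * plusScale m (Units.map (e : F₀ →* F) δ₀⁻¹)) b hb (by
        show ((G : GL (Fin m ⊕ Fin m) F) : Matrix (Fin m ⊕ Fin m) (Fin m ⊕ Fin m) F) *
            diagonal (Sum.elim (fun _ => ((Units.map (e : F₀ →* F) δ₀⁻¹ : Fˣ) : F))
              (fun _ => 1)) =
          b • (((g₀ : GL (Fin m ⊕ Fin m) F₀) : Matrix (Fin m ⊕ Fin m) (Fin m ⊕ Fin m) F₀) *
            diagonal (Sum.elim (fun _ => ((δ₀⁻¹ : F₀ˣ) : F₀)) (fun _ => 1))).map e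
        rw [hG, Matrix.map_mul, Matrix.smul_mul, Matrix.diagonal_map (map_zero e)]
        congr 3
        funext i
        rcases i with i | i
        · rfl
        · simp)
    rw [map_mul, map_inv, plusScale_inv', map_inv] at key
    exact key

end Cfsg.Agent.Lib.Helper52.PF
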