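import Mathlib
import Cfsg.Agent.Lib.Helper52.PFR2Z
import Cfsg.Agent.Lib.Helper29.PFCENTO
import Cfsg.Agent.Lib.Helper53.FixField

/-!
# Project PF (helper52, S2715), piece R2D: the descent half of `r = 2`

`pfr2_desc_h52`: for the standard field automorphism `φ` of order two of `PΩ⁺_{2m}(F)` (odd
characteristic) there is `x₀ ∈ Inndiag ⊓ C(φ)` such that every element of `Inndiag ⊓ C(φ)` lies
in `Inn ∪ Inn x₀`, and `x₀ ∈ Inn` iff not (`m` odd and `|F₀| ≡ 1 (mod 4)`).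
-/

set_option autoImplicit false
set_option linter.unusedSectionVars false
set_option linter.unusedVariables false

namespace Cfsg.Agent.Lib.Helper52.PF

open Module QuadraticMap Matrix
open Cfsg Cfsg.Agent.Lib.Helper51 Cfsg.Agent.Lib.Helper51.GammaO Cfsg.Agent.Lib.Helper52
  Cfsg.Agent.Lib.Helper52.OA Cfsg.Agent.Lib.Helper51.OutSpin Cfsg.Agent.Lib.Helper53.OddF
  Cfsg.Agent.Lib.Helper53.MinusF Cfsg.Agent.Lib.Helper54

universe u v

/-- the fixed field of an automorphism of order two has `√|F|` elements -/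
theorem pfr2_card {F₀ : Type v} [Field F₀] [Fintype F₀] {F : Type u} [Field F] [Fintype F]
    (e : F₀ →+* F) (σ : F ≃+* F) (hr : orderOf σ = 2)
    (he : ∀ x : F, σ x = x ↔ x ∈ Set.range e) :
    Fintype.card F = Fintype.card F₀ ^ 2 := by
  obtain ⟨p, hp, n, hpp, hcard⟩ := FiniteField.card' F
  haveI : Fact p.Prime := ⟨hpp⟩
  obtain ⟨hdvd, hfix⟩ := Cfsg.Agent.Lib.Helper53.Fix.fixed_card hcard σ hr
  have h1 : Nat.card F₀ = Nat.card (FixedPoints.subfield (Subgroup.zpowers σ) F) := by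
    apply Nat.card_congr
    refine Equiv.ofBijective (fun x => ⟨e x,
      (Cfsg.Agent.Lib.Helper53.Fix.mem_fixed_iff σ (e x)).2 ((he (e x)).2 ⟨x, rfl⟩)⟩) ⟨?_, ?_⟩
    · intro x y h
      exact e.injective (congrArg Subtype.val h)
    · rintro ⟨y, hy⟩
      obtain ⟨x, rfl⟩ := (he y).1 ((Cfsg.Agent.Lib.Helper53.Fix.mem_fixed_iff σ y).1 hy)
      exact ⟨x, rfl⟩
  rw [hcard, ← Nat.card_eq_fintype_card (α := F₀), h1, hfix, ← pow_mul,
    Nat.div_mul_cancel hdvd]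

section

variable {F₀ : Type v} [Field F₀] [Fintype F₀] {F : Type u} [Field F] [Fintype F] (e : F₀ →+* F)
  (m : ℕ)

local notation "Idx" => (Fin m ⊕ Fin m)

theorem pfr2_sm_plusScale (δ₀ : F₀ˣ) :
    pfcento_sm e m (plusScale m δ₀) = plusScale m (Units.map (e : F₀ →* F) δ₀) := by
  apply Subtype.ext
  apply Units.ext
  show (diagonal (Sum.elim (fun _ => (δ₀ : F₀)) (fun _ => 1)) : Matrix Idx Idx F₀).map e =
    diagonal (Sum.elim (fun _ => ((Units.map (e : F₀ →* F) δ₀ : Fˣ) : F)) (fun _ => 1))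
  rw [Matrix.diagonal_map (map_zero e)]
  congr 1
  funext i
  rcases i with i | i
  · rfl
  · simp

theorem pfr2_desc_aux (h2 : (2 : F) ≠ 0) (hm : 4 ≤ m)
    (σ : F ≃+* F) (hr : orderOf σ = 2)
    (he : ∀ x : F, σ x = x ↔ x ∈ Set.range e)
    (Q' : (Idx → F) → F) (hQ' : ⇑(QPlus m F) = Q')
    (φ : MulAut (POmega F Q')) (hφ : IsFieldAutPOmegaOf Q' σ φ) :
    ∃ x₀ ∈ inndiagOf Q' ⊓ Subgroup.centralizer {φ},
      (∀ c ∈ inndiagOf Q' ⊓ Subgroup.centralizer {φ},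
        c ∈ Inn (POmega F Q') ∨ c * x₀⁻¹ ∈ Inn (POmega F Q')) ∧
      (x₀ ∈ Inn (POmega F Q') ↔ ¬ (Odd m ∧ Fintype.card F₀ % 4 = 1)) := by
  subst hQ'
  have hm1 : 1 ≤ m := by omega
  have h2₀ : (2 : F₀) ≠ 0 := by
    intro h0
    apply h2
    have := congrArg e h0
    rwa [map_ofNat, map_zero] at this
  have hF : ringChar F ≠ 2 := ringChar_ne_two h2
  have hF₀ : ringChar F₀ ≠ 2 := ringChar_ne_two h2₀
  have hcard := pfr2_card e σ hr he
  have hodd₀ : Odd (Fintype.card F₀) :=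
    Nat.odd_iff.mpr (FiniteField.odd_card_of_char_ne_two hF₀)
  have hsq : ∀ a₀ : F₀, IsSquare (e a₀) := fun a₀ => isSquare_up e h2 hodd₀ hcard a₀
  obtain ⟨hQ, hn⟩ := pfcento_plus_nondeg (F := F) hm
  have hσ := pfcento_inr_mem_plus m (σ : RingAut F)
  have hφ' := (field_iffS (QPlus m F) σ hσ φ).mp hφ
  subst hφ'
  unfold inndiagOf
  rw [inndiagPlus_eq hF hm1]
  have hrange := pfcento_psi0_range e m hm1 hQ hn σ hσ 2 (by norm_num) hr he
  obtain ⟨d, hd⟩ := FiniteField.exists_nonsquare (F := F₀) hF₀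
  have hd0 : d ≠ 0 := by
    rintro rfl
    exact hd ⟨0, by simp⟩
  obtain ⟨δ₀, hδ₀⟩ : ∃ δ₀ : F₀ˣ, (δ₀ : F₀) = d := ⟨Units.mk0 d hd0, rfl⟩
  have hδsq : ¬ IsSquare (δ₀ : F₀) := by rw [hδ₀]; exact hd
  have hx₀ : pfcento_psi0 e m hm1
      ⟨plusScale m δ₀, MonoidHom.mem_ker.2 (simSgn_plusScale hm1 δ₀)⟩ =
      simAut ⇑(QPlus m F) (plusScale m (Units.map (e : F₀ →* F) δ₀)) := by
    show iotaO (QPlus m F) (pfcento_sm e m (plusScale m δ₀)) = _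
    rw [iotaO_eq_simAut, pfr2_sm_plusScale]
  refine ⟨simAut ⇑(QPlus m F) (plusScale m (Units.map (e : F₀ →* F) δ₀)), ?_, ?_, ?_⟩
  · rw [← hrange, ← hx₀]
    exact ⟨_, rfl⟩
  · intro c hc
    rw [← hrange] at hc
    obtain ⟨g₀, rfl⟩ := hc
    have h1 : pfcento_psi0 e m hm1 g₀ = simAut ⇑(QPlus m F) (pfcento_sm e m g₀.1) :=
      iotaO_eq_simAut _ _
    rw [h1]
    exact pfr2_class h2 hm1 e hsq δ₀ hδsq g₀.1 g₀.2 (pfcento_sm e m g₀.1) 1 one_ne_zero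
      (by rw [one_smul]; rfl)
  · exact pfr2_x0_inn h2 hm e hcard δ₀ hδsq

end

/-- **Piece PF-R2D** (statement of note 2301, `pfr2_desc`). -/
theorem pfr2_desc_h52 {F₀ : Type v} [Field F₀] [Fintype F₀] {F : Type u} [Field F] [Fintype F]
    (h2 : (2 : F) ≠ 0) {m : ℕ} (hm : 4 ≤ m) (e : F₀ →+* F)
    (σ : F ≃+* F) (hr : orderOf σ = 2)
    (he : ∀ x : F, σ x = x ↔ x ∈ Set.range e)
    (φ : MulAut (Cfsg.POmega F (Cfsg.quadFormPlus m F)))
    (hφ : Cfsg.IsFieldAutPOmegaOf (Cfsg.quadFormPlus m F) σ φ) :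
    ∃ x₀ ∈ Cfsg.inndiagPOmegaPlus m F ⊓ Subgroup.centralizer {φ},
      (∀ c ∈ Cfsg.inndiagPOmegaPlus m F ⊓ Subgroup.centralizer {φ},
        c ∈ Cfsg.Inn (Cfsg.POmega F (Cfsg.quadFormPlus m F)) ∨
        c * x₀⁻¹ ∈ Cfsg.Inn (Cfsg.POmega F (Cfsg.quadFormPlus m F))) ∧
      (x₀ ∈ Cfsg.Inn (Cfsg.POmega F (Cfsg.quadFormPlus m F)) ↔
        ¬ (Odd m ∧ Fintype.card F₀ % 4 = 1)) :=
  pfr2_desc_aux e m h2 hm σ hr he _ (coe_QPlus m F) φ hφ

end Cfsg.Agent.Lib.Helper52.PF
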