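import Mathlib
import Cfsg.Prelude.Def_GeometricClasses
import Cfsg.Prelude.Def_LieClassical
import Cfsg.Agent.Lib.Helper71.Asch5
import Cfsg.Agent.Lib.Helper82.ASB8UNITS
import Cfsg.Agent.Lib.Helper44.BADDefs

/-! Project BAD (helper44, sub-project of S5663), piece EMIN (helper52): minimality of `E`. -/

set_option autoImplicit false

namespace Cfsg.Agent.Lib.Helper44.BAD

open Matrix Cfsg.Geo Cfsg.Agent.Lib.Helper71.Asch
open scoped Kronecker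

variable {n : ℕ} {F : Type*} [Field F] [Fintype F] {q : ℕ}

theorem EMIN_gl (e : Fin n ≃ Fin 3 × Fin 3) (P : GL (Fin n) F)
    (a a' b b' : Matrix (Fin 3) (Fin 3) F)
    (h1 : a * a' = 1) (h2 : a' * a = 1) (h3 : b * b' = 1) (h4 : b' * b = 1) :
    ∃ z : GL (Fin n) F, z.1 = tmat e P a b ∧ (z⁻¹ : GL (Fin n) F).1 = tmat e P a' b' :=
  ⟨⟨tmat e P a b, tmat e P a' b',
    by rw [Cfsg.Agent.Lib.Helper82.ASB8UNITS.tmat_mul, h1, h3,
      Cfsg.Agent.Lib.Helper82.ASB8UNITS.tmat_one],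
    by rw [Cfsg.Agent.Lib.Helper82.ASB8UNITS.tmat_mul, h2, h4,
      Cfsg.Agent.Lib.Helper82.ASB8UNITS.tmat_one]⟩, rfl, rfl⟩

theorem EMIN_tmat_smul (e : Fin n ≃ Fin 3 × Fin 3) (P : GL (Fin n) F) (c d : F) :
    tmat e P (c • (1 : Matrix (Fin 3) (Fin 3) F)) (d • (1 : Matrix (Fin 3) (Fin 3) F)) =
      (c * d) • (1 : Matrix (Fin n) (Fin n) F) := by
  have h : (c • (1 : Matrix (Fin 3) (Fin 3) F)) ⊗ₖ (d • (1 : Matrix (Fin 3) (Fin 3) F)) =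
      (c * d) • (1 : Matrix (Fin 3 × Fin 3) (Fin 3 × Fin 3) F) := by
    rw [Matrix.smul_kronecker, Matrix.kronecker_smul, smul_smul, Matrix.one_kronecker_one]
  unfold tmat
  rw [h]
  have h2 : Matrix.reindex e.symm e.symm
      ((c * d) • (1 : Matrix (Fin 3 × Fin 3) (Fin 3 × Fin 3) F)) =
      (c * d) • (1 : Matrix (Fin n) (Fin n) F) := by
    ext i j
    simp [Matrix.reindex_apply, Matrix.submatrix_apply, Matrix.one_apply]
  rw [h2, Matrix.mul_smul, Matrix.mul_one, Matrix.smul_mul, ← Units.val_mul, mul_inv_cancel,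
    Units.val_one]

theorem EMIN_core (e : Fin n ≃ Fin 3 × Fin 3) (P : GL (Fin n) F) (E H' : Subgroup (GL (Fin n) F))
    (hE : EIs e P E) (hS : SMULp F) (haux : SAUXp F) (htr : STRANSp F)
    (hH1 : ∀ g : GL (Fin n) F, ∀ a ∈ bU F 2, g.1 = tmat e P a 1 → g ∈ H')
    (s : GL (Fin n) F) (hs : s ∈ H')
    (hsw : ∀ a b : Matrix (Fin 3) (Fin 3) F, s.1 * tmat e P a b = tmat e P b a * s.1)
    (L' : Subgroup (GL (Fin n) F)) (hN : Nrm H' L')
    (x : GL (Fin n) F) (hx : x ∈ L') (a b : Matrix (Fin 3) (Fin 3) F) (ha : a ∈ bS F)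
    (hb : b ∈ bS F) (hxe : x.1 = tmat e P a b) (hns : ¬ bScal a) : E ≤ L' := by
  obtain ⟨-, hmulS, hinvS⟩ := hS
  obtain ⟨-, hsq, hprod⟩ := haux
  have hU : ∀ g ∈ bU F 2, ∃ γ : GL (Fin n) F, γ ∈ H' ∧ γ.1 = tmat e P g 1 ∧
      ∃ g' : Matrix (Fin 3) (Fin 3) F, g * g' = 1 ∧ g' * g = 1 ∧
        (γ⁻¹ : GL (Fin n) F).1 = tmat e P g' 1 := by
    intro g hg
    have hdet : IsUnit g.det := by
      have h : (gᵀ * g.map (fun x : F => x ^ 2)).det = 1 := by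
        have hg' : gᵀ * g.map (fun x : F => x ^ 2) = 1 := hg
        rw [hg', Matrix.det_one]
      rw [Matrix.det_mul, Matrix.det_transpose] at h
      exact IsUnit.of_mul_eq_one _ h
    obtain ⟨γ, hγ, hγi⟩ := EMIN_gl e P g g⁻¹ 1 1 (Matrix.mul_nonsing_inv g hdet)
      (Matrix.nonsing_inv_mul g hdet) (one_mul 1) (one_mul 1)
    exact ⟨γ, hH1 γ g hg hγ, hγ, g⁻¹, Matrix.mul_nonsing_inv g hdet,
      Matrix.nonsing_inv_mul g hdet, hγi⟩
  obtain ⟨a', ha', haa', ha'a⟩ := hinvS a ha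
  obtain ⟨b', hb', hbb', hb'b⟩ := hinvS b hb
  have hxinv : (x⁻¹ : GL (Fin n) F).1 = tmat e P a' b' := by
    obtain ⟨z, hz, hzi⟩ := EMIN_gl e P a a' b b' haa' ha'a hbb' hb'b
    have hzx : z = x := Units.ext (by rw [hz, hxe])
    rw [← hzx, hzi]
  have step1 : ∀ z : GL (Fin n) F, z.1 = tmat e P a 1 → z ∈ L' := by
    intro z hz
    obtain ⟨g, hg, hga⟩ := htr a ha (a * a) (hmulS a ha a ha) hns (hsq a ha hns)
    obtain ⟨γ, hγH, hγ, g', hgg', hg'g, hγi⟩ := hU g hg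
    have hmem : γ * x * γ⁻¹ * x⁻¹ ∈ L' := L'.mul_mem (hN γ hγH x hx) (L'.inv_mem hx)
    have hzeq : z = γ * x * γ⁻¹ * x⁻¹ := by
      apply Units.ext
      rw [hz, Units.val_mul, Units.val_mul, Units.val_mul, hγ, hxe, hγi, hxinv,
        Cfsg.Agent.Lib.Helper82.ASB8UNITS.tmat_mul, Cfsg.Agent.Lib.Helper82.ASB8UNITS.tmat_mul,
        Cfsg.Agent.Lib.Helper82.ASB8UNITS.tmat_mul]
      have e1 : g * a * g' = a * a := by rw [hga, mul_assoc, hgg', mul_one]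
      have e2 : g * a * g' * a' = a := by rw [e1, mul_assoc, haa', mul_one]
      have e3 : 1 * b * 1 * b' = 1 := by rw [one_mul, mul_one, hbb']
      rw [e2, e3]
    rw [hzeq]
    exact hmem
  have step2 : ∀ M ∈ bS F, ¬ bScal M → ∀ z : GL (Fin n) F, z.1 = tmat e P M 1 → z ∈ L' := by
    intro M hM hMns z hz
    obtain ⟨g, hg, hga⟩ := htr a ha M hM hns hMns
    obtain ⟨γ, hγH, hγ, g', hgg', hg'g, hγi⟩ := hU g hg
    obtain ⟨y₀, hy₀, -⟩ := EMIN_gl e P a a' 1 1 haa' ha'a (one_mul 1) (one_mul 1)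
    have hmem : γ * y₀ * γ⁻¹ ∈ L' := hN γ hγH y₀ (step1 y₀ hy₀)
    have hzeq : z = γ * y₀ * γ⁻¹ := by
      apply Units.ext
      rw [hz, Units.val_mul, Units.val_mul, hγ, hy₀, hγi,
        Cfsg.Agent.Lib.Helper82.ASB8UNITS.tmat_mul, Cfsg.Agent.Lib.Helper82.ASB8UNITS.tmat_mul]
      have e1 : g * a * g' = M := by rw [hga, mul_assoc, hgg', mul_one]
      have e3 : (1 : Matrix (Fin 3) (Fin 3) F) * 1 * 1 = 1 := by rw [one_mul, one_mul]
      rw [e1, e3]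
    rw [hzeq]
    exact hmem
  have step3 : ∀ M ∈ bS F, ∀ z : GL (Fin n) F, z.1 = tmat e P M 1 → z ∈ L' := by
    intro M hM z hz
    obtain ⟨M₁, hM₁, M₂, hM₂, hns₁, hns₂, hMeq⟩ := hprod M hM
    obtain ⟨M₁', -, h11, h12⟩ := hinvS M₁ hM₁
    obtain ⟨M₂', -, h21, h22⟩ := hinvS M₂ hM₂
    obtain ⟨z₁, hz₁, -⟩ := EMIN_gl e P M₁ M₁' 1 1 h11 h12 (one_mul 1) (one_mul 1)
    obtain ⟨z₂, hz₂, -⟩ := EMIN_gl e P M₂ M₂' 1 1 h21 h22 (one_mul 1) (one_mul 1)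
    have hzeq : z = z₁ * z₂ := by
      apply Units.ext
      rw [hz, Units.val_mul, hz₁, hz₂, Cfsg.Agent.Lib.Helper82.ASB8UNITS.tmat_mul, ← hMeq,
        one_mul]
    rw [hzeq]
    exact L'.mul_mem (step2 M₁ hM₁ hns₁ z₁ hz₁) (step2 M₂ hM₂ hns₂ z₂ hz₂)
  have step4 : ∀ M ∈ bS F, ∀ z : GL (Fin n) F, z.1 = tmat e P 1 M → z ∈ L' := by
    intro M hM z hz
    obtain ⟨M', -, h1, h2⟩ := hinvS M hM
    obtain ⟨z₁, hz₁, -⟩ := EMIN_gl e P M M' 1 1 h1 h2 (one_mul 1) (one_mul 1)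
    have hmem : s * z₁ * s⁻¹ ∈ L' := hN s hs z₁ (step3 M hM z₁ hz₁)
    have hzeq : z = s * z₁ * s⁻¹ := by
      apply Units.ext
      rw [hz, Units.val_mul, Units.val_mul, hz₁, hsw, mul_assoc, ← Units.val_mul,
        mul_inv_cancel, Units.val_one, mul_one]
    rw [hzeq]
    exact hmem
  intro g hg
  obtain ⟨a₁, ha₁, b₁, hb₁, hge⟩ := (hE g).mp hg
  obtain ⟨a₁', -, h1, h2⟩ := hinvS a₁ ha₁
  obtain ⟨b₁', -, h3, h4⟩ := hinvS b₁ hb₁
  obtain ⟨z₁, hz₁, -⟩ := EMIN_gl e P a₁ a₁' 1 1 h1 h2 (one_mul 1) (one_mul 1)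
  obtain ⟨z₂, hz₂, -⟩ := EMIN_gl e P 1 1 b₁ b₁' (one_mul 1) (one_mul 1) h3 h4
  have hgeq : g = z₁ * z₂ := by
    apply Units.ext
    rw [hge, Units.val_mul, hz₁, hz₂, Cfsg.Agent.Lib.Helper82.ASB8UNITS.tmat_mul, mul_one,
      one_mul]
  rw [hgeq]
  exact L'.mul_mem (step3 a₁ ha₁ z₁ hz₁) (step4 b₁ hb₁ z₂ hz₂)

/-- EMIN: `E` is a minimal non-scalar subgroup normalised by `H'`. -/
theorem EMIN (e : Fin n ≃ Fin 3 × Fin 3) (P : GL (Fin n) F) (E H' : Subgroup (GL (Fin n) F))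
    (hE : EIs e P E) (hS : SMULp F) (haux : SAUXp F) (htr : STRANSp F)
    (hH1 : ∀ g : GL (Fin n) F, ∀ a ∈ bU F 2, g.1 = tmat e P a 1 → g ∈ H')
    (s : GL (Fin n) F) (hs : s ∈ H')
    (hsw : ∀ a b : Matrix (Fin 3) (Fin 3) F, s.1 * tmat e P a b = tmat e P b a * s.1)
    (L' : Subgroup (GL (Fin n) F)) (hL' : L' ≤ E) (hN : Nrm H' L') :
    L' ≤ scalars (Fin n) F ∨ L' = E := by
  by_cases hsc : L' ≤ scalars (Fin n) F
  · exact Or.inl hsc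
  right
  obtain ⟨x, hxL, hxs⟩ := SetLike.not_le_iff_exists.mp hsc
  obtain ⟨a, ha, b, hb, hxe⟩ := (hE x).mp (hL' hxL)
  refine le_antisymm hL' ?_
  by_cases hns : bScal a
  · have hnsb : ¬ bScal b := by
      rintro ⟨cb, hcb⟩
      obtain ⟨ca, hca⟩ := hns
      apply hxs
      obtain ⟨a', -, haa', -⟩ := hS.2.2 a ha
      obtain ⟨b', -, hbb', -⟩ := hS.2.2 b hb
      have hca0 : ca ≠ 0 := by
        rintro rfl
        rw [hca, zero_smul, zero_mul] at haa'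
        exact zero_ne_one haa'
      have hcb0 : cb ≠ 0 := by
        rintro rfl
        rw [hcb, zero_smul, zero_mul] at hbb'
        exact zero_ne_one hbb'
      rw [mem_scalars_iff]
      refine ⟨Units.mk0 (ca * cb) (mul_ne_zero hca0 hcb0), ?_⟩
      rw [hxe, hca, hcb, EMIN_tmat_smul]
      rfl
    have hx' : s * x * s⁻¹ ∈ L' := hN s hs x hxL
    have hx'e : (s * x * s⁻¹).1 = tmat e P b a := by
      rw [Units.val_mul, Units.val_mul, hxe, hsw, mul_assoc, ← Units.val_mul, mul_inv_cancel,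
        Units.val_one, mul_one]
    exact EMIN_core e P E H' hE hS haux htr hH1 s hs hsw L' hN (s * x * s⁻¹) hx' b a hb ha hx'e
      hnsb
  · exact EMIN_core e P E H' hE hS haux htr hH1 s hs hsw L' hN x hxL a b ha hb hxe hns

end Cfsg.Agent.Lib.Helper44.BAD
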