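import Mathlib
import Cfsg.Agent.Lib.Helper51.GFDefs2
import Cfsg.Agent.Lib.Helper52.LangPlus
import Cfsg.Agent.Lib.Helper18.MFC2A

/-!
# S2717, piece GF-SPLIT2 (helper52): in characteristic two `Inndiag(PΩ⁺_{2m}(F)) = Inn`

The plus analogue of helper18's `MFC2A.inndiag_minus_eq_inn`, using its generic core
(`pres_of_mem_omega`, `simAut_mem_inn`) with the class character `PreservesSingularClasses`
and the calculus of `Helper52.LangPlus` (`pres_mul`, `pres_inv`, `pres_of_not_not`,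
`refl_not_pres`).
-/

set_option autoImplicit false
set_option linter.unusedSectionVars false
set_option linter.unusedVariables false

namespace Cfsg.Agent.Lib.Helper52.GFSPLIT2

open Module QuadraticMap Matrix
open Cfsg Cfsg.Agent.Lib.Helper51 Cfsg.Agent.Lib.Helper52 Cfsg.Agent.Lib.Helper54
  Cfsg.Agent.Lib.Helper51.GF Cfsg.Agent.Lib.Helper52.LP

universe u

theorem inndiag_plus_eq_inn_aux {F : Type u} [Field F] [Fintype F] (h2 : (2 : F) = 0) {m : ℕ}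
    (hm : 5 ≤ m) (Q' : (Fin m ⊕ Fin m → F) → F) (hQ' : ⇑(QPlus m F) = Q') :
    gInndiag Q' = Inn (POmega F Q') := by
  subst hQ'
  have hm1 : 1 ≤ m := by omega
  have hH := Cfsg.Agent.Lib.Helper52.LPMain.isHyp_plus (F := F) m
  have hQ : (polarBilin (QPlus m F)).Nondegenerate := nondeg_of_polarSep _ polarSep_plus
  have hne : Nonempty (Fin m ⊕ Fin m) := ⟨Sum.inl ⟨0, by omega⟩⟩
  have hcard : Fintype.card F ≠ 2 ∨ Fintype.card (Fin m ⊕ Fin m) ≠ 4 :=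
    Or.inr (by simp only [Fintype.card_sum, Fintype.card_fin]; omega)
  obtain ⟨u, hu⟩ := hv_plus (F := F) hm1
  have c1 : ∀ g h : GL (Fin m ⊕ Fin m) F, g ∈ Geo.quadSimilarityGroup (F := F) ⇑(QPlus m F) →
      h ∈ Geo.quadSimilarityGroup (F := F) ⇑(QPlus m F) →
      PreservesSingularClasses ⇑(QPlus m F) (g : Matrix (Fin m ⊕ Fin m) (Fin m ⊕ Fin m) F) →
      PreservesSingularClasses ⇑(QPlus m F) (h : Matrix (Fin m ⊕ Fin m) (Fin m ⊕ Fin m) F) →
      PreservesSingularClasses ⇑(QPlus m F)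
        ((g * h : GL (Fin m ⊕ Fin m) F) : Matrix (Fin m ⊕ Fin m) (Fin m ⊕ Fin m) F) :=
    fun g h hg hh Pg Ph =>
      Cfsg.Agent.Lib.Helper52.LPMain.pres_mul hm1 (QPlus m F) hH g h hg hh Pg Ph
  have c2 : ∀ g : GL (Fin m ⊕ Fin m) F, g ∈ Geo.quadSimilarityGroup (F := F) ⇑(QPlus m F) →
      PreservesSingularClasses ⇑(QPlus m F) (g : Matrix (Fin m ⊕ Fin m) (Fin m ⊕ Fin m) F) →
      PreservesSingularClasses ⇑(QPlus m F)
        ((g⁻¹ : GL (Fin m ⊕ Fin m) F) : Matrix (Fin m ⊕ Fin m) (Fin m ⊕ Fin m) F) :=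
    fun g hg Pg => Cfsg.Agent.Lib.Helper52.LPMain.pres_inv hm1 (QPlus m F) hH g hg Pg
  have c3 : ∀ g h : GL (Fin m ⊕ Fin m) F, g ∈ Geo.quadSimilarityGroup (F := F) ⇑(QPlus m F) →
      h ∈ Geo.quadSimilarityGroup (F := F) ⇑(QPlus m F) →
      ¬ PreservesSingularClasses ⇑(QPlus m F)
        (g : Matrix (Fin m ⊕ Fin m) (Fin m ⊕ Fin m) F) →
      ¬ PreservesSingularClasses ⇑(QPlus m F)
        (h : Matrix (Fin m ⊕ Fin m) (Fin m ⊕ Fin m) F) →
      PreservesSingularClasses ⇑(QPlus m F)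
        ((g * h : GL (Fin m ⊕ Fin m) F) : Matrix (Fin m ⊕ Fin m) (Fin m ⊕ Fin m) F) :=
    fun g h hg hh Pg Ph =>
      Cfsg.Agent.Lib.Helper52.LPMain.pres_of_not_not hm1 (QPlus m F) hH g h hg hh Pg Ph
  have c4 : ¬ PreservesSingularClasses ⇑(QPlus m F) (reflectionMatrix ⇑(QPlus m F) u) :=
    Cfsg.Agent.Lib.Helper52.LPMain.refl_not_pres hm1 (QPlus m F) hH u hu
  have c5 : ∀ (c : F) (M : Matrix (Fin m ⊕ Fin m) (Fin m ⊕ Fin m) F), c ≠ 0 →
      (PreservesSingularClasses ⇑(QPlus m F) (c • M) ↔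
        PreservesSingularClasses ⇑(QPlus m F) M) := by
    intro c M hc
    unfold PreservesSingularClasses
    simp only [imageSubmodule_smul c hc]
  apply le_antisymm
  · unfold gInndiag autSubgroupOf
    rw [Subgroup.closure_le]
    rintro β ⟨g, hg, hP, hind⟩
    have hβ : β = simAut ⇑(QPlus m F) ⟨g, hg⟩ := (induced_iff _ ⟨g, hg⟩ β).mp hind
    rw [SetLike.mem_coe, hβ]
    exact Cfsg.Agent.Lib.Helper18.MFC2A.simAut_mem_inn (QPlus m F) h2 hQ hcard u hu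
      (PreservesSingularClasses ⇑(QPlus m F)) c1 c2 c3 c4 c5 ⟨g, hg⟩ hP
  · rw [inn_eq]
    rintro _ ⟨g, hg, rfl⟩
    obtain ⟨s, hs, hsg⟩ := Subgroup.mem_subgroupOf.mp hg
    apply Subgroup.subset_closure
    refine ⟨(g : GL (Fin m ⊕ Fin m) F), g.2, ?_, (induced_iff _ g _).mpr rfl⟩
    have h3 := Cfsg.Agent.Lib.Helper18.MFC2A.pres_of_mem_omega (QPlus m F)
      (PreservesSingularClasses ⇑(QPlus m F)) c1 c2 c3 s hs
    have hsg' : ((s : ↥(isometryGroup F ⇑(QPlus m F))) : GL (Fin m ⊕ Fin m) F) =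
        (g : GL (Fin m ⊕ Fin m) F) := hsg
    rw [hsg'] at h3
    exact h3

/-- **GF-SPLIT2**: in characteristic two `Inndiag(PΩ⁺) = Inn` -/
theorem inndiag_plus_eq_inn {F : Type u} [Field F] [Fintype F] (h2 : (2 : F) = 0) {m : ℕ}
    (hm : 5 ≤ m) :
    inndiagPOmegaPlus m F = Inn (POmega F (quadFormPlus m F)) :=
  inndiag_plus_eq_inn_aux h2 hm _ (coe_QPlus m F)

end Cfsg.Agent.Lib.Helper52.GFSPLIT2
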