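import Mathlib
import Cfsg.Agent.Lib.Helper44.ESDefs

/-!
# S5877, piece ES-K4 (project of helper44; proof by helper52)
-/

set_option autoImplicit false

namespace Cfsg.Agent.Lib.Helper44.ES

open Module Module.End

/-- `y` maps the `ζ^(i+k)`-eigenspace of `a` injectively into the `ζ^i`-eigenspace -/
theorem esk4_step {n : ℕ} {F : Type*} [Field F] (a y : Matrix (Fin n) (Fin n) F) (hy : IsUnit y)
    (ζ : F) (k : ℕ) (hζ0 : ζ ≠ 0) (hya : y * a = ζ ^ k • (a * y)) (i : ℕ) :
    Module.finrank F (Module.End.eigenspace (Matrix.toLin' a) (ζ ^ (i + k))) ≤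
      Module.finrank F (Module.End.eigenspace (Matrix.toLin' a) (ζ ^ i)) := by
  obtain ⟨y', hy'⟩ := hy.exists_left_inv
  have hinj : Function.Injective (Matrix.toLin' y) := by
    apply Function.LeftInverse.injective (g := Matrix.toLin' y')
    intro v
    rw [← LinearMap.comp_apply, ← Matrix.toLin'_mul, hy', Matrix.toLin'_one]
    rfl
  have hle : (Module.End.eigenspace (Matrix.toLin' a) (ζ ^ (i + k))).map (Matrix.toLin' y) ≤
      Module.End.eigenspace (Matrix.toLin' a) (ζ ^ i) := by
    rintro _ ⟨v, hv, rfl⟩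
    rw [SetLike.mem_coe, Module.End.mem_eigenspace_iff] at hv
    rw [Module.End.mem_eigenspace_iff]
    have h1 : Matrix.toLin' (y * a) v = Matrix.toLin' (ζ ^ k • (a * y)) v := by rw [hya]
    rw [Matrix.toLin'_mul, LinearMap.comp_apply, hv, map_smul, map_smul, LinearMap.smul_apply,
      Matrix.toLin'_mul, LinearMap.comp_apply, pow_add, mul_comm, mul_smul] at h1
    exact (smul_right_injective _ (pow_ne_zero k hζ0) h1).symm
  calc Module.finrank F (Module.End.eigenspace (Matrix.toLin' a) (ζ ^ (i + k)))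
      = Module.finrank F
          ((Module.End.eigenspace (Matrix.toLin' a) (ζ ^ (i + k))).map (Matrix.toLin' y)) :=
        (LinearEquiv.finrank_eq (Submodule.equivMapOfInjective _ hinj _))
    _ ≤ _ := Submodule.finrank_mono hle

theorem es_k4 {n : ℕ} {F : Type*} [Field F] (a y : Matrix (Fin n) (Fin n) F) (hy : IsUnit y) (ζ : F)
    (r k : ℕ) (hr : r.Prime) (hζ : ζ ^ r = 1) (hζ1 : ζ ≠ 1) (hk : ¬ r ∣ k)
    (hya : y * a = ζ ^ k • (a * y))
    (hdec : n = ∑ i ∈ Finset.range r, Module.finrank F (Module.End.eigenspace (Matrix.toLin' a) (ζ ^ i))) :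
    r ∣ n := by
  have hζ0 : ζ ≠ 0 := by
    rintro rfl
    rw [zero_pow hr.ne_zero] at hζ
    exact zero_ne_one hζ
  have hstep : ∀ i, Module.finrank F (Module.End.eigenspace (Matrix.toLin' a) (ζ ^ (i + k))) ≤
      Module.finrank F (Module.End.eigenspace (Matrix.toLin' a) (ζ ^ i)) :=
    fun i => esk4_step a y hy ζ k hζ0 hya i
  generalize hd : (fun i : ℕ => Module.finrank F (Module.End.eigenspace (Matrix.toLin' a) (ζ ^ i)))
    = d at *
  have hdi : ∀ i, Module.finrank F (Module.End.eigenspace (Matrix.toLin' a) (ζ ^ i)) = d i :=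
    fun i => by rw [← hd]
  have hstep' : ∀ i, d (i + k) ≤ d i := by
    intro i
    rw [← hdi, ← hdi]
    exact hstep i
  have hiter : ∀ j i, d (i + j * k) ≤ d i := by
    intro j
    induction j with
    | zero => intro i; simp
    | succ j ih =>
      intro i
      have : i + (j + 1) * k = (i + j * k) + k := by ring
      rw [this]
      exact (hstep' _).trans (ih i)
  have hmod : ∀ i, d i = d (i % r) := by
    intro i
    rw [← hdi, ← hdi, pow_eq_pow_mod i hζ]
  have hcop : Nat.Coprime k r := Nat.Coprime.symm ((Nat.Prime.coprime_iff_not_dvd hr).2 hk)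
  obtain ⟨m, -, hm⟩ := Nat.exists_mul_mod_eq_one_of_coprime hcop hr.one_lt
  have hcm : ∀ c, (c * m * k) % r = c % r := by
    intro c
    rw [mul_assoc, mul_comm m k, Nat.mul_mod, hm, mul_one, Nat.mod_mod]
  have h1 : ∀ i, d i ≤ d 0 := by
    intro i
    have h := hiter (i * m) 0
    rw [zero_add, hmod, hcm, ← hmod] at h
    exact h
  have h2 : ∀ i, d 0 ≤ d i := by
    intro i
    have h := hiter ((r * (i + 1) - i) * m) i
    rw [hmod] at h
    have e : (i + (r * (i + 1) - i) * m * k) % r = 0 := by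
      rw [Nat.add_mod, hcm, ← Nat.add_mod]
      have h3 : i + (r * (i + 1) - i) = r * (i + 1) := by
        have h4 : i ≤ r * (i + 1) := by nlinarith [hr.two_le]
        omega
      rw [h3, Nat.mul_mod_right]
    rw [e] at h
    exact h
  have h3 : ∀ i, d i = d 0 := fun i => le_antisymm (h1 i) (h2 i)
  have hsum : ∑ i ∈ Finset.range r, d i = r * d 0 := by
    rw [Finset.sum_congr rfl (fun i _ => h3 i), Finset.sum_const, Finset.card_range, smul_eq_mul]
  have hdec' : n = ∑ i ∈ Finset.range r, d i := by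
    first
      | exact hdec
      | exact hdec.trans (Finset.sum_congr rfl (fun i _ => hdi i))
  exact ⟨d 0, hdec'.trans hsum⟩

end Cfsg.Agent.Lib.Helper44.ES
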