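import Mathlib
import Cfsg.Agent.Lib.Helper51.GFDefs2
import Cfsg.Agent.Lib.Helper52.LangPlus
import Cfsg.Agent.Lib.Helper53.MFCENTO
import Cfsg.Agent.Lib.Helper53.OddFE
import Cfsg.Agent.Lib.Helper53.SplitAbs
import Cfsg.Agent.Lib.Helper54.OrthInnPlus
import Cfsg.Agent.Lib.Helper21.GFSGN
import Cfsg.Agent.Lib.Helper54.GFH1
import Cfsg.Agent.Lib.Helper1.GFG1

/-!
# S2717, sub-project GF-SPLITODD (helper52), part A: generic lemmas

* `cnt`: the abstract count: `D / N` of order four, the `D`-class of `x` splits into four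
  `N`-classes if `C_D(x) ≤ N`, and into two if `C_D(x) ≰ N` and `C_D(x) N ≠ D`;
* `congr_inn`: `MulAut.congr ψ` carries inner automorphisms to inner automorphisms;
* `isSquare_units_div`: the quotient of two non-squares of a finite field of odd characteristic
  is a square.
-/

set_option autoImplicit false
set_option linter.unusedSectionVars false
set_option linter.unusedVariables false

namespace Cfsg.Agent.Lib.Helper52.GFSplit

open Cfsg

/-- the abstract count -/
theorem cnt {X : Type*} [Group X] {A : Type*} [CommGroup A] (hA : Nat.card A = 4)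
    (D N : Subgroup X) (hND : N ≤ D) (φ : ↥D →* A) (hφ : Function.Surjective φ)
    (hker : φ.ker = N.subgroupOf D) (x : X)
    (hi : ∃ β ∈ D, ∀ γ ∈ D, γ ∈ Subgroup.centralizer {x} → β * γ⁻¹ ∉ N) :
    ((∀ γ ∈ D, γ ∈ Subgroup.centralizer {x} → γ ∈ N) → Cfsg.splitClassCount D N x = 4) ∧
    ((∃ γ ∈ D, γ ∈ Subgroup.centralizer {x} ∧ γ ∉ N) → Cfsg.splitClassCount D N x = 2) := by
  have hfin : Finite A := Nat.finite_of_card_ne_zero (by rw [hA]; norm_num)
  have key := Cfsg.Agent.Lib.Helper53.SplitAbs.split_abstract D.subtype φ hφ x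
  rw [Subgroup.range_subtype, hker, Subgroup.map_subgroupOf_eq_of_le hND] at key
  rw [key]
  obtain ⟨B, hB⟩ : ∃ B : Subgroup A,
      B = ((Subgroup.centralizer {x}).comap D.subtype).map φ := ⟨_, rfl⟩
  rw [← hB]
  have hmemB : ∀ b : A, b ∈ B ↔ ∃ γ : ↥D, (γ : X) ∈ Subgroup.centralizer {x} ∧ φ γ = b := by
    intro b
    rw [hB]
    constructor
    · rintro ⟨γ, hγ, rfl⟩
      exact ⟨γ, hγ, rfl⟩
    · rintro ⟨γ, hγ, rfl⟩
      exact ⟨γ, hγ, rfl⟩
  have hkerN : ∀ γ : ↥D, φ γ = 1 ↔ (γ : X) ∈ N := by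
    intro γ
    rw [← MonoidHom.mem_ker, hker, Subgroup.mem_subgroupOf]
  constructor
  · intro h
    have hbot : B = ⊥ := by
      rw [eq_bot_iff]
      intro b hb
      obtain ⟨γ, hγ, rfl⟩ := (hmemB b).mp hb
      rw [Subgroup.mem_bot, hkerN]
      exact h γ γ.2 hγ
    rw [hbot, Subgroup.index_bot, hA]
  · rintro ⟨γ, hγD, hγC, hγN⟩
    have hne_bot : B ≠ ⊥ := by
      intro hbot
      have h1 : φ ⟨γ, hγD⟩ ∈ B := (hmemB _).mpr ⟨⟨γ, hγD⟩, hγC, rfl⟩
      rw [hbot, Subgroup.mem_bot, hkerN] at h1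
      exact hγN h1
    have hne_top : B ≠ ⊤ := by
      intro htop
      obtain ⟨β, hβD, hβ⟩ := hi
      have h1 : φ ⟨β, hβD⟩ ∈ B := htop ▸ Subgroup.mem_top _
      obtain ⟨γ', hγ'C, hγ'⟩ := (hmemB _).mp h1
      apply hβ γ' γ'.2 hγ'C
      have h2 : φ (⟨β, hβD⟩ * γ'⁻¹) = 1 := by
        rw [map_mul, map_inv, hγ', mul_inv_cancel]
      exact (hkerN _).mp h2
    have hcard := B.card_mul_index
    rw [hA] at hcard
    have h1 : Nat.card B ≠ 1 := fun h => hne_bot (Subgroup.eq_bot_of_card_eq B h)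
    have h4 : Nat.card B ≠ 4 :=
      fun h => hne_top (Subgroup.eq_top_of_card_eq B (by rw [h, hA]))
    have hpos : 0 < Nat.card B := Nat.card_pos
    have hle : Nat.card B ≤ 4 := Nat.le_of_dvd (by norm_num) ⟨_, hcard.symm⟩
    generalize Nat.card B = c at *
    generalize B.index = i at *
    interval_cases c <;> omega

/-- `MulAut.congr ψ` carries inner automorphisms to inner automorphisms -/
theorem congr_inn {G H : Type*} [Group G] [Group H] (ψ : G ≃* H) (γ : MulAut G) :
    MulAut.congr ψ γ ∈ Inn H ↔ γ ∈ Inn G := by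
  constructor
  · rintro ⟨t, ht⟩
    refine ⟨ψ.symm t, ?_⟩
    ext y
    have h1 := congrArg (fun β : MulAut H => β (ψ y)) ht
    simp only [MulAut.conj_apply, MulAut.congr_apply, MulEquiv.trans_apply,
      MulEquiv.symm_apply_apply] at h1
    rw [MulAut.conj_apply]
    apply ψ.injective
    rw [← h1]
    simp
  · rintro ⟨t, rfl⟩
    refine ⟨ψ t, ?_⟩
    ext y
    simp [MulAut.congr_apply]

/-- the quotient of two non-squares is a square -/
theorem isSquare_units_div {K : Type*} [Field K] [Fintype K] (hK : ringChar K ≠ 2)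
    (a b : Kˣ) (ha : ¬ IsSquare a) (hb : ¬ IsSquare b) : IsSquare (a * b⁻¹) := by
  have hu : ∀ c : Kˣ, IsSquare (c : K) → IsSquare c := by
    rintro c ⟨r, hr⟩
    have hr0 : r ≠ 0 := by
      rintro rfl
      rw [mul_zero] at hr
      exact c.ne_zero hr
    exact ⟨Units.mk0 r hr0, Units.ext (by rw [hr]; rfl)⟩
  have ha' : ¬ IsSquare (a : K) := fun h => ha (hu a h)
  have hb' : ¬ IsSquare (b : K) := fun h => hb (hu b h)
  rw [FiniteField.isSquare_iff hK a.ne_zero] at ha'
  rw [FiniteField.isSquare_iff hK b.ne_zero] at hb'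
  have ha2 := (FiniteField.pow_dichotomy hK a.ne_zero).resolve_left ha'
  have hb2 := (FiniteField.pow_dichotomy hK b.ne_zero).resolve_left hb'
  apply hu
  rw [FiniteField.isSquare_iff hK (Units.ne_zero _), Units.val_mul, mul_pow, ha2,
    Units.val_inv_eq_inv_val, inv_pow, hb2]
  norm_num

end Cfsg.Agent.Lib.Helper52.GFSplit
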