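import Mathlib
import Cfsg.Agent.Lib.Helper52.GFSplitA

/-!
# S2717, sub-project GF-SPLITODD (helper52), part B: the split counts in odd characteristic
for the standard model, modulo the pieces GF-ARITH and GF-RAT (taken as hypotheses).
-/

set_option autoImplicit false
set_option linter.unusedSectionVars false
set_option linter.unusedVariables false

namespace Cfsg.Agent.Lib.Helper52.GFSplit

open Module QuadraticMap Matrix
open Cfsg Cfsg.Agent.Lib.Helper51 Cfsg.Agent.Lib.Helper51.GammaO Cfsg.Agent.Lib.Helper52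
  Cfsg.Agent.Lib.Helper52.OU Cfsg.Agent.Lib.Helper53.OddF
  Cfsg.Agent.Lib.Helper53.MinusF Cfsg.Agent.Lib.Helper54 Cfsg.Agent.Lib.Helper51.GF
  Cfsg.Agent.Lib.Helper53.MFCENTO

universe u v

section

variable {F : Type u} [Field F] [Fintype F]

theorem ind_simAut {ι : Type} [Fintype ι] [DecidableEq ι] (Q : (ι → F) → F)
    (g : ↥(Geo.quadSimilarityGroup (F := F) Q)) :
    Ind Q (simAut Q g) (g : GL ι F) (RingEquiv.refl F) := by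
  refine ⟨?_, (Cfsg.Agent.Lib.Helper54.induced_iff Q g _).mpr rfl⟩
  obtain ⟨c, hc⟩ := g.2
  exact ⟨c, fun v => hc v⟩

/-- pushing a similarity of the plus form to the minus form along the transport -/
theorem push_sim (k : ℕ) (a b : F)
    (T : Matrix ((Fin k ⊕ Fin k) ⊕ Fin 2) (Fin (k + 1) ⊕ Fin (k + 1)) F)
    (ψ : POmega F ⇑(QPlus (k + 1) F) ≃* POmega F ⇑(QMinus k F a b))
    (hψ1 : ∀ (g : GL (Fin (k + 1) ⊕ Fin (k + 1)) F) (g' : GL ((Fin k ⊕ Fin k) ⊕ Fin 2) F)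
        (τ : F ≃+* F) (β : MulAut (POmega F ⇑(QPlus (k + 1) F))),
        (g' : Matrix _ _ F) * T.map τ = T * (g : Matrix _ _ F) →
        Ind ⇑(QPlus (k + 1) F) β g τ → Ind ⇑(QMinus k F a b) (MulAut.congr ψ β) g' τ)
    (g : ↥(Geo.quadSimilarityGroup (F := F) ⇑(QPlus (k + 1) F)))
    (g' : ↥(Geo.quadSimilarityGroup (F := F) ⇑(QMinus k F a b)))
    (hrel : ((g' : GL ((Fin k ⊕ Fin k) ⊕ Fin 2) F) :
        Matrix ((Fin k ⊕ Fin k) ⊕ Fin 2) ((Fin k ⊕ Fin k) ⊕ Fin 2) F) * T =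
      T * ((g : GL (Fin (k + 1) ⊕ Fin (k + 1)) F) :
        Matrix (Fin (k + 1) ⊕ Fin (k + 1)) (Fin (k + 1) ⊕ Fin (k + 1)) F)) :
    MulAut.congr ψ (simAut ⇑(QPlus (k + 1) F) g) = simAut ⇑(QMinus k F a b) g' := by
  have hTid : T.map (RingEquiv.refl F) = T := Matrix.ext fun i j => rfl
  have h1 := hψ1 (g : GL (Fin (k + 1) ⊕ Fin (k + 1)) F) (g' : GL ((Fin k ⊕ Fin k) ⊕ Fin 2) F)
    (RingEquiv.refl F) _ (by rw [hTid]; exact hrel) (ind_simAut _ g)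
  exact (Cfsg.Agent.Lib.Helper54.induced_iff ⇑(QMinus k F a b) g' _).mp h1.2

/-- pulling a similarity of the minus form back to the plus form along the transport -/
theorem pull_sim (k : ℕ) (a b : F)
    (T : Matrix ((Fin k ⊕ Fin k) ⊕ Fin 2) (Fin (k + 1) ⊕ Fin (k + 1)) F)
    (T' : Matrix (Fin (k + 1) ⊕ Fin (k + 1)) ((Fin k ⊕ Fin k) ⊕ Fin 2) F)
    (hTT' : T * T' = 1) (hT'T : T' * T = 1)
    (hT : ∀ v, QMinus k F a b (T *ᵥ v) = QPlus (k + 1) F v)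
    (ψ : POmega F ⇑(QPlus (k + 1) F) ≃* POmega F ⇑(QMinus k F a b))
    (hψ2 : ∀ (g : GL (Fin (k + 1) ⊕ Fin (k + 1)) F) (g' : GL ((Fin k ⊕ Fin k) ⊕ Fin 2) F)
        (τ : F ≃+* F) (β' : MulAut (POmega F ⇑(QMinus k F a b))),
        (g' : Matrix _ _ F) * T.map τ = T * (g : Matrix _ _ F) →
        Ind ⇑(QMinus k F a b) β' g' τ → Ind ⇑(QPlus (k + 1) F) ((MulAut.congr ψ).symm β') g τ)
    (g' : ↥(Geo.quadSimilarityGroup (F := F) ⇑(QMinus k F a b))) :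
    ∃ g : ↥(Geo.quadSimilarityGroup (F := F) ⇑(QPlus (k + 1) F)),
      (MulAut.congr ψ).symm (simAut ⇑(QMinus k F a b) g') = simAut ⇑(QPlus (k + 1) F) g ∧
      simMul (QPlus (k + 1) F) (hv_plus (Nat.succ_le_succ (Nat.zero_le k))) g =
        simMul (QMinus k F a b) (hv_minus a b) g' := by
  have hTid : T.map (RingEquiv.refl F) = T := Matrix.ext fun i j => rfl
  have hT' : ∀ w, QPlus (k + 1) F (T' *ᵥ w) = QMinus k F a b w := by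
    intro w
    rw [← hT, Matrix.mulVec_mulVec, hTT', Matrix.one_mulVec]
  have hsim : ∀ v, QPlus (k + 1) F
      ((T' * ((g' : GL ((Fin k ⊕ Fin k) ⊕ Fin 2) F) :
        Matrix ((Fin k ⊕ Fin k) ⊕ Fin 2) ((Fin k ⊕ Fin k) ⊕ Fin 2) F) * T) *ᵥ v) =
      (simMul (QMinus k F a b) (hv_minus a b) g' : F) * QPlus (k + 1) F v := by
    intro v
    rw [← Matrix.mulVec_mulVec, ← Matrix.mulVec_mulVec, hT',
      simMul_spec (QMinus k F a b) (hv_minus a b) g', hT]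
  obtain ⟨g, hgmat⟩ : ∃ g : ↥(Geo.quadSimilarityGroup (F := F) ⇑(QPlus (k + 1) F)),
      ((g : GL (Fin (k + 1) ⊕ Fin (k + 1)) F) :
        Matrix (Fin (k + 1) ⊕ Fin (k + 1)) (Fin (k + 1) ⊕ Fin (k + 1)) F) =
        T' * ((g' : GL ((Fin k ⊕ Fin k) ⊕ Fin 2) F) :
          Matrix ((Fin k ⊕ Fin k) ⊕ Fin 2) ((Fin k ⊕ Fin k) ⊕ Fin 2) F) * T :=
    ⟨simOfMatrix (QPlus (k + 1) F) polarSep_plus _ _ (Units.ne_zero _) hsim, rfl⟩
  refine ⟨g, ?_, ?_⟩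
  · have hrel : ((g' : GL ((Fin k ⊕ Fin k) ⊕ Fin 2) F) :
          Matrix ((Fin k ⊕ Fin k) ⊕ Fin 2) ((Fin k ⊕ Fin k) ⊕ Fin 2) F) *
        T.map (RingEquiv.refl F) =
        T * ((g : GL (Fin (k + 1) ⊕ Fin (k + 1)) F) :
          Matrix (Fin (k + 1) ⊕ Fin (k + 1)) (Fin (k + 1) ⊕ Fin (k + 1)) F) := by
      rw [hTid, hgmat, ← Matrix.mul_assoc, ← Matrix.mul_assoc, hTT', Matrix.one_mul]
    have h1 := hψ2 (g : GL (Fin (k + 1) ⊕ Fin (k + 1)) F)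
      (g' : GL ((Fin k ⊕ Fin k) ⊕ Fin 2) F) (RingEquiv.refl F) _ hrel (ind_simAut _ g')
    exact (Cfsg.Agent.Lib.Helper54.induced_iff ⇑(QPlus (k + 1) F) g _).mp h1.2
  · apply Units.ext
    apply simMul_eq
    intro v
    rw [hgmat]
    exact hsim v

end

section

variable {F₀ : Type v} [Field F₀] [Fintype F₀] {F : Type u} [Field F] [Fintype F]

set_option maxHeartbeats 1600000 in
/-- the split counts, modulo GF-ARITH and GF-RAT -/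
theorem split_odd_core
    (h2 : (2 : F) ≠ 0) {k : ℕ} (hk : 4 ≤ k) (e : F₀ →+* F) (σ : F ≃+* F)
    (hσ2 : orderOf (σ : RingAut F) = 2) (he : ∀ x : F, σ x = x ↔ x ∈ Set.range e)
    (hcard : Fintype.card F = Fintype.card F₀ ^ 2)
    (lam : F) (hne : σ lam ≠ lam) (a₀ b₀ : F₀) (ha : e a₀ = gA σ lam) (hb : e b₀ = gB σ lam)
    (T' : Matrix (Fin (k + 1) ⊕ Fin (k + 1)) ((Fin k ⊕ Fin k) ⊕ Fin 2) F)
    (hTT' : gT k σ lam * T' = 1) (hT'T : T' * gT k σ lam = 1)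
    (ψ : POmega F ⇑(QPlus (k + 1) F) ≃* POmega F ⇑(QMinus k F (e a₀) (e b₀)))
    (hψ1 : ∀ (g : GL (Fin (k + 1) ⊕ Fin (k + 1)) F) (g' : GL ((Fin k ⊕ Fin k) ⊕ Fin 2) F)
        (τ : F ≃+* F) (β : MulAut (POmega F ⇑(QPlus (k + 1) F))),
        (g' : Matrix _ _ F) * (gT k σ lam).map τ = gT k σ lam * (g : Matrix _ _ F) →
        Ind ⇑(QPlus (k + 1) F) β g τ →
        Ind ⇑(QMinus k F (e a₀) (e b₀)) (MulAut.congr ψ β) g' τ)
    (hψ2 : ∀ (g : GL (Fin (k + 1) ⊕ Fin (k + 1)) F) (g' : GL ((Fin k ⊕ Fin k) ⊕ Fin 2) F)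
        (τ : F ≃+* F) (β' : MulAut (POmega F ⇑(QMinus k F (e a₀) (e b₀)))),
        (g' : Matrix _ _ F) * (gT k σ lam).map τ = gT k σ lam * (g : Matrix _ _ F) →
        Ind ⇑(QMinus k F (e a₀) (e b₀)) β' g' τ →
        Ind ⇑(QPlus (k + 1) F) ((MulAut.congr ψ).symm β') g τ)
    (hσM : (SemidirectProduct.inr (σ : RingAut F) : SGL ((Fin k ⊕ Fin k) ⊕ Fin 2) F) ∈
      GO ⇑(QMinus k F (e a₀) (e b₀)))
    (x₀ : MulAut (POmega F ⇑(QPlus (k + 1) F)))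
    (hx₀ : MulAut.congr ψ x₀ =
      Theta ⇑(QMinus k F (e a₀) (e b₀)) (inrS (QMinus k F (e a₀) (e b₀)) σ hσM))
    (hARITH : (∀ x, σ (σ x) = x) → ∃ (μ₁ u₁ u₂ : F₀) (nu : F), ¬ IsSquare μ₁ ∧
      u₁ ^ 2 + a₀ * u₁ * u₂ + b₀ * u₂ ^ 2 = μ₁ ∧ nu ^ 2 = e μ₁ ∧
      ∀ n : ℕ, IsSquare (nu ^ n * (e u₁ - e u₂ * σ lam)) ↔
        (Odd n ∧ Fintype.card F₀ % 4 = 1))
    (hRAT : (∀ z₁ z₂ : F₀, z₁ ^ 2 + a₀ * z₁ * z₂ + b₀ * z₂ ^ 2 = 0 → z₁ = 0 ∧ z₂ = 0) →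
      e a₀ ^ 2 - 4 * e b₀ ≠ 0 → (∀ c : F₀, IsSquare (e c)) →
      ∀ g₀ : ↥(Geo.quadSimilarityGroup (F := F₀) ⇑(QMinus k F₀ a₀ b₀)),
      simSgn (QMinus k F₀ a₀ b₀) (hv_minus a₀ b₀) (k + 1) g₀ = 1 →
      IsSquare (simMul (QMinus k F₀ a₀ b₀) (hv_minus a₀ b₀) g₀) →
      iotaO (QMinus k F (e a₀) (e b₀)) (sm e k a₀ b₀ g₀) ∈
        Inn (POmega F ⇑(QMinus k F (e a₀) (e b₀)))) :
    ((Odd (k + 1) ∧ Fintype.card F₀ % 4 = 1) →
      splitClassCount (gInndiag ⇑(QPlus (k + 1) F)) (Inn (POmega F ⇑(QPlus (k + 1) F))) x₀ = 4) ∧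
    (¬ (Odd (k + 1) ∧ Fintype.card F₀ % 4 = 1) →
      splitClassCount (gInndiag ⇑(QPlus (k + 1) F)) (Inn (POmega F ⇑(QPlus (k + 1) F))) x₀ = 2) := by
  classical
  have hσσ : ∀ x, σ (σ x) = x := by
    intro x
    have h1 : (σ : RingAut F) ^ 2 = 1 := by
      rw [← hσ2]
      exact pow_orderOf_eq_one _
    have h3 := congrArg (fun τ : RingAut F => τ x) h1
    simpa [pow_two] using h3
  have h2₀ : (2 : F₀) ≠ 0 := by
    intro h0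
    apply h2
    have h3 : e (2 : F₀) = 0 := by rw [h0, map_zero]
    rw [map_ofNat] at h3
    exact h3
  have hab₀ : ∀ z₁ z₂ : F₀, z₁ ^ 2 + a₀ * z₁ * z₂ + b₀ * z₂ ^ 2 = 0 → z₁ = 0 ∧ z₂ = 0 :=
    fun z₁ z₂ => aniso_fixed e σ lam (hσσ lam) hne he a₀ b₀ ha hb z₁ z₂
  have hD : e a₀ ^ 2 - 4 * e b₀ ≠ 0 := by
    rw [ha, hb]
    exact gA_disc σ lam hne
  have hK₀ : ringChar F₀ ≠ 2 := ringChar_ne_two h2₀
  have hKF : ringChar F ≠ 2 := ringChar_ne_two h2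
  have hodd₀ : Odd (Fintype.card F₀) := by
    rw [Nat.odd_iff]
    exact FiniteField.odd_card_of_char_ne_two hK₀
  have hoddF : Odd (Fintype.card F) := by
    rw [hcard]
    exact hodd₀.pow
  have hF4 : Fintype.card F % 4 = 1 := by
    rw [hcard]
    obtain ⟨j, hj⟩ := hodd₀
    rw [hj]
    have h3 : (2 * j + 1) ^ 2 = 4 * (j * j + j) + 1 := by ring
    omega
  have hsq : ∀ c : F₀, IsSquare (e c) := fun c => isSquare_up e h2 hodd₀ hcard c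
  have hT : ∀ v, QMinus k F (e a₀) (e b₀) (gT k σ lam *ᵥ v) = QPlus (k + 1) F v := by
    intro v
    rw [ha, hb]
    exact gT_isometry k σ lam hne v
  have hm1 : 1 ≤ k + 1 := Nat.succ_le_succ (Nat.zero_le k)
  have hm3 : 3 ≤ k + 1 := by omega
  -- the groups on the plus side
  have hDeq : gInndiag ⇑(QPlus (k + 1) F) =
      ((simSgn (QPlus (k + 1) F) (hv_plus hm1) (k + 1)).ker).map
        (simAut ⇑(QPlus (k + 1) F)) := by
    unfold gInndiag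
    exact inndiagPlus_eq hKF hm1
  have hInnP : Inn (POmega F ⇑(QPlus (k + 1) F)) =
      ((omegaGL ⇑(QPlus (k + 1) F)).subgroupOf
        (Geo.quadSimilarityGroup (F := F) ⇑(QPlus (k + 1) F))).map
        (simAut ⇑(QPlus (k + 1) F)) := inn_eq _
  have hND : Inn (POmega F ⇑(QPlus (k + 1) F)) ≤ gInndiag ⇑(QPlus (k + 1) F) := by
    rw [hDeq, hInnP]
    exact Subgroup.map_mono (omega_le_sgnKer (QPlus (k + 1) F) (hv_plus hm1) (k + 1))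
  have hSGN := Cfsg.Agent.Lib.Helper21.GFSGN.sgnKer_map_eq k (e a₀) (e b₀) (gT k σ lam) T'
    hTT' hT'T hT hD ψ hψ1 hψ2
  have hrange := psi0_range e k a₀ b₀ h2₀ hab₀
    (nondeg_of_polarSep _ (polarSep_minus' (e a₀) (e b₀) hD))
    (by simp only [Fintype.card_sum, Fintype.card_fin]; omega) (σ : RingAut F) hσM 2
    (by norm_num) hσ2 he
  -- (F-C)
  have hFC : ∀ γ ∈ gInndiag ⇑(QPlus (k + 1) F), γ ∈ Subgroup.centralizer {x₀} →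
      ∃ g₀ : ↥((simSgn (QMinus k F₀ a₀ b₀) (hv_minus a₀ b₀) (k + 1)).ker),
        psi0 e k a₀ b₀ g₀ = MulAut.congr ψ γ := by
    intro γ hγD hγC
    have h1 : MulAut.congr ψ γ ∈ (psi0 e k a₀ b₀).range := by
      rw [hrange]
      refine Subgroup.mem_inf.mpr ⟨?_, ?_⟩
      · rw [← hSGN, ← hDeq]
        exact ⟨γ, hγD, rfl⟩
      · rw [Subgroup.mem_centralizer_iff]
        intro y hy
        rw [Set.mem_singleton_iff.1 hy, ← hx₀, ← map_mul, ← map_mul]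
        congr 1
        exact (Subgroup.mem_centralizer_iff.mp hγC) x₀ rfl
    exact MonoidHom.mem_range.mp h1
  -- (F-1)
  have hRAT' : ∀ g₀ : ↥((simSgn (QMinus k F₀ a₀ b₀) (hv_minus a₀ b₀) (k + 1)).ker),
      IsSquare (simMul (QMinus k F₀ a₀ b₀) (hv_minus a₀ b₀) g₀.1) →
      psi0 e k a₀ b₀ g₀ ∈ Inn (POmega F ⇑(QMinus k F (e a₀) (e b₀))) :=
    fun g₀ hs => hRAT hab₀ hD hsq g₀.1 (MonoidHom.mem_ker.mp g₀.2) hs
  -- (F-2)
  obtain ⟨μ₁, u₁, u₂, nu, hμ₁, hN, hnu, hsqiff⟩ := hARITH hσσ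
  have hμ₁0 : μ₁ ≠ 0 := by
    rintro rfl
    exact hμ₁ ⟨0, by simp⟩
  obtain ⟨g₁, hg₁mat, hg₁mul⟩ :
      ∃ g₁ : ↥(Geo.quadSimilarityGroup (F := F₀) ⇑(QMinus k F₀ a₀ b₀)),
        ((g₁ : GL ((Fin k ⊕ Fin k) ⊕ Fin 2) F₀) :
          Matrix ((Fin k ⊕ Fin k) ⊕ Fin 2) ((Fin k ⊕ Fin k) ⊕ Fin 2) F₀) =
          minusSimMat (m := k) a₀ b₀ μ₁ u₁ u₂ ∧
        (simMul (QMinus k F₀ a₀ b₀) (hv_minus a₀ b₀) g₁ : F₀) = μ₁ :=
    ⟨simOfMatrix (QMinus k F₀ a₀ b₀) (polarSep_minus h2₀ a₀ b₀ hab₀) _ μ₁ hμ₁0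
      (minus_scale_sim a₀ b₀ μ₁ u₁ u₂ hN), rfl, simMul_simOfMatrix _ _ _ _ _ _ _⟩
  have hg₁sgn : simSgn (QMinus k F₀ a₀ b₀) (hv_minus a₀ b₀) (k + 1) g₁ = 1 := by
    rw [simSgn_apply, mul_inv_eq_one]
    apply Units.ext
    rw [Matrix.GeneralLinearGroup.val_det_apply, hg₁mat, Units.val_pow_eq_pow_val, hg₁mul,
      Cfsg.Agent.Lib.Helper1.GFG1.det_minusSimMat, hN]
    ring
  have hg₁ns : ¬ IsSquare (simMul (QMinus k F₀ a₀ b₀) (hv_minus a₀ b₀) g₁) := by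
    rintro ⟨r, hr⟩
    apply hμ₁
    refine ⟨(r : F₀), ?_⟩
    rw [← hg₁mul, hr, Units.val_mul]
  obtain ⟨g₁', hg₁'⟩ : ∃ g₁' : ↥((simSgn (QMinus k F₀ a₀ b₀) (hv_minus a₀ b₀) (k + 1)).ker),
      g₁'.1 = g₁ := ⟨⟨g₁, MonoidHom.mem_ker.mpr hg₁sgn⟩, rfl⟩
  obtain ⟨ν₁, hν₁⟩ : ∃ ν₁ : F, ν₁ = e u₁ - e u₂ * σ lam := ⟨_, rfl⟩
  obtain ⟨ν₂, hν₂⟩ : ∃ ν₂ : F, ν₂ = e u₁ - e u₂ * lam := ⟨_, rfl⟩
  have h12 : ν₁ * ν₂ = e μ₁ := by
    rw [hν₁, hν₂, ← hN]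
    simp only [map_add, map_mul, map_pow, ha, hb]
    unfold gA gB
    ring
  have hc0 : e μ₁ ≠ 0 := fun h0 => hμ₁0 (e.injective (by rw [h0, map_zero]))
  obtain ⟨h, hhmat⟩ : ∃ h : ↥(Geo.quadSimilarityGroup (F := F) ⇑(QPlus (k + 1) F)),
      ((h : GL (Fin (k + 1) ⊕ Fin (k + 1)) F) :
        Matrix (Fin (k + 1) ⊕ Fin (k + 1)) (Fin (k + 1) ⊕ Fin (k + 1)) F) =
        gH k (e μ₁) ν₁ ν₂ :=
    ⟨simOfMatrix (QPlus (k + 1) F) polarSep_plus _ (e μ₁) hc0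
      (Cfsg.Agent.Lib.Helper1.GFG1.gH_sim k (e μ₁) ν₁ ν₂ h12), rfl⟩
  have hH1 := Cfsg.Agent.Lib.Helper54.GFH1.gH_inner_iff h2 hF4 hk (e μ₁) nu ν₁ ν₂ hc0 hnu h12
    h hhmat
  have hpush : MulAut.congr ψ (simAut ⇑(QPlus (k + 1) F) h) = psi0 e k a₀ b₀ g₁' := by
    have h1 := push_sim k (e a₀) (e b₀) (gT k σ lam) ψ hψ1 h (sm e k a₀ b₀ g₁) (by
      rw [sm_coe, hg₁mat, Cfsg.Agent.Lib.Helper1.GFG1.minusSimMat_map, hhmat, ha, hb, hν₁, hν₂]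
      exact Cfsg.Agent.Lib.Helper1.GFG1.minusSim_gT k σ lam (e μ₁) (e u₁) (e u₂))
    rw [h1]
    show _ = iotaO (QMinus k F (e a₀) (e b₀)) (sm e k a₀ b₀ g₁'.1)
    rw [hg₁']
    exact (iotaO_eq_simAut _ _).symm
  have hcond : psi0 e k a₀ b₀ g₁' ∈ Inn (POmega F ⇑(QMinus k F (e a₀) (e b₀))) ↔
      (Odd (k + 1) ∧ Fintype.card F₀ % 4 = 1) := by
    rw [← hpush, congr_inn, hH1, hν₁]
    exact hsqiff (k + 1)
  -- (F-3)
  have hall : (Odd (k + 1) ∧ Fintype.card F₀ % 4 = 1) →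
      ∀ g₀ : ↥((simSgn (QMinus k F₀ a₀ b₀) (hv_minus a₀ b₀) (k + 1)).ker),
        psi0 e k a₀ b₀ g₀ ∈ Inn (POmega F ⇑(QMinus k F (e a₀) (e b₀))) := by
    intro hc g₀
    by_cases hs : IsSquare (simMul (QMinus k F₀ a₀ b₀) (hv_minus a₀ b₀) g₀.1)
    · exact hRAT' g₀ hs
    · have h1 : IsSquare (simMul (QMinus k F₀ a₀ b₀) (hv_minus a₀ b₀) (g₀ * g₁'⁻¹).1) := by
        show IsSquare (simMul (QMinus k F₀ a₀ b₀) (hv_minus a₀ b₀) (g₀.1 * g₁'.1⁻¹))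
        rw [map_mul, map_inv, hg₁']
        exact isSquare_units_div hK₀ _ _ hs hg₁ns
      have h3 := hRAT' (g₀ * g₁'⁻¹) h1
      have h4 := hcond.mpr hc
      have h5 : psi0 e k a₀ b₀ g₀ = psi0 e k a₀ b₀ (g₀ * g₁'⁻¹) * psi0 e k a₀ b₀ g₁' := by
        rw [← map_mul, inv_mul_cancel_right]
      rw [h5]
      exact Subgroup.mul_mem _ h3 h4
  -- (i)
  obtain ⟨c, hc⟩ := FiniteField.exists_nonsquare (F := F) hKF
  have hc0' : c ≠ 0 := by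
    rintro rfl
    exact hc ⟨0, by simp⟩
  have hu : ¬ IsSquare (Units.mk0 c hc0') := by
    rintro ⟨r, hr⟩
    apply hc
    refine ⟨(r : F), ?_⟩
    have h3 := congrArg Units.val hr
    rwa [Units.val_mk0, Units.val_mul] at h3
  have hi : ∃ β ∈ gInndiag ⇑(QPlus (k + 1) F), ∀ γ ∈ gInndiag ⇑(QPlus (k + 1) F),
      γ ∈ Subgroup.centralizer {x₀} → β * γ⁻¹ ∉ Inn (POmega F ⇑(QPlus (k + 1) F)) := by
    refine ⟨simAut ⇑(QPlus (k + 1) F) (plusScale (k + 1) (Units.mk0 c hc0')), ?_, ?_⟩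
    · rw [hDeq]
      exact ⟨_, MonoidHom.mem_ker.mpr (simSgn_plusScale hm1 _), rfl⟩
    · intro γ hγD hγC hmem
      obtain ⟨g₀, hg₀⟩ := hFC γ hγD hγC
      obtain ⟨g, hg, hgmul⟩ := pull_sim k (e a₀) (e b₀) (gT k σ lam) T' hTT' hT'T hT ψ hψ2
        (sm e k a₀ b₀ g₀.1)
      have hγ : γ = simAut ⇑(QPlus (k + 1) F) g := by
        rw [← hg, ← iotaO_eq_simAut]
        have h3 : iotaO (QMinus k F (e a₀) (e b₀)) (sm e k a₀ b₀ g₀.1) = MulAut.congr ψ γ := hg₀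
        rw [h3, MulEquiv.symm_apply_apply]
      have hgsq : IsSquare (simMul (QPlus (k + 1) F) (hv_plus hm1) g) := by
        rw [hgmul]
        obtain ⟨r, hr⟩ := hsq ((simMul (QMinus k F₀ a₀ b₀) (hv_minus a₀ b₀) g₀.1 : F₀ˣ) : F₀)
        have hr0 : r ≠ 0 := by
          rintro rfl
          rw [mul_zero] at hr
          have h3 : ((simMul (QMinus k F₀ a₀ b₀) (hv_minus a₀ b₀) g₀.1 : F₀ˣ) : F₀) = 0 :=
            e.injective (by rw [hr, map_zero])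
          exact Units.ne_zero _ h3
        refine ⟨Units.mk0 r hr0, Units.ext ?_⟩
        rw [simMul_sm, hr]
        rfl
      rw [hγ, ← map_inv, ← map_mul, hInnP] at hmem
      obtain ⟨t, ht, hte⟩ := hmem
      have hw : plusScale (k + 1) (Units.mk0 c hc0') * g⁻¹ ∈
          (omegaGL ⇑(QPlus (k + 1) F)).subgroupOf
            (Geo.quadSimilarityGroup (F := F) ⇑(QPlus (k + 1) F)) ⊔
          (simAut ⇑(QPlus (k + 1) F)).ker := by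
        have e1 : plusScale (k + 1) (Units.mk0 c hc0') * g⁻¹ =
            t * (t⁻¹ * (plusScale (k + 1) (Units.mk0 c hc0') * g⁻¹)) := by group
        rw [e1]
        refine Subgroup.mul_mem_sup ht ?_
        rw [MonoidHom.mem_ker, map_mul, map_inv, hte, inv_mul_cancel]
      have hsqw := isSquare_simMul_of_mem_join (QPlus (k + 1) F) (hv_plus hm1)
        (simAut_ker_plus hm3) _ hw
      rw [map_mul, map_inv, simMul_plusScale hm1] at hsqw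
      apply hu
      obtain ⟨r, hr⟩ := hsqw
      obtain ⟨s, hs⟩ := hgsq
      refine ⟨r * s, ?_⟩
      calc Units.mk0 c hc0' = Units.mk0 c hc0' *
            (simMul (QPlus (k + 1) F) (hv_plus hm1) g)⁻¹ *
            simMul (QPlus (k + 1) F) (hv_plus hm1) g := by group
        _ = r * r * (s * s) := by rw [hr, hs]
        _ = r * s * (r * s) := by rw [mul_mul_mul_comm]
  -- the character
  have hφ : ∃ (A : Type) (_ : CommGroup A) (φ : ↥(gInndiag ⇑(QPlus (k + 1) F)) →* A),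
      Nat.card A = 4 ∧ Function.Surjective φ ∧
      φ.ker = (Inn (POmega F ⇑(QPlus (k + 1) F))).subgroupOf (gInndiag ⇑(QPlus (k + 1) F)) := by
    obtain ⟨-, h4, hv4⟩ := plus_inndiag_gen hoddF hm3 ⇑(QPlus (k + 1) F) rfl
    rcases Nat.even_or_odd (k + 1) with hev | hod
    · obtain ⟨φ, hφ1, hφ2⟩ := hv4 hev
      exact ⟨Multiplicative (ZMod 2 × ZMod 2), inferInstance, φ,
        by simp [Nat.card_eq_fintype_card], hφ1, hφ2⟩
    · obtain ⟨φ, hφ1, hφ2⟩ := h4 ⟨hod, hF4⟩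
      exact ⟨Multiplicative (ZMod 4), inferInstance, φ,
        by simp [Nat.card_eq_fintype_card], hφ1, hφ2⟩
  obtain ⟨A, _, φ, hA, hφs, hφk⟩ := hφ
  obtain ⟨hcnt4, hcnt2⟩ := cnt hA (gInndiag ⇑(QPlus (k + 1) F))
    (Inn (POmega F ⇑(QPlus (k + 1) F))) hND φ hφs hφk x₀ hi
  constructor
  · intro hcnd
    apply hcnt4
    intro γ hγD hγC
    obtain ⟨g₀, hg₀⟩ := hFC γ hγD hγC
    rw [← congr_inn ψ, ← hg₀]
    exact hall hcnd g₀
  · intro hcnd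
    apply hcnt2
    have hmem : psi0 e k a₀ b₀ g₁' ∈ (psi0 e k a₀ b₀).range := ⟨g₁', rfl⟩
    rw [hrange] at hmem
    obtain ⟨hmA, hmB⟩ := Subgroup.mem_inf.mp hmem
    rw [← hSGN, ← hDeq] at hmA
    obtain ⟨γ, hγD, hγe⟩ := hmA
    have hγe' : MulAut.congr ψ γ = psi0 e k a₀ b₀ g₁' := hγe
    refine ⟨γ, hγD, ?_, ?_⟩
    · rw [Subgroup.mem_centralizer_iff]
      intro y hy
      rw [Set.mem_singleton_iff.1 hy]
      apply (MulAut.congr ψ).injective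
      rw [map_mul, map_mul, hx₀, hγe']
      exact (Subgroup.mem_centralizer_iff.mp hmB) _ rfl
    · intro hγN
      apply hcnd
      rw [← hcond, ← hγe', congr_inn]
      exact hγN

end

end Cfsg.Agent.Lib.Helper52.GFSplit
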