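import Mathlib
import Cfsg.Agent.Lib.Helper52.GFSplitB
import Cfsg.Agent.Lib.Helper68.GFARITH
import Cfsg.Agent.Lib.Helper74.GFRAT

/-!
# S2717, sub-project GF-SPLITODD (helper52): the split counts in odd characteristic for the
standard model of an involutory graph-field automorphism of `PΩ⁺_{2(k+1)}(F)`.

`split_odd` is exactly the statement `PSplitOdd.split_odd` of `tools/helper51/GFSkel.lean.txt`.
Pieces used: GF-SGN (helper21), GF-H1 (helper54), GF-G1 (helper1), GF-ARITH (helper68),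
GF-RAT (helper74); `Helper53.MFCENTO.psi0_range`, `Helper53.SplitAbs.split_abstract`,
`Helper54.plus_inndiag_gen`.
-/

set_option autoImplicit false
set_option linter.unusedSectionVars false
set_option linter.unusedVariables false

namespace Cfsg.Agent.Lib.Helper52.GFSplit

open Module QuadraticMap Matrix
open Cfsg Cfsg.Agent.Lib.Helper51 Cfsg.Agent.Lib.Helper51.GammaO Cfsg.Agent.Lib.Helper52
  Cfsg.Agent.Lib.Helper52.OU Cfsg.Agent.Lib.Helper53.OddF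
  Cfsg.Agent.Lib.Helper53.MinusF Cfsg.Agent.Lib.Helper54 Cfsg.Agent.Lib.Helper51.GF
  Cfsg.Agent.Lib.Helper53.MFCENTO

universe u v

theorem split_odd {F₀ : Type v} [Field F₀] [Fintype F₀] {F : Type u} [Field F] [Fintype F]
    (h2 : (2 : F) ≠ 0) {k : ℕ} (hk : 4 ≤ k) (e : F₀ →+* F) (σ : F ≃+* F)
    (hσ2 : orderOf (σ : RingAut F) = 2) (he : ∀ x : F, σ x = x ↔ x ∈ Set.range e)
    (hcard : Fintype.card F = Fintype.card F₀ ^ 2)
    (lam : F) (hne : σ lam ≠ lam) (a₀ b₀ : F₀) (ha : e a₀ = gA σ lam) (hb : e b₀ = gB σ lam)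
    (T' : Matrix (Fin (k + 1) ⊕ Fin (k + 1)) ((Fin k ⊕ Fin k) ⊕ Fin 2) F)
    (hTT' : gT k σ lam * T' = 1) (hT'T : T' * gT k σ lam = 1)
    (ψ : POmega F ⇑(QPlus (k + 1) F) ≃* POmega F ⇑(QMinus k F (e a₀) (e b₀)))
    (hψ1 : ∀ (g : GL (Fin (k + 1) ⊕ Fin (k + 1)) F) (g' : GL ((Fin k ⊕ Fin k) ⊕ Fin 2) F)
        (τ : F ≃+* F) (β : MulAut (POmega F ⇑(QPlus (k + 1) F))),
        (g' : Matrix _ _ F) * (gT k σ lam).map τ = gT k σ lam * (g : Matrix _ _ F) →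
        Ind ⇑(QPlus (k + 1) F) β g τ →
        Ind ⇑(QMinus k F (e a₀) (e b₀)) (MulAut.congr ψ β) g' τ)
    (hψ2 : ∀ (g : GL (Fin (k + 1) ⊕ Fin (k + 1)) F) (g' : GL ((Fin k ⊕ Fin k) ⊕ Fin 2) F)
        (τ : F ≃+* F) (β' : MulAut (POmega F ⇑(QMinus k F (e a₀) (e b₀)))),
        (g' : Matrix _ _ F) * (gT k σ lam).map τ = gT k σ lam * (g : Matrix _ _ F) →
        Ind ⇑(QMinus k F (e a₀) (e b₀)) β' g' τ →
        Ind ⇑(QPlus (k + 1) F) ((MulAut.congr ψ).symm β') g τ)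
    (hσM : (SemidirectProduct.inr (σ : RingAut F) : SGL ((Fin k ⊕ Fin k) ⊕ Fin 2) F) ∈
      GO ⇑(QMinus k F (e a₀) (e b₀)))
    (x₀ : MulAut (POmega F ⇑(QPlus (k + 1) F)))
    (hx₀ : MulAut.congr ψ x₀ =
      Theta ⇑(QMinus k F (e a₀) (e b₀)) (inrS (QMinus k F (e a₀) (e b₀)) σ hσM)) :
    ((Odd (k + 1) ∧ Fintype.card F₀ % 4 = 1) →
      splitClassCount (gInndiag ⇑(QPlus (k + 1) F)) (Inn (POmega F ⇑(QPlus (k + 1) F))) x₀ = 4) ∧
    (¬ (Odd (k + 1) ∧ Fintype.card F₀ % 4 = 1) →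
      splitClassCount (gInndiag ⇑(QPlus (k + 1) F)) (Inn (POmega F ⇑(QPlus (k + 1) F))) x₀ = 2) :=
  split_odd_core h2 hk e σ hσ2 he hcard lam hne a₀ b₀ ha hb T' hTT' hT'T ψ hψ1 hψ2 hσM x₀ hx₀
    (fun hσσ => Cfsg.Agent.Lib.Helper68.GFARITH.arith h2 e σ hσσ he hcard lam hne a₀ b₀ ha hb)
    (fun hab₀ hD hsq g₀ hg₀ hmul =>
      Cfsg.Agent.Lib.Helper74.GFRAT.rat_inner h2 e k (by omega) a₀ b₀ hab₀ hD hsq g₀ hg₀ hmul)

end Cfsg.Agent.Lib.Helper52.GFSplit
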