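import Mathlib
import Cfsg.Agent.Lib.Helper52.GUEmbed

/-!
Tools for embedding the unitary group `GU_m(q)` in orthogonal groups over the field with `q`
elements: the norm form `Σ N(u_i)`, hyperbolic pairs of the Hermitian form, and the norm form of
the quadratic extension as an anisotropic binary form.
-/

set_option autoImplicit false

namespace Cfsg.Agent.Lib.Helper52

open Module

section herm

variable {F K ι : Type*} [Field F] [Field K] [Algebra F K] [Fintype ι]

/-- The Hermitian form `Σ u_i σ(v_i)`. -/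
def herm (σ : K ≃ₐ[F] K) (u v : ι → K) : K := ∑ i, u i * σ (v i)

theorem herm_add_left (σ : K ≃ₐ[F] K) (u u' v : ι → K) :
    herm σ (u + u') v = herm σ u v + herm σ u' v := by
  simp only [herm, Pi.add_apply, add_mul, Finset.sum_add_distrib]

theorem herm_add_right (σ : K ≃ₐ[F] K) (u v v' : ι → K) :
    herm σ u (v + v') = herm σ u v + herm σ u v' := by
  simp only [herm, Pi.add_apply, map_add, mul_add, Finset.sum_add_distrib]

theorem herm_smul_left (σ : K ≃ₐ[F] K) (x : K) (u v : ι → K) :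
    herm σ (x • u) v = x * herm σ u v := by
  simp only [herm, Pi.smul_apply, smul_eq_mul, Finset.mul_sum, mul_assoc]

theorem herm_smul_right (σ : K ≃ₐ[F] K) (y : K) (u v : ι → K) :
    herm σ u (y • v) = σ y * herm σ u v := by
  simp only [herm, Pi.smul_apply, smul_eq_mul, Finset.mul_sum, map_mul]
  refine Finset.sum_congr rfl fun i _ => ?_
  ring

theorem herm_symm (σ : K ≃ₐ[F] K) (hσσ : ∀ x, σ (σ x) = x) (u v : ι → K) :
    herm σ v u = σ (herm σ u v) := by
  simp only [herm, map_sum, map_mul, hσσ]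
  refine Finset.sum_congr rfl fun i _ => ?_
  ring

theorem herm_single_single [DecidableEq ι] (σ : K ≃ₐ[F] K) (i j : ι) (x y : K) :
    herm σ (Pi.single i x) (Pi.single j y) = if i = j then x * σ y else 0 :=
  herm_single σ i j x y

theorem trForm_eq_herm (σ : K ≃ₐ[F] K) (c : K) (u v : ι → K) :
    trForm σ c u v = Algebra.trace F K (c * herm σ u v) := rfl

/-- The quadratic form `u ↦ Σ N(u_i)` on `ι → K`, with values in `F`. -/
noncomputable def normForm (F : Type*) {K ι : Type*} [Field F] [Field K] [Algebra F K]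
    [Fintype ι] (u : ι → K) : F := ∑ i, Algebra.norm F (u i)

theorem algebraMap_normForm (σ : K ≃ₐ[F] K)
    (hnorm : ∀ x, algebraMap F K (Algebra.norm F x) = x * σ x) (u : ι → K) :
    algebraMap F K (normForm F u) = herm σ u u := by
  simp only [normForm, map_sum, hnorm, herm]

theorem normForm_add (σ : K ≃ₐ[F] K) (hσσ : ∀ x, σ (σ x) = x)
    (htr : ∀ x, algebraMap F K (Algebra.trace F K x) = x + σ x)
    (hnorm : ∀ x, algebraMap F K (Algebra.norm F x) = x * σ x) (u v : ι → K) :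
    normForm F (u + v) = normForm F u + normForm F v + trForm σ 1 u v := by
  apply (algebraMap F K).injective
  rw [map_add, map_add, algebraMap_normForm σ hnorm, algebraMap_normForm σ hnorm,
    algebraMap_normForm σ hnorm, trForm_eq_herm, htr, one_mul, ← herm_symm σ hσσ,
    herm_add_left, herm_add_right, herm_add_right]
  ring

theorem normForm_smul (σ : K ≃ₐ[F] K)
    (hnorm : ∀ x, algebraMap F K (Algebra.norm F x) = x * σ x) (a : F) (u : ι → K) :
    normForm F (a • u) = a ^ 2 * normForm F u := by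
  apply (algebraMap F K).injective
  rw [map_mul, map_pow, algebraMap_normForm σ hnorm, algebraMap_normForm σ hnorm]
  have h : a • u = (algebraMap F K a) • u := by
    ext i
    simp [Algebra.smul_def]
  rw [h, herm_smul_left, herm_smul_right, AlgEquiv.commutes]
  ring

/-- Elements of the unitary group preserve the norm form. -/
theorem normForm_glRep {F K : Type*} [Field F] [Fintype F] [Field K] [Algebra F K]
    (σ : K ≃ₐ[F] K) (hσ : ∀ x, σ x = x ^ Fintype.card F)
    (hnorm : ∀ x, algebraMap F K (Algebra.norm F x) = x * σ x) {m : ℕ}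
    (g : Cfsg.GU m K (Fintype.card F)) (u : Fin m → K) :
    normForm F (glRep F (Cfsg.GU m K (Fintype.card F)) g u) = normForm F u := by
  apply (algebraMap F K).injective
  rw [algebraMap_normForm σ hnorm, algebraMap_normForm σ hnorm]
  exact gu_herm σ hσ g u u

end herm

section abstract

variable {F V ι : Type*} [Field F] [AddCommGroup V] [Module F V]

/-- A span of pairwise orthogonal singular vectors is totally singular. -/
theorem quad_sum_eq_zero (Q : V → F) (B : LinearMap.BilinForm F V)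
    (hadd : ∀ u v, Q (u + v) = Q u + Q v + B u v) (hsmul : ∀ (a : F) u, Q (a • u) = a ^ 2 * Q u)
    (w : ι → V) (hw : ∀ i, Q (w i) = 0) (hww : ∀ i j, B (w i) (w j) = 0) (α : ι → F)
    (S : Finset ι) : Q (∑ i ∈ S, α i • w i) = 0 := by
  classical
  have h0 : Q 0 = 0 := by
    have := hsmul 0 0
    simpa using this
  induction S using Finset.induction_on with
  | empty => simpa using h0
  | insert a S ha ih =>
    rw [Finset.sum_insert ha, hadd, ih, hsmul, hw]
    simp [map_sum, hww]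

/-- The value of a quadratic function on a combination of a hyperbolic family. -/
theorem hyp_expand [Fintype ι] [DecidableEq ι] (Q : V → F) (B : LinearMap.BilinForm F V)
    (hadd : ∀ u v, Q (u + v) = Q u + Q v + B u v) (hsmul : ∀ (a : F) u, Q (a • u) = a ^ 2 * Q u)
    (e f : ι → V) (he : ∀ i, Q (e i) = 0) (hf : ∀ i, Q (f i) = 0)
    (hee : ∀ i j, B (e i) (e j) = 0) (hff : ∀ i j, B (f i) (f j) = 0)
    (hef : ∀ i j, B (e i) (f j) = if i = j then 1 else 0) (α β : ι → F) :
    Q (∑ i, α i • e i + ∑ i, β i • f i) = ∑ i, α i * β i := by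
  rw [hadd, quad_sum_eq_zero Q B hadd hsmul e he hee, quad_sum_eq_zero Q B hadd hsmul f hf hff]
  simp [map_sum, hef]
  exact Finset.sum_congr rfl fun i _ => mul_comm _ _

/-- The same with an additional orthogonal plane. -/
theorem hyp_expand_add [Fintype ι] [DecidableEq ι] (Q : V → F) (B : LinearMap.BilinForm F V)
    (hadd : ∀ u v, Q (u + v) = Q u + Q v + B u v) (hsmul : ∀ (a : F) u, Q (a • u) = a ^ 2 * Q u)
    (e f : ι → V) (he : ∀ i, Q (e i) = 0) (hf : ∀ i, Q (f i) = 0)
    (hee : ∀ i j, B (e i) (e j) = 0) (hff : ∀ i j, B (f i) (f j) = 0)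
    (hef : ∀ i j, B (e i) (f j) = if i = j then 1 else 0) (g₀ g₁ : V)
    (he0 : ∀ i, B (e i) g₀ = 0) (he1 : ∀ i, B (e i) g₁ = 0)
    (hf0 : ∀ i, B (f i) g₀ = 0) (hf1 : ∀ i, B (f i) g₁ = 0) (α β : ι → F) (z₀ z₁ : F) :
    Q (∑ i, α i • e i + ∑ i, β i • f i + (z₀ • g₀ + z₁ • g₁)) =
      ∑ i, α i * β i + (z₀ ^ 2 * Q g₀ + z₀ * z₁ * B g₀ g₁ + z₁ ^ 2 * Q g₁) := by
  rw [hadd, hyp_expand Q B hadd hsmul e f he hf hee hff hef, hadd, hsmul, hsmul]
  simp [map_sum, he0, he1, hf0, hf1]
  ring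

end abstract

section hyp

variable {F K ι P : Type*} [Field F] [Field K] [Algebra F K] [DecidableEq ι]

/-- First vectors of the hyperbolic pairs of the Hermitian form. -/
def hypW (ι₀ ι₁ : P → ι) (c : K) (p : P) : ι → K :=
  Pi.single (ι₀ p) 1 + Pi.single (ι₁ p) c

/-- Second vectors of the hyperbolic pairs of the Hermitian form. -/
def hypW' (ι₀ ι₁ : P → ι) (c s : K) (p : P) : ι → K :=
  Pi.single (ι₀ p) s + Pi.single (ι₁ p) (c * (s - 1))

theorem hypW_apply_of_ne (ι₀ ι₁ : P → ι) (c : K) (p : P) (t : ι) (h₀ : ∀ p, ι₀ p ≠ t)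
    (h₁ : ∀ p, ι₁ p ≠ t) : hypW ι₀ ι₁ c p t = 0 := by
  simp [hypW, Pi.single_eq_of_ne (h₀ p).symm, Pi.single_eq_of_ne (h₁ p).symm]

theorem hypW'_apply_of_ne (ι₀ ι₁ : P → ι) (c s : K) (p : P) (t : ι) (h₀ : ∀ p, ι₀ p ≠ t)
    (h₁ : ∀ p, ι₁ p ≠ t) : hypW' ι₀ ι₁ c s p t = 0 := by
  simp [hypW', Pi.single_eq_of_ne (h₀ p).symm, Pi.single_eq_of_ne (h₁ p).symm]

variable [Fintype ι] [DecidableEq P]

theorem herm_hypW_hypW (σ : K ≃ₐ[F] K) (ι₀ ι₁ : P → ι) (inj₀ : Function.Injective ι₀)
    (inj₁ : Function.Injective ι₁) (hdisj : ∀ p p', ι₀ p ≠ ι₁ p') (c : K) (hc : c * σ c = -1)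
    (p p' : P) : herm σ (hypW ι₀ ι₁ c p) (hypW ι₀ ι₁ c p') = 0 := by
  simp only [hypW, herm_add_left, herm_add_right, herm_single_single, inj₀.eq_iff, inj₁.eq_iff,
    hdisj, (hdisj _ _).symm, if_false]
  by_cases h : p = p'
  · simp only [h, if_true, map_one, mul_one, hc]
    ring
  · simp [h]

theorem herm_hypW'_hypW' (σ : K ≃ₐ[F] K) (ι₀ ι₁ : P → ι) (inj₀ : Function.Injective ι₀)
    (inj₁ : Function.Injective ι₁) (hdisj : ∀ p p', ι₀ p ≠ ι₁ p') (c s : K) (hc : c * σ c = -1)
    (hs : s + σ s = 1) (p p' : P) :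
    herm σ (hypW' ι₀ ι₁ c s p) (hypW' ι₀ ι₁ c s p') = 0 := by
  simp only [hypW', herm_add_left, herm_add_right, herm_single_single, inj₀.eq_iff, inj₁.eq_iff,
    hdisj, (hdisj _ _).symm, if_false]
  by_cases h : p = p'
  · simp only [h, if_true, map_mul, map_sub, map_one]
    linear_combination ((s - 1) * (σ s - 1)) * hc + hs
  · simp [h]

theorem herm_hypW_hypW' (σ : K ≃ₐ[F] K) (ι₀ ι₁ : P → ι) (inj₀ : Function.Injective ι₀)
    (inj₁ : Function.Injective ι₁) (hdisj : ∀ p p', ι₀ p ≠ ι₁ p') (c s : K) (hc : c * σ c = -1)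
    (p p' : P) :
    herm σ (hypW ι₀ ι₁ c p) (hypW' ι₀ ι₁ c s p') = if p = p' then 1 else 0 := by
  simp only [hypW, hypW', herm_add_left, herm_add_right, herm_single_single, inj₀.eq_iff,
    inj₁.eq_iff, hdisj, (hdisj _ _).symm, if_false]
  by_cases h : p = p'
  · simp only [h, if_true, map_mul, map_sub, map_one]
    linear_combination (σ s - 1) * hc
  · simp [h]

/-- The totally singular family `x_r W_p`. -/
def hypE (ι₀ ι₁ : P → ι) (c θ : K) (a : P × Fin 2) : ι → K :=
  (![1, θ] a.2) • hypW ι₀ ι₁ c a.1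

/-- The totally singular family `y_r W'_p`. -/
def hypF (ι₀ ι₁ : P → ι) (c θ ε : K) (a : P × Fin 2) : ι → K :=
  (![ε * θ, -ε] a.2) • hypW' ι₀ ι₁ c (ε * θ) a.1

theorem herm_hypE_hypE (σ : K ≃ₐ[F] K) (ι₀ ι₁ : P → ι) (inj₀ : Function.Injective ι₀)
    (inj₁ : Function.Injective ι₁) (hdisj : ∀ p p', ι₀ p ≠ ι₁ p') (c θ : K) (hc : c * σ c = -1)
    (a a' : P × Fin 2) : herm σ (hypE ι₀ ι₁ c θ a) (hypE ι₀ ι₁ c θ a') = 0 := by
  rw [hypE, hypE, herm_smul_left, herm_smul_right, herm_hypW_hypW σ ι₀ ι₁ inj₀ inj₁ hdisj c hc]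
  simp

theorem herm_hypF_hypF (σ : K ≃ₐ[F] K) (ι₀ ι₁ : P → ι)
    (inj₀ : Function.Injective ι₀)
    (inj₁ : Function.Injective ι₁) (hdisj : ∀ p p', ι₀ p ≠ ι₁ p') (c θ ε : K) (hc : c * σ c = -1)
    (hε : σ ε = -ε) (hεθ : ε * (θ - σ θ) = 1)
    (a a' : P × Fin 2) : herm σ (hypF ι₀ ι₁ c θ ε a) (hypF ι₀ ι₁ c θ ε a') = 0 := by
  have hs : ε * θ + σ (ε * θ) = 1 := by
    rw [map_mul, hε]
    linear_combination hεθ
  rw [hypF, hypF, herm_smul_left, herm_smul_right,
    herm_hypW'_hypW' σ ι₀ ι₁ inj₀ inj₁ hdisj c _ hc hs]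
  simp

theorem trace_herm_hypE_hypF (σ : K ≃ₐ[F] K) (hσσ : ∀ x, σ (σ x) = x)
    (htr : ∀ x, algebraMap F K (Algebra.trace F K x) = x + σ x) (ι₀ ι₁ : P → ι)
    (inj₀ : Function.Injective ι₀)
    (inj₁ : Function.Injective ι₁) (hdisj : ∀ p p', ι₀ p ≠ ι₁ p') (c θ ε : K) (hc : c * σ c = -1)
    (hε : σ ε = -ε) (hεθ : ε * (θ - σ θ) = 1)
    (a a' : P × Fin 2) :
    Algebra.trace F K (herm σ (hypE ι₀ ι₁ c θ a) (hypF ι₀ ι₁ c θ ε a')) =
      if a = a' then 1 else 0 := by
  have hinj := (algebraMap F K).injective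
  rw [hypE, hypF, herm_smul_left, herm_smul_right,
    herm_hypW_hypW' σ ι₀ ι₁ inj₀ inj₁ hdisj c _ hc]
  obtain ⟨p, r⟩ := a
  obtain ⟨p', r'⟩ := a'
  by_cases hp : p = p'
  · subst hp
    simp only [if_true, mul_one, Prod.mk.injEq, true_and]
    apply hinj
    rw [htr]
    fin_cases r <;> fin_cases r'
    · simp [hσσ, hε]
      linear_combination hεθ
    · simp [hε]
    · simp [hσσ, hε]
      ring
    · simp [hε]
      linear_combination hεθ
  · simp [hp]

end hyp

section field

variable {F K : Type*} [Field F] [Field K] [Fintype K] [Algebra F K]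

/-- An element of norm `-1`. -/
theorem exists_norm_neg_one (σ : K ≃ₐ[F] K)
    (hnorm : ∀ x, algebraMap F K (Algebra.norm F x) = x * σ x) : ∃ c : K, c * σ c = -1 := by
  obtain ⟨c, hc⟩ := FiniteField.norm_surjective F K (-1)
  refine ⟨c, ?_⟩
  rw [← hnorm, hc, map_neg, map_one]

variable [Fintype F]

/-- Elements fixed by the Frobenius lie in the small field. -/
theorem mem_range_of_frob_fixed (x : K)
    (hx : x ^ Fintype.card F = x) : x ∈ Set.range (algebraMap F K) := by
  rw [IsGalois.mem_range_algebraMap_iff_fixed]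
  intro f
  obtain ⟨n, rfl⟩ := (FiniteField.bijective_frobeniusAlgEquivOfAlgebraic_pow F K).2 f
  have key : ∀ k : ℕ, (FiniteField.frobeniusAlgEquivOfAlgebraic F K ^ k) x = x := by
    intro k
    induction k with
    | zero => simp
    | succ k ih =>
      rw [pow_succ, AlgEquiv.mul_apply]
      have : (FiniteField.frobeniusAlgEquivOfAlgebraic F K) x = x := hx
      rw [this, ih]
  exact key n

/-- An anisotropic binary form `z₁² + a z₁ z₂ + b z₂²` is the norm form of `K` in the basis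
`1, ρ`. -/
theorem exists_root_quad (σ : K ≃ₐ[F] K) (hσ : ∀ x, σ x = x ^ Fintype.card F) (a b : F)
    (hab : ∀ z₁ z₂ : F, z₁ ^ 2 + a * z₁ * z₂ + b * z₂ ^ 2 = 0 → z₁ = 0 ∧ z₂ = 0)
    (h2 : finrank F K = 2) :
    ∃ ρ : K, ρ + σ ρ = algebraMap F K a ∧ ρ * σ ρ = algebraMap F K b := by
  classical
  open Polynomial in
  have key : ∃ ρ : K, ρ ^ 2 - algebraMap F K a * ρ + algebraMap F K b = 0 := by
    let f : F[X] := X ^ 2 - C a * X + C b
    have hdeg : f.natDegree = 2 := by
      simp only [f]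
      compute_degree!
    have hnr : ∀ x, ¬ IsRoot f x := by
      intro x hx
      have h1 : x ^ 2 - a * x + b = 0 := by simpa [f] using hx
      have h2 := hab (-x) 1 (by linear_combination h1)
      exact one_ne_zero h2.2
    have hirr : Irreducible f :=
      irreducible_of_degree_le_three_of_not_isRoot (by rw [hdeg]; decide) hnr
    have hdvd : f ∣ X ^ (Nat.card F) ^ 2 - X :=
      (hirr.natDegree_dvd_iff_dvd_X_pow_card_pow_sub_X (n := 2)).1 (by rw [hdeg])
    have hcardK : Nat.card K = Nat.card F ^ 2 := by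
      rw [Nat.card_eq_fintype_card, Nat.card_eq_fintype_card,
        Module.card_eq_pow_finrank (K := F) (V := K), h2]
    have hdvd' : f.map (algebraMap F K) ∣ (X ^ (Nat.card K) - X : K[X]) := by
      have := Polynomial.map_dvd (algebraMap F K) hdvd
      rw [hcardK]
      simpa using this
    have hne : (X ^ (Nat.card K) - X : K[X]) ≠ 0 := by
      rw [Nat.card_eq_fintype_card]
      exact FiniteField.X_pow_card_sub_X_ne_zero K Fintype.one_lt_card
    have hsplit : Splits (f.map (algebraMap F K)) :=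
      Splits.of_dvd (Polynomial.splits_X_pow_nat_card_sub_X (K := K)) hne hdvd'
    have hdeg' : (f.map (algebraMap F K)).degree ≠ 0 := by
      rw [degree_map, degree_eq_natDegree (by intro h; rw [h] at hdeg; simp at hdeg), hdeg]
      decide
    obtain ⟨ρ, hρ⟩ := hsplit.exists_eval_eq_zero hdeg'
    refine ⟨ρ, ?_⟩
    simpa [f, eval_map] using hρ
  obtain ⟨ρ, hρ⟩ := key
  have hρ' : σ ρ ^ 2 - algebraMap F K a * σ ρ + algebraMap F K b = 0 := by
    have := congrArg σ hρ
    simpa using this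
  have hmul : (ρ - σ ρ) * (ρ + σ ρ - algebraMap F K a) = 0 := by
    linear_combination hρ - hρ'
  rcases mul_eq_zero.1 hmul with h | h
  · exfalso
    have hfix : ρ ^ Fintype.card F = ρ := by
      rw [← hσ]
      exact (sub_eq_zero.1 h).symm
    obtain ⟨r, hr⟩ := mem_range_of_frob_fixed ρ hfix
    have h1 : r ^ 2 - a * r + b = 0 := by
      apply (algebraMap F K).injective
      rw [map_add, map_sub, map_pow, map_mul, hr, map_zero]
      exact hρ
    have h2 := hab (-r) 1 (by linear_combination h1)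
    exact one_ne_zero h2.2
  · have hsum : ρ + σ ρ = algebraMap F K a := sub_eq_zero.1 h
    refine ⟨ρ, hsum, ?_⟩
    linear_combination -hρ + ρ * hsum

end field

end Cfsg.Agent.Lib.Helper52
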