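import Cfsg.Agent.Lib.Helper98.H90Defs

/-!
# Project H74, batch 2 (S5990, helper98), piece DETM (helper52)

An involution in `Ω⁻` (odd characteristic) has `dim ker (x + 1)` even.
-/

set_option autoImplicit false

namespace Cfsg.Agent.Lib.Helper98.H74

open Cfsg.Agent.Lib.Helper47 Cfsg.Agent.Lib.Helper98.T73 Module Polynomial

universe u

section matrix

variable {F : Type u} [Field F] [Fintype F]

omit [Fintype F] in
theorem DETM_isCompl {V : Type*} [AddCommGroup V] [Module F V] (h2 : (2 : F) ≠ 0)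
    (g : Module.End F V) (hgg : ∀ v, g (g v) = v) :
    IsCompl (LinearMap.ker (g - 1)) (LinearMap.ker (g + 1)) := by
  constructor
  · rw [Submodule.disjoint_def]
    intro v h1 h2'
    rw [LinearMap.mem_ker, LinearMap.sub_apply, Module.End.one_apply, sub_eq_zero] at h1
    rw [LinearMap.mem_ker, LinearMap.add_apply, Module.End.one_apply, h1] at h2'
    have h3 : (2 : F) • v = 0 := by
      rw [two_smul]
      exact h2'
    exact (smul_eq_zero.mp h3).resolve_left h2
  · rw [codisjoint_iff, eq_top_iff]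
    intro v _
    have hsum : v + g v + (v - g v) = (2 : F) • v := by
      rw [two_smul]
      abel
    have hv : v = (2 : F)⁻¹ • (v + g v) + (2 : F)⁻¹ • (v - g v) := by
      rw [← smul_add, hsum, smul_smul, inv_mul_cancel₀ h2, one_smul]
    rw [hv]
    apply Submodule.add_mem_sup
    · rw [LinearMap.mem_ker, LinearMap.sub_apply, Module.End.one_apply, map_smul, map_add, hgg,
        ← smul_sub]
      have h0 : g v + v - (v + g v) = 0 := by abel
      rw [h0, smul_zero]
    · rw [LinearMap.mem_ker, LinearMap.add_apply, Module.End.one_apply, map_smul, map_sub, hgg,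
        ← smul_add]
      have h0 : g v - v + (v - g v) = 0 := by abel
      rw [h0, smul_zero]

omit [Fintype F] in
theorem DETM_even {V : Type*} [AddCommGroup V] [Module F V] [FiniteDimensional F V]
    (h2 : (2 : F) ≠ 0) (g : Module.End F V) (hgg : ∀ v, g (g v) = v)
    (hdet : LinearMap.det g = 1) : Even (finrank F (LinearMap.ker (g + 1))) := by
  have hcompl := DETM_isCompl h2 g hgg
  have hfixC : ∀ c ∈ LinearMap.ker (g - 1), g c = c := by
    intro c hc
    rw [LinearMap.mem_ker, LinearMap.sub_apply, Module.End.one_apply, sub_eq_zero] at hc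
    exact hc
  have hnegR : ∀ w ∈ LinearMap.ker (g + 1), g w = -w := by
    intro w hw
    rw [LinearMap.mem_ker, LinearMap.add_apply, Module.End.one_apply] at hw
    exact eq_neg_of_add_eq_zero_left hw
  have e1 : g = ((Submodule.prodEquivOfIsCompl _ _ hcompl : _ ≃ₗ[F] V) : _ →ₗ[F] V) ∘ₗ
      (LinearMap.prodMap (LinearMap.id : ↥(LinearMap.ker (g - 1)) →ₗ[F] _)
        ((-1 : F) • (LinearMap.id : ↥(LinearMap.ker (g + 1)) →ₗ[F] _))) ∘ₗ
      ((Submodule.prodEquivOfIsCompl _ _ hcompl).symm : V →ₗ[F] _) := by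
    apply LinearMap.ext
    intro v
    obtain ⟨y, rfl⟩ := (Submodule.prodEquivOfIsCompl _ _ hcompl).surjective v
    rw [LinearMap.comp_apply, LinearMap.comp_apply, LinearEquiv.coe_coe, LinearEquiv.coe_coe,
      LinearEquiv.symm_apply_apply, Submodule.coe_prodEquivOfIsCompl', map_add,
      hfixC _ y.1.2, hnegR _ y.2.2, Submodule.coe_prodEquivOfIsCompl']
    simp
  have e2 := LinearMap.det_conj
    (LinearMap.prodMap (LinearMap.id : ↥(LinearMap.ker (g - 1)) →ₗ[F] _)
      ((-1 : F) • (LinearMap.id : ↥(LinearMap.ker (g + 1)) →ₗ[F] _)))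
    (Submodule.prodEquivOfIsCompl _ _ hcompl)
  rw [← e1, hdet, LinearMap.det_prodMap, LinearMap.det_id, LinearMap.det_smul,
    LinearMap.det_id, one_mul, mul_one] at e2
  by_contra hodd
  rw [Nat.not_even_iff_odd] at hodd
  rw [hodd.neg_one_pow] at e2
  exact h2 (by linear_combination e2)

/-- DETM -/
theorem even_ker_of_mem_omega_minus (h2 : (2 : F) ≠ 0) (k : ℕ) (a b : F)
    (hab : ∀ x y : F, x ^ 2 + a * x * y + b * y ^ 2 = 0 → x = 0 ∧ y = 0)
    (x : GL ((Fin k ⊕ Fin k) ⊕ Fin 2) F)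
    (hx : x ∈ Cfsg.Geo.omegaGL (Cfsg.quadFormMinus k F a b)) (hx2 : x * x = 1) :
    Even (finrank F (LinearMap.ker (Matrix.toLin'
      (x : Matrix ((Fin k ⊕ Fin k) ⊕ Fin 2) ((Fin k ⊕ Fin k) ⊕ Fin 2) F) + 1))) := by
  classical
  have hdetx : (x : Matrix ((Fin k ⊕ Fin k) ⊕ Fin 2) ((Fin k ⊕ Fin k) ⊕ Fin 2) F).det = 1 := by
    obtain ⟨g, hg, hgx⟩ := hx
    have hker := Abelianization.commutator_subset_ker
      (Matrix.GeneralLinearGroup.det.comp
        (Cfsg.isometryGroup F (Cfsg.quadFormMinus k F a b)).subtype) hg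
    rw [MonoidHom.mem_ker, MonoidHom.comp_apply, hgx] at hker
    have h1 := congrArg Units.val hker
    rw [Matrix.GeneralLinearGroup.val_det_apply, Units.val_one] at h1
    exact h1
  have hgg : ∀ v, (Matrix.toLin' (x : Matrix ((Fin k ⊕ Fin k) ⊕ Fin 2) ((Fin k ⊕ Fin k) ⊕ Fin 2) F)
      : Module.End F ((Fin k ⊕ Fin k) ⊕ Fin 2 → F))
      ((Matrix.toLin' (x : Matrix ((Fin k ⊕ Fin k) ⊕ Fin 2) ((Fin k ⊕ Fin k) ⊕ Fin 2) F)
      : Module.End F ((Fin k ⊕ Fin k) ⊕ Fin 2 → F)) v) = v := by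
    intro v
    rw [← LinearMap.comp_apply, ← Matrix.toLin'_mul, ← Units.val_mul, hx2, Units.val_one,
      Matrix.toLin'_one]
    rfl
  have hdet : LinearMap.det
      (Matrix.toLin' (x : Matrix ((Fin k ⊕ Fin k) ⊕ Fin 2) ((Fin k ⊕ Fin k) ⊕ Fin 2) F)) = 1 := by
    rw [LinearMap.det_toLin']
    exact hdetx
  exact DETM_even h2 _ hgg hdet

end matrix

end Cfsg.Agent.Lib.Helper98.H74
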