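import Mathlib
import Cfsg.Agent.Lib.Helper52.SiegelGeom

/-!
Hyperbolic pairs in subspaces of a non-degenerate quadratic space over a finite field, with a
bookkeeping of the radical that allows one to extract several mutually orthogonal pairs.
-/

set_option autoImplicit false
set_option linter.unusedSectionVars false

namespace Cfsg.Agent.Lib.Helper52

open Module QuadraticMap

section HypK

variable {ι : Type} [Fintype ι] [DecidableEq ι] {K : Type*} [Field K] [Fintype K]
variable (Q : QuadraticForm K (ι → K))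

/-- The orthogonal complement of a finite set of vectors. -/
def perpS (S : Finset (ι → K)) : Submodule K (ι → K) :=
  LinearMap.BilinForm.orthogonal (polarBilin Q) (Submodule.span K (S : Set (ι → K)))

theorem mem_perpS (S : Finset (ι → K)) (x : ι → K) :
    x ∈ perpS Q S ↔ ∀ s ∈ S, polar ⇑Q s x = 0 := by
  unfold perpS
  rw [mem_orth_span]
  rfl

/-- The radical of the orthogonal complement of a finite set. -/
def radS (S : Finset (ι → K)) : Submodule K (ι → K) :=
  perpS Q S ⊓ LinearMap.BilinForm.orthogonal (polarBilin Q) (perpS Q S)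

theorem mem_radS (S : Finset (ι → K)) (x : ι → K) :
    x ∈ radS Q S ↔ x ∈ perpS Q S ∧ ∀ y ∈ perpS Q S, polar ⇑Q y x = 0 := by
  unfold radS
  rw [Submodule.mem_inf, LinearMap.BilinForm.mem_orthogonal_iff]
  rfl

theorem polarBilin_isRefl : (polarBilin Q).IsRefl := by
  intro x y h
  rw [polarBilin_apply_apply] at h ⊢
  rw [polar_comm]; exact h

theorem finrank_radS_le (hQ : (polarBilin Q).Nondegenerate) (S : Finset (ι → K)) :
    finrank K (radS Q S) ≤ S.card := by
  have h1 : radS Q S ≤ Submodule.span K (S : Set (ι → K)) := by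
    unfold radS perpS
    rw [LinearMap.BilinForm.orthogonal_orthogonal hQ (polarBilin_isRefl Q)]
    exact inf_le_right
  exact (Submodule.finrank_mono h1).trans (finrank_span_finset_le_card (R := K) S)

theorem finrank_perpS_ge (hQ : (polarBilin Q).Nondegenerate) (S : Finset (ι → K)) :
    Fintype.card ι ≤ finrank K (perpS Q S) + S.card :=
  finrank_orth_span_ge Q hQ S

/-- A subspace whose dimension exceeds that of its radical by three contains a hyperbolic
pair. -/
theorem hyp_in (U : Submodule K (ι → K))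
    (h : finrank K (U ⊓ LinearMap.BilinForm.orthogonal (polarBilin Q) U : Submodule K (ι → K)) + 3
      ≤ finrank K U) :
    ∃ d d', d ∈ U ∧ d' ∈ U ∧ Q d = 0 ∧ Q d' = 0 ∧ polar ⇑Q d d' = 1 := by
  set R : Submodule K (ι → K) := U ⊓ LinearMap.BilinForm.orthogonal (polarBilin Q) U with hR
  obtain ⟨W', hW'⟩ := Submodule.exists_isCompl R
  set W : Submodule K (ι → K) := W' ⊓ U with hW
  have hdim : 3 ≤ finrank K W := by
    have h1 := Submodule.finrank_sup_add_finrank_inf_eq W' U
    have h2 : finrank K (W' ⊔ U : Submodule K (ι → K)) ≤ finrank K (ι → K) :=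
      Submodule.finrank_le _
    have h3 := Submodule.finrank_add_eq_of_isCompl hW'
    rw [← hW] at h1
    omega
  obtain ⟨d, hdW, hd0, hQd⟩ := exists_singular_of_finrank Q W hdim
  have hdU : d ∈ U := hdW.2
  have hdn : d ∉ LinearMap.BilinForm.orthogonal (polarBilin Q) U := by
    intro hd
    apply hd0
    have h1 : d ∈ R ⊓ W' := ⟨⟨hdU, hd⟩, hdW.1⟩
    rw [hW'.inf_eq_bot] at h1
    exact (Submodule.mem_bot K).mp h1
  rw [LinearMap.BilinForm.mem_orthogonal_iff] at hdn
  push Not at hdn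
  obtain ⟨y, hyU, hy⟩ := hdn
  have hy' : polar ⇑Q y d ≠ 0 := by
    intro h0
    apply hy
    show (polarBilin Q) y d = 0
    rw [polarBilin_apply_apply]; exact h0
  obtain ⟨y₁, hy₁U, hy₁d⟩ : ∃ y₁ ∈ U, polar ⇑Q y₁ d = 1 := by
    refine ⟨(polar ⇑Q y d)⁻¹ • y, U.smul_mem _ hyU, ?_⟩
    rw [polar_smul_left, smul_eq_mul, inv_mul_cancel₀ hy']
  refine ⟨d, y₁ + (-Q y₁) • d, hdU, U.add_mem hy₁U (U.smul_mem _ hdU), hQd, ?_, ?_⟩
  · rw [Q_add_smul, hQd, hy₁d]; ring
  · rw [polar_add_right, polar_smul_right, polar_self, hQd, polar_comm, hy₁d]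
    simp

variable [DecidableEq (ι → K)]

/-- Adding a hyperbolic pair orthogonal to `S` does not enlarge the radical. -/
theorem radS_insert_le (S : Finset (ι → K)) (d d' : ι → K) (hd : d ∈ perpS Q S)
    (hd' : d' ∈ perpS Q S) (hQd : Q d = 0) (hQd' : Q d' = 0) (hdd' : polar ⇑Q d d' = 1) :
    radS Q (insert d (insert d' S)) ≤ radS Q S := by
  intro v hv
  rw [mem_radS] at hv ⊢
  obtain ⟨hv1, hv2⟩ := hv
  rw [mem_perpS] at hv1 hd hd'
  have hvd : polar ⇑Q d v = 0 := hv1 d (Finset.mem_insert_self _ _)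
  have hvd' : polar ⇑Q d' v = 0 :=
    hv1 d' (Finset.mem_insert_of_mem (Finset.mem_insert_self _ _))
  have hvS : ∀ s ∈ S, polar ⇑Q s v = 0 := fun s hs =>
    hv1 s (Finset.mem_insert_of_mem (Finset.mem_insert_of_mem hs))
  refine ⟨(mem_perpS Q S v).mpr hvS, ?_⟩
  intro u hu
  rw [mem_perpS] at hu
  set u' : ι → K := u - polar ⇑Q d' u • d - polar ⇑Q d u • d' with hu'
  have hu'mem : u' ∈ perpS Q (insert d (insert d' S)) := by
    rw [mem_perpS]
    intro s hs
    rcases Finset.mem_insert.mp hs with h | hs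
    · rw [h, hu', polar_sub_right, polar_sub_right, polar_smul_right, polar_smul_right,
        polar_self, hQd, hdd']
      simp
    rcases Finset.mem_insert.mp hs with h | hs
    · rw [h, hu', polar_sub_right, polar_sub_right, polar_smul_right, polar_smul_right,
        polar_self, hQd', polar_comm (⇑Q) d' d, hdd']
      simp
    · rw [hu', polar_sub_right, polar_sub_right, polar_smul_right, polar_smul_right, hu s hs,
        hd s hs, hd' s hs]
      simp
  have h1 := hv2 u' hu'mem
  rw [hu', polar_sub_left, polar_sub_left, polar_smul_left, polar_smul_left, hvd, hvd'] at h1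
  simpa using h1

/-- One step of the extraction of hyperbolic pairs orthogonal to a finite set. -/
theorem hyp_step (hQ : (polarBilin Q).Nondegenerate) (S : Finset (ι → K)) (c : ℕ)
    (hc : finrank K (radS Q S) ≤ c) (h : S.card + c + 3 ≤ Fintype.card ι) :
    ∃ d d', d ∈ perpS Q S ∧ d' ∈ perpS Q S ∧ Q d = 0 ∧ Q d' = 0 ∧ polar ⇑Q d d' = 1 ∧
      finrank K (radS Q (insert d (insert d' S))) ≤ c := by
  have h1 := finrank_perpS_ge Q hQ S
  obtain ⟨d, d', hd, hd', hQd, hQd', hdd'⟩ := hyp_in Q (perpS Q S) (by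
    have : finrank K (perpS Q S ⊓ LinearMap.BilinForm.orthogonal (polarBilin Q) (perpS Q S) :
      Submodule K (ι → K)) ≤ c := hc
    omega)
  exact ⟨d, d', hd, hd', hQd, hQd', hdd',
    (Submodule.finrank_mono (radS_insert_le Q S d d' hd hd' hQd hQd' hdd')).trans hc⟩

theorem card_insert_insert_le (S : Finset (ι → K)) (d d' : ι → K) :
    (insert d (insert d' S)).card ≤ S.card + 2 :=
  (Finset.card_insert_le _ _).trans (Nat.succ_le_succ (Finset.card_insert_le _ _))

/-- A hyperbolic pair orthogonal to a finite set, crude bound. -/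
theorem exists_hyp_perp (hQ : (polarBilin Q).Nondegenerate) (S : Finset (ι → K))
    (h : 2 * S.card + 3 ≤ Fintype.card ι) :
    ∃ d d', d ∈ perpS Q S ∧ d' ∈ perpS Q S ∧ Q d = 0 ∧ Q d' = 0 ∧ polar ⇑Q d d' = 1 := by
  obtain ⟨d, d', h1, h2, h3, h4, h5, -⟩ :=
    hyp_step Q hQ S S.card (finrank_radS_le Q hQ S) (by omega)
  exact ⟨d, d', h1, h2, h3, h4, h5⟩

/-- Two mutually orthogonal hyperbolic pairs orthogonal to a finite set. -/
theorem exists_two_hyp_perp (hQ : (polarBilin Q).Nondegenerate) (S : Finset (ι → K))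
    (h : 2 * S.card + 5 ≤ Fintype.card ι) :
    ∃ d d' e e', d ∈ perpS Q S ∧ d' ∈ perpS Q S ∧ Q d = 0 ∧ Q d' = 0 ∧ polar ⇑Q d d' = 1 ∧
      e ∈ perpS Q S ∧ e' ∈ perpS Q S ∧ Q e = 0 ∧ Q e' = 0 ∧ polar ⇑Q e e' = 1 ∧
      polar ⇑Q d e = 0 ∧ polar ⇑Q d e' = 0 ∧ polar ⇑Q d' e = 0 ∧ polar ⇑Q d' e' = 0 := by
  obtain ⟨d, d', h1, h2, h3, h4, h5, h6⟩ :=
    hyp_step Q hQ S S.card (finrank_radS_le Q hQ S) (by omega)
  have hcard := card_insert_insert_le S d d'
  obtain ⟨e, e', g1, g2, g3, g4, g5, -⟩ :=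
    hyp_step Q hQ (insert d (insert d' S)) S.card h6 (by omega)
  rw [mem_perpS] at g1 g2
  refine ⟨d, d', e, e', h1, h2, h3, h4, h5, ?_, ?_, g3, g4, g5, ?_, ?_, ?_, ?_⟩
  · rw [mem_perpS]
    exact fun s hs => g1 s (Finset.mem_insert_of_mem (Finset.mem_insert_of_mem hs))
  · rw [mem_perpS]
    exact fun s hs => g2 s (Finset.mem_insert_of_mem (Finset.mem_insert_of_mem hs))
  · exact g1 d (Finset.mem_insert_self _ _)
  · exact g2 d (Finset.mem_insert_self _ _)
  · exact g1 d' (Finset.mem_insert_of_mem (Finset.mem_insert_self _ _))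
  · exact g2 d' (Finset.mem_insert_of_mem (Finset.mem_insert_self _ _))

end HypK

end Cfsg.Agent.Lib.Helper52
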