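import Mathlib
import Cfsg.Agent.Lib.Helper72.JLDefs

/-!
# S2942 project JL (helper72), piece KC (helper52): three subgroups lemma modulo `Q`
-/

set_option autoImplicit false

namespace Cfsg.Agent.Lib.Helper52.JL

open Cfsg.Agent.Lib.Helper72.JL Cfsg.Agent.Lib.Helper72.SC Cfsg.Agent.Lib.Helper78.Jc

open scoped commutatorElement

universe u

theorem kc : KcStmt.{u} := by
  intro X _ Q C K J hQ hC hCJ hKJ k hk c hc
  haveI := hQ
  set f : X →* X ⧸ Q := QuotientGroup.mk' Q with hf
  have hsurj : Function.Surjective f := QuotientGroup.mk'_surjective Q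
  haveI hCn : (C.map f).Normal := hC.map f hsurj
  have hCJ' : ⁅C.map f, J.map f⁆ = ⊥ := by
    rw [← Subgroup.map_commutator, eq_bot_iff]
    have h1 : ⁅C, J⁆ ≤ Q := by
      rw [Subgroup.commutator_le]
      exact hCJ
    have h2 := Subgroup.map_mono (f := f) h1
    rw [hf, QuotientGroup.map_mk'_self] at h2
    exact h2
  have h1 : ⁅⁅J.map f, C.map f⁆, K.map f⁆ = ⊥ := by
    rw [Subgroup.commutator_comm (J.map f) (C.map f), hCJ', Subgroup.commutator_bot_left]
  have h2 : ⁅⁅C.map f, K.map f⁆, J.map f⁆ = ⊥ := by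
    rw [eq_bot_iff, ← hCJ']
    exact Subgroup.commutator_mono (Subgroup.commutator_le_left _ _) le_rfl
  have h3 : ⁅⁅K.map f, J.map f⁆, C.map f⁆ = ⊥ :=
    Subgroup.commutator_commutator_eq_bot_of_rotate h1 h2
  rw [← Subgroup.map_commutator, hKJ] at h3
  have h4 : ⁅f k, f c⁆ ∈ ⁅K.map f, C.map f⁆ :=
    Subgroup.commutator_mem_commutator (Subgroup.mem_map_of_mem f hk)
      (Subgroup.mem_map_of_mem f hc)
  rw [h3, Subgroup.mem_bot, ← map_commutatorElement] at h4
  exact (QuotientGroup.eq_one_iff _).1 h4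

end Cfsg.Agent.Lib.Helper52.JL
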