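import Mathlib
import Cfsg.Agent.Lib.Helper72.JLDefs

/-!
# S2942 project JL (helper72), piece SUBNIL (helper52): subgroups of finite nilpotent groups
are subnormal
-/

set_option autoImplicit false

namespace Cfsg.Agent.Lib.Helper52.JL

open Cfsg.Agent.Lib.Helper72.JL Cfsg.Agent.Lib.Helper72.SC Cfsg.Agent.Lib.Helper78.Jc

universe u

theorem jlsubnil_aux (X : Type u) [Group X] [Finite X] (hnc : NormalizerCondition X) :
    ∀ n : ℕ, ∀ H : Subgroup X, Nat.card X - Nat.card H ≤ n → H.IsSubnormal := by
  intro n
  induction n with
  | zero =>
    intro H hH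
    have hle : Nat.card H ≤ Nat.card X := Subgroup.card_le_card_group H
    have hT : H = ⊤ := Subgroup.eq_top_of_le_card H (by omega)
    rw [hT]
    exact Subgroup.IsSubnormal.top
  | succ n ih =>
    intro H hH
    by_cases hT : H = ⊤
    · rw [hT]
      exact Subgroup.IsSubnormal.top
    · have hlt : H < Subgroup.normalizer (H : Set X) := hnc H (lt_top_iff_ne_top.2 hT)
      have hcard : Nat.card H < Nat.card (Subgroup.normalizer (H : Set X)) := by
        by_contra hge
        have heq : H = Subgroup.normalizer (H : Set X) :=
          Subgroup.eq_of_le_of_card_ge hlt.le (not_lt.1 hge)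
        exact (ne_of_lt hlt) heq
      have hle : Nat.card (Subgroup.normalizer (H : Set X)) ≤ Nat.card X :=
        Subgroup.card_le_card_group _
      have hsub := ih (Subgroup.normalizer (H : Set X)) (by omega)
      exact Subgroup.IsSubnormal.step H _ hlt.le hsub Subgroup.normal_in_normalizer

theorem subnil : SubnilStmt.{u} := by
  intro X _ _ hnil H
  have hnc : NormalizerCondition X := Group.normalizerCondition_of_isNilpotent
  exact jlsubnil_aux X hnc _ H le_rfl

end Cfsg.Agent.Lib.Helper52.JL
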