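import Mathlib
import Cfsg.Agent.Lib.Helper52.LangPlus
import Cfsg.Agent.Lib.Helper1.LMT
import Cfsg.Agent.Lib.Helper77.LMR
import Cfsg.Agent.Lib.Helper88.LMF

set_option autoImplicit false
set_option linter.unusedSectionVars false
set_option linter.unusedVariables false

namespace Cfsg.Agent.Lib.Helper52.LMMain

open Module QuadraticMap Matrix
open Cfsg Cfsg.Agent.Lib.Helper51 Cfsg.Agent.Lib.Helper52 Cfsg.Agent.Lib.Helper54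
open Cfsg.Agent.Lib.Helper52.OU Cfsg.Agent.Lib.Helper52.OUMain Cfsg.Agent.Lib.Helper52.LP
open Cfsg.Agent.Lib.Helper52.LSMain (ind_congr ind_smul orderOf_conj_eq)
open Cfsg.Agent.Lib.Helper52.LPMain

universe u

variable {ι : Type} [Fintype ι] [DecidableEq ι] {F : Type u} [Field F]

local notation "mt(" g ")" => ((g : Matrix.GeneralLinearGroup ι F) : Matrix ι ι F)

/-! The pieces LM-T, LM-R, LM-F are proved in the modules imported above. -/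




/-! # ASSEMBLY (helper52) -/

section Assembly

/-- Transport of automorphisms: if `ψ₀ ξ = ξ' ψ₀` then `ψ (β⁻¹ ξ β) ψ⁻¹ = ξ'` for
`β = ψ₀⁻¹ ψ`. -/
theorem congr_conj {T T' : Type*} [Group T] [Group T'] (ψ ψ₀ : T ≃* T') (ξ : MulAut T)
    (ξ' : MulAut T') (h : ∀ t : T, ψ₀ (ξ t) = ξ' (ψ₀ t)) :
    MulAut.congr ψ ((ψ.trans ψ₀.symm : MulAut T)⁻¹ * ξ * (ψ.trans ψ₀.symm : MulAut T)) = ξ' := by
  ext t'
  have e1 : ((ψ.trans ψ₀.symm : MulAut T)⁻¹ : MulAut T) = (ψ₀.trans ψ.symm : T ≃* T) := by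
    rw [inv_eq_iff_mul_eq_one]
    ext t
    simp [MulAut.mul_apply]
  rw [e1]
  simp only [MulAut.congr_apply, MulEquiv.trans_apply, MulAut.mul_apply, MulEquiv.apply_symm_apply]
  have h2 := h (ψ₀.symm t')
  rw [MulEquiv.apply_symm_apply] at h2
  rw [← h2]

theorem map_trans_map_symm (τ : F ≃+* F) (X : GL ι F) :
    Matrix.GeneralLinearGroup.map ((RingEquiv.refl F).trans τ : F →+* F)
      (Matrix.GeneralLinearGroup.map (τ.symm : F →+* F) X) = X := by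
  ext i j
  rw [Matrix.GeneralLinearGroup.map_apply, Matrix.GeneralLinearGroup.map_apply]
  simp

theorem ind_conj_lin (Q : (ι → F) → F) {α ξ : MulAut (Cfsg.POmega F Q)} {a z : GL ι F}
    {τ : F ≃+* F} (hα : Ind Q α a τ) (hξ : Ind Q ξ z (RingEquiv.refl F)) :
    Ind Q (α * ξ * α⁻¹) (a * Matrix.GeneralLinearGroup.map (τ : F →+* F) z * a⁻¹)
      (RingEquiv.refl F) :=
  ind_congr Q (ind_mul Q (ind_mul Q hα hξ) (ind_inv Q hα))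
    (by rw [map_trans_map_symm]) (fun x => by simp)

/-- A σ-specific version of the coset conjugacy argument, returning the conjugating
similarity. -/
theorem lin_core [Fintype F] {p f : ℕ} [Fact p.Prime] (hF : Fintype.card F = p ^ f)
    (Q : QuadraticForm F (ι → F)) (hQ : (polarBilin Q).Nondegenerate)
    (hn : 7 ≤ Fintype.card ι) (hγ : Cfsg.gammaPOmega F ⇑Q = ⊤)
    (φ δ : MulAut (Cfsg.POmega F ⇑Q)) (σ : F ≃+* F) (hσ1 : σ ≠ RingEquiv.refl F)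
    (hφ : Ind ⇑Q φ 1 σ) (hδ : δ ∈ Cfsg.pgoAut F ⇑Q) {r : ℕ} (hr : r.Prime)
    (hφr : orderOf φ = r) (hord : orderOf (δ * φ) = r)
    (hlang : ∀ (g : GL ι F), g ∈ Cfsg.Geo.quadSimilarityGroup (F := F) ⇑Q → ∀ c : Fˣ,
      mt(tpow g σ r) = (c : F) • (1 : Matrix ι ι F) → orderOf (σ : RingAut F) = r →
      ∃ (h : GL ι F) (μ : Fˣ), h ∈ Cfsg.Geo.quadSimilarityGroup (F := F) ⇑Q ∧
        mt(g) * (mt(h)).map σ = (μ : F) • mt(h)) :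
    ∃ (h : GL ι F) (hh : h ∈ Cfsg.Geo.quadSimilarityGroup (F := F) ⇑Q),
      δ * φ = simAut ⇑Q ⟨h, hh⟩ * φ * (simAut ⇑Q ⟨h, hh⟩)⁻¹ := by
  obtain ⟨ρ, hρ, hker, -, -⟩ := core_data hF Q hQ hn hγ
  have hρφ : ρ φ = σ := hρ φ 1 σ hφ
  have hσr : (σ : RingAut F) ^ r = 1 := by
    rw [← hρφ, ← map_pow, ← hφr, pow_orderOf_eq_one, map_one]
  have hσord : orderOf (σ : RingAut F) = r := by
    have : Fact r.Prime := ⟨hr⟩
    exact orderOf_eq_prime hσr hσ1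
  rw [pgoAut_eq] at hδ
  obtain ⟨g, hg⟩ := hδ
  have hδI : Ind ⇑Q δ (g : GL ι F) (RingEquiv.refl F) := by
    rw [← hg]
    exact ind_of_sim _ g.1 g.2
  have hyI : Ind ⇑Q (δ * φ) (g : GL ι F) σ := by
    have := ind_mul_refl ⇑Q hδI hφ
    rwa [mul_one] at this
  have hpow := ind_pow ⇑Q hyI r
  rw [← hord, pow_orderOf_eq_one, hord, hσr] at hpow
  obtain ⟨-, c, hc⟩ := ind_one_scalar Q hQ hn (semi_conj_mem ⇑Q) _ _ hpow
  obtain ⟨h, μ, hh, hgh⟩ := hlang (g : GL ι F) g.2 c hc hσord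
  refine ⟨h, hh, ?_⟩
  have hηI := ind_of_sim ⇑Q h hh
  have hconjI := ind_conj_refl ⇑Q hηI hφ
  have hkey : mt((g : GL ι F)) * (mt(h)).map σ = (μ : F) • (mt(h) * mt((1 : GL ι F))) := by
    rw [hgh, Units.val_one, Matrix.mul_one]
  exact ind_eq ⇑Q hyI (ind_smul Q hconjI μ (key2_of_key σ _ h 1 μ hkey))

theorem sigInv_minus (m : ℕ) (a b : F) (σ : F ≃+* F) (ha : σ a = a) (hb : σ b = b) :
    SigInv σ (QMinus m F a b) := by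
  intro v
  rw [coe_QMinus]
  simp [Cfsg.quadFormMinus, map_add, map_sum, map_mul, map_pow, ha, hb]

theorem minus_nondeg [Fintype F] {m : ℕ} (hm : 3 ≤ m) (a b : F)
    (hab : ∀ z₁ z₂ : F, z₁ ^ 2 + a * z₁ * z₂ + b * z₂ ^ 2 = 0 → z₁ = 0 ∧ z₂ = 0) :
    (polarBilin (QMinus m F a b)).Nondegenerate ∧
      7 ≤ Fintype.card ((Fin m ⊕ Fin m) ⊕ Fin 2) ∧
      Cfsg.gammaPOmega F ⇑(QMinus m F a b) = ⊤ := by
  obtain ⟨Q', hq', hQ', hn', h8'⟩ := Cfsg.Agent.Lib.Helper51.OAF.minus_data (F := F) hm a b hab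
  have e : Q' = QMinus m F a b := by
    apply DFunLike.coe_injective
    rw [hq', coe_QMinus]
  rw [← e]
  exact ⟨hQ', hn', Cfsg.Agent.Lib.Helper52.OA.gamma_eq_top Q' hQ' hn' h8'⟩

theorem minus_card (m : ℕ) : Fintype.card ((Fin m ⊕ Fin m) ⊕ Fin 2) = 2 * (m + 1) := by
  simp
  omega

/-- A form similar to a minus-type form by an invertible matrix is not split. -/
theorem not_split_tw (m : ℕ) (a b : F)
    (hab : ∀ z₁ z₂ : F, z₁ ^ 2 + a * z₁ * z₂ + b * z₂ ^ 2 = 0 → z₁ = 0 ∧ z₂ = 0)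
    (σ : F ≃+* F) (B : GL ((Fin m ⊕ Fin m) ⊕ Fin 2) F) (ν : Fˣ) :
    ¬ IsSplit (m + 1) σ (Cfsg.Agent.Lib.Helper53.LS.twForm (QMinus m F a b)
      (B : Matrix ((Fin m ⊕ Fin m) ⊕ Fin 2) ((Fin m ⊕ Fin m) ⊕ Fin 2) F) (ν : F)) := by
  intro hsp
  obtain ⟨W, hW, -⟩ := split_stable σ _ hsp
  have hts : ∀ x ∈ imageSubmodule
      (B : Matrix ((Fin m ⊕ Fin m) ⊕ Fin 2) ((Fin m ⊕ Fin m) ⊕ Fin 2) F) W,
      QMinus m F a b x = 0 := by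
    intro x hx
    obtain ⟨u, hu, rfl⟩ := (mem_imageSubmodule _ _ _).mp hx
    have h1 := hW.2 u hu
    rw [Cfsg.Agent.Lib.Helper53.LS.twForm_apply] at h1
    rcases mul_eq_zero.mp h1 with h2 | h2
    · exact absurd h2 ν.ne_zero
    · exact h2
  have h3 := Cfsg.Agent.Lib.Helper51.OAF.minus_bound a b hab m _ hts
  rw [finrank_imageSubmodule, hW.1] at h3
  omega

theorem tw_one (Q : QuadraticForm F (ι → F)) :
    Cfsg.Agent.Lib.Helper53.LS.twForm Q (((1 : GL ι F) : Matrix ι ι F)) (((1 : Fˣ) : F)) = Q := by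
  ext v
  rw [Cfsg.Agent.Lib.Helper53.LS.twForm_apply, Units.val_one, Units.val_one, Matrix.one_mulVec,
    one_mul]

theorem not_split_minus (m : ℕ) (a b : F)
    (hab : ∀ z₁ z₂ : F, z₁ ^ 2 + a * z₁ * z₂ + b * z₂ ^ 2 = 0 → z₁ = 0 ∧ z₂ = 0)
    (σ : F ≃+* F) : ¬ IsSplit (m + 1) σ (QMinus m F a b) := by
  have h := not_split_tw m a b hab σ 1 1
  rwa [tw_one] at h

/-- Lang's theorem for the similarity group of a minus-type form with rational coefficients. -/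
theorem lang_minus [Fintype F] {m : ℕ} (hm : 3 ≤ m) (a b : F)
    (hab : ∀ z₁ z₂ : F, z₁ ^ 2 + a * z₁ * z₂ + b * z₂ ^ 2 = 0 → z₁ = 0 ∧ z₂ = 0)
    (σ : F ≃+* F) (hσa : σ a = a) (hσb : σ b = b) (r : ℕ) (hr0 : 0 < r)
    (hσord : orderOf (σ : RingAut F) = r) (g : GL ((Fin m ⊕ Fin m) ⊕ Fin 2) F)
    (hg : g ∈ Cfsg.Geo.quadSimilarityGroup (F := F) ⇑(QMinus m F a b)) (c : Fˣ)
    (hN : ((tpow g σ r : GL ((Fin m ⊕ Fin m) ⊕ Fin 2) F) :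
        Matrix ((Fin m ⊕ Fin m) ⊕ Fin 2) ((Fin m ⊕ Fin m) ⊕ Fin 2) F)
      = (c : F) • (1 : Matrix ((Fin m ⊕ Fin m) ⊕ Fin 2) ((Fin m ⊕ Fin m) ⊕ Fin 2) F)) :
    ∃ (h : GL ((Fin m ⊕ Fin m) ⊕ Fin 2) F) (μ : Fˣ),
      h ∈ Cfsg.Geo.quadSimilarityGroup (F := F) ⇑(QMinus m F a b) ∧
      (g : Matrix ((Fin m ⊕ Fin m) ⊕ Fin 2) ((Fin m ⊕ Fin m) ⊕ Fin 2) F)
          * (h : Matrix ((Fin m ⊕ Fin m) ⊕ Fin 2) ((Fin m ⊕ Fin m) ⊕ Fin 2) F).map σ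
        = (μ : F) • (h : Matrix ((Fin m ⊕ Fin m) ⊕ Fin 2) ((Fin m ⊕ Fin m) ⊕ Fin 2) F) := by
  classical
  obtain ⟨hQ, -, -⟩ := minus_nondeg hm a b hab
  have hQσ : SigInv σ (QMinus m F a b) := sigInv_minus m a b σ hσa hσb
  obtain ⟨B, μ, ν, hB, hinv⟩ := Cfsg.Agent.Lib.Helper53.LS.lang_norm (QMinus m F a b)
    (hv_minus a b) σ hQσ r hr0 hσord g hg c hN
  obtain ⟨Q1, hQ1⟩ : ∃ Q1 : QuadraticForm F ((Fin m ⊕ Fin m) ⊕ Fin 2 → F),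
      Q1 = Cfsg.Agent.Lib.Helper53.LS.twForm (QMinus m F a b)
        (B : Matrix ((Fin m ⊕ Fin m) ⊕ Fin 2) ((Fin m ⊕ Fin m) ⊕ Fin 2) F) (ν : F) :=
    ⟨_, rfl⟩
  have hQ1app : ∀ v, Q1 v = (ν : F) * (QMinus m F a b)
      ((B : Matrix ((Fin m ⊕ Fin m) ⊕ Fin 2) ((Fin m ⊕ Fin m) ⊕ Fin 2) F) *ᵥ v) := by
    intro v
    rw [hQ1, Cfsg.Agent.Lib.Helper53.LS.twForm_apply]
  have hQ1σ : SigInv σ Q1 := by
    intro v
    rw [hQ1app, hQ1app]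
    exact hinv v
  have hBdet : IsUnit
      (B : Matrix ((Fin m ⊕ Fin m) ⊕ Fin 2) ((Fin m ⊕ Fin m) ⊕ Fin 2) F).det := by
    rw [← Matrix.isUnit_iff_isUnit_det]
    exact ⟨B, rfl⟩
  have hQ1nd : (polarBilin Q1).Nondegenerate := by
    rw [hQ1]
    exact Cfsg.Agent.Lib.Helper53.LS.twForm_nondeg _ hQ _ hBdet _ ν.ne_zero
  have he1 : IsEll m σ Q1 := (normal_form m (minus_card m) σ Q1 hQ1nd hQ1σ).resolve_left
    (hQ1 ▸ not_split_tw m a b hab σ B ν)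
  have he0 : IsEll m σ (QMinus m F a b) :=
    (normal_form m (minus_card m) σ _ hQ hQσ).resolve_left (not_split_minus m a b hab σ)
  obtain ⟨R, cR, hRσ, hR⟩ := ell_sim m σ Q1 (QMinus m F a b) he1 he0
  refine ⟨B * R, μ, ⟨ν⁻¹ * cR, fun v => ?_⟩, ?_⟩
  · have h1 := hR v
    rw [hQ1app, Matrix.mulVec_mulVec] at h1
    rw [Matrix.GeneralLinearGroup.coe_mul, Units.val_mul, Units.val_inv_eq_inv_val, mul_assoc,
      ← h1, ← mul_assoc, inv_mul_cancel₀ ν.ne_zero, one_mul]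
  · rw [Matrix.GeneralLinearGroup.coe_mul, Matrix.map_mul, ← Matrix.mul_assoc, hB, hRσ,
      Matrix.smul_mul]

/-- Two minus-type forms over a finite field are similar. -/
theorem minus_similar [Fintype F] {m : ℕ} (hm : 3 ≤ m) (a b a' b' : F)
    (hab : ∀ z₁ z₂ : F, z₁ ^ 2 + a * z₁ * z₂ + b * z₂ ^ 2 = 0 → z₁ = 0 ∧ z₂ = 0)
    (hab' : ∀ z₁ z₂ : F, z₁ ^ 2 + a' * z₁ * z₂ + b' * z₂ ^ 2 = 0 → z₁ = 0 ∧ z₂ = 0) :
    ∃ (L : GL ((Fin m ⊕ Fin m) ⊕ Fin 2) F) (c : Fˣ), ∀ v : (Fin m ⊕ Fin m) ⊕ Fin 2 → F,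
      (QMinus m F a' b')
        ((L : Matrix ((Fin m ⊕ Fin m) ⊕ Fin 2) ((Fin m ⊕ Fin m) ⊕ Fin 2) F) *ᵥ v)
        = (c : F) * (QMinus m F a b) v := by
  classical
  obtain ⟨hQ, -, -⟩ := minus_nondeg hm a b hab
  obtain ⟨hQ', -, -⟩ := minus_nondeg hm a' b' hab'
  have hs : ∀ Q : QuadraticForm F ((Fin m ⊕ Fin m) ⊕ Fin 2 → F),
      SigInv (RingEquiv.refl F) Q := fun Q v => rfl
  have he : IsEll m (RingEquiv.refl F) (QMinus m F a b) :=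
    (normal_form m (minus_card m) _ _ hQ (hs _)).resolve_left (not_split_minus m a b hab _)
  have he' : IsEll m (RingEquiv.refl F) (QMinus m F a' b') :=
    (normal_form m (minus_card m) _ _ hQ' (hs _)).resolve_left (not_split_minus m a' b' hab' _)
  obtain ⟨R, c, -, hR⟩ := ell_sim m (RingEquiv.refl F) _ _ he' he
  exact ⟨R, c, hR⟩


theorem sim_inv (Q Q' : (ι → F) → F) (L : GL ι F) (c0 : Fˣ)
    (hL : ∀ v : ι → F, Q' (mt(L) *ᵥ v) = (c0 : F) * Q v) :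
    ∀ v : ι → F, Q (mt(L⁻¹) *ᵥ v) = ((c0⁻¹ : Fˣ) : F) * Q' v := by
  intro v
  have h := hL (mt(L⁻¹) *ᵥ v)
  rw [Matrix.mulVec_mulVec, ← Units.val_mul, mul_inv_cancel, Units.val_one,
    Matrix.one_mulVec] at h
  rw [h, ← mul_assoc, ← Units.val_mul, inv_mul_cancel, Units.val_one, one_mul]

theorem sim_transport (Q Q' : (ι → F) → F) (L : GL ι F) (c0 : Fˣ)
    (hL : ∀ v : ι → F, Q' (mt(L) *ᵥ v) = (c0 : F) * Q v) (g : GL ι F)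
    (hg : g ∈ Cfsg.Geo.quadSimilarityGroup (F := F) Q) :
    L * g * L⁻¹ ∈ Cfsg.Geo.quadSimilarityGroup (F := F) Q' := by
  obtain ⟨c, hc⟩ := hg
  refine ⟨c, fun v => ?_⟩
  have h1 := sim_inv Q Q' L c0 hL v
  rw [Matrix.GeneralLinearGroup.coe_mul, Matrix.GeneralLinearGroup.coe_mul,
    ← Matrix.mulVec_mulVec, ← Matrix.mulVec_mulVec, hL, hc, h1, Units.val_inv_eq_inv_val]
  have := c0.ne_zero
  field_simp

theorem sim_transport_symm (Q Q' : (ι → F) → F) (L : GL ι F) (c0 : Fˣ)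
    (hL : ∀ v : ι → F, Q' (mt(L) *ᵥ v) = (c0 : F) * Q v) (g : GL ι F)
    (hg : g ∈ Cfsg.Geo.quadSimilarityGroup (F := F) Q') :
    L⁻¹ * g * L ∈ Cfsg.Geo.quadSimilarityGroup (F := F) Q := by
  have := sim_transport Q' Q L⁻¹ c0⁻¹ (sim_inv Q Q' L c0 hL) g hg
  rwa [inv_inv] at this

theorem map_mulVec_sigma (τ : F ≃+* F) (A : Matrix ι ι F) (v : ι → F) :
    (A.map τ) *ᵥ (fun i => τ (v i)) = fun i => τ ((A *ᵥ v) i) := by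
  funext i
  simp [Matrix.mulVec, dotProduct, map_sum, map_mul]

set_option maxHeartbeats 1600000 in
/-- The generic core of the minus-type coset conjugacy. -/
theorem minus_core [Fintype F] {p f : ℕ} [Fact p.Prime] (hF : Fintype.card F = p ^ f)
    (Q Q' : QuadraticForm F (ι → F)) (q q' : (ι → F) → F) (hq : ⇑Q = q) (hq' : ⇑Q' = q')
    (hQ : (polarBilin Q).Nondegenerate) (hQ' : (polarBilin Q').Nondegenerate)
    (hn : 7 ≤ Fintype.card ι)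
    (hγ : Cfsg.gammaPOmega F ⇑Q = ⊤) (hγ' : Cfsg.gammaPOmega F ⇑Q' = ⊤)
    (L : GL ι F) (c0 : Fˣ) (hL : ∀ v : ι → F, Q' (mt(L) *ᵥ v) = (c0 : F) * Q v)
    (ψ : Cfsg.POmega F q ≃* Cfsg.POmega F q')
    (σ : F ≃+* F) (hσ1 : σ ≠ RingEquiv.refl F) (hσQ' : SigInv σ Q')
    (x δ : MulAut (Cfsg.POmega F q))
    (hφ : Cfsg.IsFieldAutPOmegaOf q' σ ((ψ.symm.trans x).trans ψ))
    (hδ : δ ∈ Cfsg.pgoAut F q)
    {r : ℕ} (hr : r.Prime) (hxr : orderOf x = r) (hord : orderOf (δ * x) = r)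
    (hlang : ∀ (g : GL ι F), g ∈ Cfsg.Geo.quadSimilarityGroup (F := F) ⇑Q' → ∀ c : Fˣ,
      mt(tpow g σ r) = (c : F) • (1 : Matrix ι ι F) → orderOf (σ : RingAut F) = r →
      ∃ (h : GL ι F) (μ : Fˣ), h ∈ Cfsg.Geo.quadSimilarityGroup (F := F) ⇑Q' ∧
        mt(g) * (mt(h)).map σ = (μ : F) • mt(h))
    (w' : ι → F) (hw' : Q' w' ≠ 0) (hw'σ : ∀ i, σ (w' i) = w' i) :
    ∃ (h₂ : GL ι F) (hh₂ : h₂ ∈ Cfsg.Geo.quadSimilarityGroup (F := F) q) (w : ι → F)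
      (rw : GL ι F) (ζ : MulAut (Cfsg.POmega F q)),
      q w ≠ 0 ∧ mt(rw) = reflectionMatrix q w ∧ Ind q ζ rw (RingEquiv.refl F) ∧
      ζ * x = x * ζ ∧ δ * x = simAut q ⟨h₂, hh₂⟩ * x * (simAut q ⟨h₂, hh₂⟩)⁻¹ := by
  classical
  subst hq hq'
  obtain ⟨ρ, hρ, hker, -, -⟩ := core_data hF Q hQ hn hγ
  obtain ⟨ψ₀, h1, h2⟩ := Cfsg.Agent.Lib.Helper1.LMT.exists_transport ⇑Q ⇑Q' L c0 hL
  obtain ⟨β, hβ⟩ : ∃ β : MulAut (Cfsg.POmega F ⇑Q),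
      β = (ψ.trans ψ₀.symm : MulAut (Cfsg.POmega F ⇑Q)) := ⟨_, rfl⟩
  obtain ⟨Ψ, hΨ⟩ : ∃ Ψ : MulAut (Cfsg.POmega F ⇑Q) ≃* MulAut (Cfsg.POmega F ⇑Q'),
      Ψ = MulAut.congr ψ := ⟨_, rfl⟩
  -- transport of similarity automorphisms
  have htr : ∀ (g g' : GL ι F) (hg : g ∈ Cfsg.Geo.quadSimilarityGroup (F := F) ⇑Q)
      (hg' : g' ∈ Cfsg.Geo.quadSimilarityGroup (F := F) ⇑Q'), g' = L * g * L⁻¹ →
      Ψ (β⁻¹ * simAut ⇑Q ⟨g, hg⟩ * β) = simAut ⇑Q' ⟨g', hg'⟩ := by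
    intro g g' hg hg' e
    subst e
    rw [hΨ, hβ]
    exact congr_conj ψ ψ₀ _ _ (Cfsg.Agent.Lib.Helper1.LMT.transport_ind ⇑Q ⇑Q' L ψ₀ h1 h2 g _ _ (ind_of_sim _ g hg)
      (ind_of_sim _ _ hg'))
  -- normality of the image of the similarity group
  have hnorm : ∀ (α k : MulAut (Cfsg.POmega F ⇑Q)), k ∈ Cfsg.pgoAut F ⇑Q →
      α * k * α⁻¹ ∈ Cfsg.pgoAut F ⇑Q := by
    intro α k hk
    rw [← hker] at hk ⊢
    exact (MonoidHom.normal_ker ρ).conj_mem k hk α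
  have hrange : ∀ k ∈ Cfsg.pgoAut F ⇑Q, ∃ (g : GL ι F)
      (hg : g ∈ Cfsg.Geo.quadSimilarityGroup (F := F) ⇑Q), k = simAut ⇑Q ⟨g, hg⟩ := by
    intro k hk
    rw [pgoAut_eq] at hk
    obtain ⟨g, hg⟩ := hk
    exact ⟨g.1, g.2, hg.symm⟩
  -- the transported field automorphism
  obtain ⟨φ, hφdef⟩ : ∃ φ : MulAut (Cfsg.POmega F ⇑Q'), φ = Ψ x := ⟨_, rfl⟩
  have hφ' : Cfsg.IsFieldAutPOmegaOf ⇑Q' σ φ := by
    have e : φ = (ψ.symm.trans x).trans ψ := by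
      rw [hφdef, hΨ]
      ext t
      rfl
    rw [e]
    exact hφ
  have hφI : Ind ⇑Q' φ 1 σ := by
    refine ⟨⟨1, fun v => ?_⟩, ?_⟩
    · rw [Units.val_one, Units.val_one, Matrix.one_mulVec, one_mul]
      exact hσQ' v
    · intro s s' hs
      apply hφ'
      simpa using hs
  have hφr : orderOf φ = r := by rw [hφdef, MulEquiv.orderOf_eq, hxr]
  -- the transported δ
  obtain ⟨g₁, hg₁, hδ₁⟩ := hrange _ (hnorm β δ hδ)
  have hδeq : δ = β⁻¹ * simAut ⇑Q ⟨g₁, hg₁⟩ * β := by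
    rw [← hδ₁]
    group
  have hg₁' := sim_transport ⇑Q ⇑Q' L c0 hL g₁ hg₁
  have hΨδ : Ψ δ = simAut ⇑Q' ⟨L * g₁ * L⁻¹, hg₁'⟩ := by
    rw [hδeq]
    exact htr g₁ _ hg₁ hg₁' rfl
  have hΨδmem : Ψ δ ∈ Cfsg.pgoAut F ⇑Q' := by
    rw [hΨδ, pgoAut_eq]
    exact ⟨_, rfl⟩
  have hord' : orderOf (Ψ δ * φ) = r := by
    rw [hφdef, ← map_mul, MulEquiv.orderOf_eq, hord]
  obtain ⟨h', hh', hconj'⟩ := lin_core hF Q' hQ' hn hγ' φ (Ψ δ) σ hσ1 hφI hΨδmem hr hφr hord'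
    hlang
  -- pull back the conjugating similarity
  have hz : L⁻¹ * h' * L ∈ Cfsg.Geo.quadSimilarityGroup (F := F) ⇑Q :=
    sim_transport_symm ⇑Q ⇑Q' L c0 hL h' hh'
  obtain ⟨η, hηdef⟩ : ∃ η : MulAut (Cfsg.POmega F ⇑Q),
      η = β⁻¹ * simAut ⇑Q ⟨L⁻¹ * h' * L, hz⟩ * β := ⟨_, rfl⟩
  have hΨη : Ψ η = simAut ⇑Q' ⟨h', hh'⟩ := by
    rw [hηdef]
    exact htr _ _ hz hh' (by group)
  have hfin : δ * x = η * x * η⁻¹ := by
    apply Ψ.injective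
    rw [map_mul, map_mul, map_mul, map_inv, hΨη, ← hφdef]
    exact hconj'
  have hηmem : η ∈ Cfsg.pgoAut F ⇑Q := by
    rw [hηdef]
    have := hnorm β⁻¹ (simAut ⇑Q ⟨L⁻¹ * h' * L, hz⟩) (by rw [pgoAut_eq]; exact ⟨_, rfl⟩)
    rwa [inv_inv] at this
  obtain ⟨h₂, hh₂, hη₂⟩ := hrange η hηmem
  -- the reflection
  obtain ⟨t', ht'def⟩ : ∃ t' : GL ι F,
      t' = ((Cfsg.Agent.Lib.Helper51.refl Q' w' hw' : Cfsg.isometryGroup F ⇑Q') : GL ι F) :=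
    ⟨_, rfl⟩
  have ht'm : mt(t') = reflectionMatrix ⇑Q' w' := by
    rw [ht'def, Cfsg.Agent.Lib.Helper51.coe_refl]
  have ht' : t' ∈ Cfsg.Geo.quadSimilarityGroup (F := F) ⇑Q' := by
    rw [ht'def]
    exact isometry_le_similarity ⇑Q' (Subtype.property _)
  have ht'σ : Matrix.GeneralLinearGroup.map (σ : F →+* F) t' = t' := by
    apply Units.ext
    rw [coe_map_eq, ht'm]
    exact refl_sigma_fixed Q' σ hσQ' w' hw'σ
  obtain ⟨ζ', hζ'def⟩ : ∃ ζ' : MulAut (Cfsg.POmega F ⇑Q'), ζ' = simAut ⇑Q' ⟨t', ht'⟩ :=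
    ⟨_, rfl⟩
  have hζ'I : Ind ⇑Q' ζ' t' (RingEquiv.refl F) := by
    rw [hζ'def]
    exact ind_of_sim _ t' ht'
  have hcomm' : ζ' * φ = φ * ζ' := by
    have e1 : Ind ⇑Q' (ζ' * φ) t' σ := by
      have := ind_mul_refl ⇑Q' hζ'I hφI
      rwa [mul_one] at this
    have e2 : Ind ⇑Q' (φ * ζ') t' σ := by
      refine ind_congr ⇑Q' (ind_mul ⇑Q' hφI hζ'I) ?_ ?_
      · rw [one_mul, ht'σ]
      · intro y
        rfl
    exact ind_eq ⇑Q' e1 e2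
  have hz2 : L⁻¹ * t' * L ∈ Cfsg.Geo.quadSimilarityGroup (F := F) ⇑Q :=
    sim_transport_symm ⇑Q ⇑Q' L c0 hL t' ht'
  obtain ⟨ζ, hζdef⟩ : ∃ ζ : MulAut (Cfsg.POmega F ⇑Q),
      ζ = β⁻¹ * simAut ⇑Q ⟨L⁻¹ * t' * L, hz2⟩ * β := ⟨_, rfl⟩
  have hΨζ : Ψ ζ = ζ' := by
    rw [hζdef, hζ'def]
    exact htr _ _ hz2 ht' (by group)
  have hcomm : ζ * x = x * ζ := by
    apply Ψ.injective
    rw [map_mul, map_mul, hΨζ, ← hφdef]
    exact hcomm'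
  -- ζ is induced by a reflection
  obtain ⟨b', τ', hβ'⟩ := exists_ind ⇑Q hγ β⁻¹
  have hζI0 := ind_conj_lin ⇑Q hβ' (ind_of_sim ⇑Q _ hz2)
  rw [inv_inv, ← hζdef] at hζI0
  obtain ⟨M, hMdef⟩ : ∃ M : GL ι F,
      M = b' * Matrix.GeneralLinearGroup.map (τ' : F →+* F) L⁻¹ := ⟨_, rfl⟩
  obtain ⟨cb, hcb⟩ := hβ'.1
  have hLinv := sim_inv ⇑Q ⇑Q' L c0 hL
  obtain ⟨cM, hcM⟩ : ∃ cM : Fˣ, (cM : F) = (cb : F) * τ' ((c0⁻¹ : Fˣ) : F) :=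
    ⟨cb * Units.map (τ' : F →* F) c0⁻¹, by simp⟩
  have hM : ∀ v : ι → F, Q (mt(M) *ᵥ (fun i => τ' (v i))) = (cM : F) * τ' (Q' v) := by
    intro v
    rw [hMdef, Matrix.GeneralLinearGroup.coe_mul, coe_map_eq, ← Matrix.mulVec_mulVec,
      map_mulVec_sigma, hcb, hLinv, map_mul, hcM, mul_assoc]
  obtain ⟨hw, hrefl⟩ := Cfsg.Agent.Lib.Helper77.LMR.refl_conj Q Q' M τ' cM hM w' hw'
  refine ⟨h₂, hh₂, mt(M) *ᵥ (fun i => τ' (w' i)),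
    b' * Matrix.GeneralLinearGroup.map (τ' : F →+* F) (L⁻¹ * t' * L) * b'⁻¹, ζ, hw, ?_, hζI0,
    hcomm, ?_⟩
  · rw [← hrefl, ← ht'm, ← coe_map_eq, ← Matrix.GeneralLinearGroup.coe_mul,
      ← Matrix.GeneralLinearGroup.coe_mul, hMdef]
    congr 1
    rw [map_mul, map_mul, _root_.mul_inv_rev, ← map_inv, inv_inv]
    group
  · rw [hfin, hη₂]


theorem conj_absorb {A : Type*} [Group A] (η ζ x : A) (h : ζ * x = x * ζ) :
    η * x * η⁻¹ = (η * ζ) * x * (η * ζ)⁻¹ := by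
  have h2 : ζ * x * ζ⁻¹ = x := by
    rw [h]
    group
  calc η * x * η⁻¹ = η * (ζ * x * ζ⁻¹) * η⁻¹ := by rw [h2]
    _ = _ := by group

theorem r2737 {F : Type*} [Field F] [Fintype F] {m : ℕ} (hm : 3 ≤ m) (a b : F) (hab : (∀ z₁ z₂ : F, z₁ ^ 2 + a * z₁ * z₂ + b * z₂ ^ 2 = 0 → z₁ = 0 ∧ z₂ = 0)) (x δ : MulAut (Cfsg.POmega F (Cfsg.quadFormMinus m F a b))) (hx : Cfsg.IsFieldAutClassPOmegaMinus m x) {r : ℕ} (hr : r.Prime) (hxr : orderOf x = r) (hδ : δ ∈ Cfsg.inndiagPOmegaMinus m F a b) :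
    orderOf (δ * x) = r ↔ Cfsg.IsConjUnder (Cfsg.inndiagPOmegaMinus m F a b) x (δ * x) := by
  classical
  constructor
  swap
  · rintro ⟨h, -, e⟩
    rw [e, orderOf_conj_eq, hxr]
  intro hord
  obtain ⟨a', b', ψ, σ, hab', hσ1, hσa, hσb, hφ⟩ := hx
  obtain ⟨p, _, n, hp, hF⟩ := FiniteField.card' F
  have : Fact p.Prime := ⟨hp⟩
  obtain ⟨hQ, hn, hγ⟩ := minus_nondeg hm a b hab
  obtain ⟨hQ', -, hγ'⟩ := minus_nondeg hm a' b' hab'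
  obtain ⟨L, c0, hL⟩ := minus_similar hm a b a' b' hab hab'
  have hδp : δ ∈ Cfsg.pgoAut F (Cfsg.quadFormMinus m F a b) := by
    revert hδ
    unfold Cfsg.inndiagPOmegaMinus Cfsg.pgoAut Cfsg.autSubgroupOf
    intro hδ
    refine Subgroup.closure_mono ?_ hδ
    rintro β ⟨g, hg, -, hI⟩
    exact ⟨g, hg, hI⟩
  obtain ⟨w', hw'def⟩ : ∃ w' : (Fin m ⊕ Fin m) ⊕ Fin 2 → F,
      w' = Pi.single (Sum.inr 0) 1 := ⟨_, rfl⟩
  have hw' : (QMinus m F a' b') w' ≠ 0 := by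
    rw [coe_QMinus, hw'def]
    simp [Cfsg.quadFormMinus]
  have hw'σ : ∀ i, σ (w' i) = w' i := by
    intro i
    rw [hw'def]
    simp only [Pi.single_apply]
    split_ifs <;> simp
  obtain ⟨h₂, hh₂, w, rw, ζ, hw, hrw, hζI, hcomm, hfin⟩ := minus_core hF (QMinus m F a b)
    (QMinus m F a' b') (Cfsg.quadFormMinus m F a b) (Cfsg.quadFormMinus m F a' b')
    (coe_QMinus _ _ _ _) (coe_QMinus _ _ _ _) hQ hQ' hn hγ hγ' L c0 hL ψ σ hσ1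
    (sigInv_minus m a' b' σ hσa hσb) x δ hφ hδp hr hxr hord
    (fun g hg c hN hσord => lang_minus hm a' b' hab' σ hσa hσb r hr.pos hσord g hg c hN)
    w' hw' hw'σ
  have hrwmem : rw ∈ Cfsg.Geo.quadSimilarityGroup (F := F) (Cfsg.quadFormMinus m F a b) := by
    obtain ⟨c, hc⟩ := hζI.1
    exact ⟨c, fun v => by simpa using hc v⟩
  rcases Cfsg.Agent.Lib.Helper88.LMF.minus_fix m a b hab
    (fun K _ _ Q hH g h hg hh Pg Ph => pres_of_not_not (by omega) Q hH g h hg hh Pg Ph)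
    (fun K _ _ Q hH v hv => refl_not_pres (by omega) Q hH v hv) h₂ rw hh₂ w hw hrw with hP | hP
  · refine ⟨simAut _ ⟨h₂, hh₂⟩, ?_, hfin⟩
    exact Subgroup.subset_closure ⟨h₂, hh₂, hP, (ind_of_sim _ h₂ hh₂).2⟩
  · refine ⟨simAut _ ⟨h₂, hh₂⟩ * ζ, ?_, ?_⟩
    · exact Subgroup.subset_closure ⟨h₂ * rw, Subgroup.mul_mem _ hh₂ hrwmem, hP,
        (ind_mul_refl _ (ind_of_sim _ h₂ hh₂) hζI).2⟩
    · rw [hfin]
      exact conj_absorb _ ζ x hcomm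

end Assembly

end Cfsg.Agent.Lib.Helper52.LMMain
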