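import Mathlib
import Cfsg.Agent.Lib.Helper67.OUAL4

/-!
# Abstract lemmas for outer automorphism groups of the shape `T × C_f`

* `prod_of_central`: `K / N ≅ T`, `A / K` cyclic of order `f` generated by the image of `ζ`,
  `ζ ^ f ∈ N`, and `ζ` centralises `K` modulo `N`: then `A / N ≅ T × C_f`;
* `induced_aut`: the automorphism induced on the image of a surjection with stable kernel;
* `out_d8_cyclic`: `K / N` dihedral of order eight and the generator `φ` fixes a non-central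
  involution of `K / N`: then `A / N ≅ D₈ × C_f`, for every `f`.
-/

set_option autoImplicit false

namespace Cfsg.Agent.Lib.Helper52.OutAbs

open Cfsg.Agent.Lib.Helper67.OUPieces

/-- the direct product lemma -/
theorem prod_of_central {A R T : Type*} [Group A] [Finite A] [Group R] [Group T]
    (N : Subgroup A) [N.Normal] (ρ : A →* R) (K : Subgroup A) (hK : ρ.ker = K) (f : ℕ)
    (hf : 1 ≤ f) (hR : Nat.card R = f) (hN : N ≤ K)
    (ψ : ↥K →* T) (hψ : Function.Surjective ψ) (hker : ψ.ker = N.subgroupOf K)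
    (ζ : A) (hζ : ∀ r : R, r ∈ Subgroup.zpowers (ρ ζ)) (hζf : ζ ^ f ∈ N)
    (hcen : ∀ k ∈ K, ζ * k * ζ⁻¹ * k⁻¹ ∈ N) :
    Nonempty (A ⧸ N ≃* T × Multiplicative (ZMod f)) := by
  classical
  have hKn : K.Normal := hK ▸ MonoidHom.normal_ker ρ
  let π : A →* A ⧸ N := QuotientGroup.mk' N
  have hπ : Function.Surjective π := QuotientGroup.mk'_surjective N
  let D : Subgroup (A ⧸ N) := K.map π
  have hDn : D.Normal := Subgroup.Normal.map hKn π hπ
  let πK : ↥K →* ↥D := π.subgroupMap K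
  have hπK : Function.Surjective πK := π.subgroupMap_surjective K
  have hkerπK : πK.ker = ψ.ker := by
    rw [hker]
    show (π.subgroupMap K).ker = _
    rw [Subgroup.ker_subgroupMap, QuotientGroup.ker_mk']
  let θ : ↥D ≃* T :=
    (QuotientGroup.quotientKerEquivOfSurjective πK hπK).symm.trans
      ((QuotientGroup.quotientMulEquivOfEq hkerπK).trans
        (QuotientGroup.quotientKerEquivOfSurjective ψ hψ))
  have hsurj : Function.Surjective ρ := by
    intro r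
    obtain ⟨k, hk⟩ := Subgroup.mem_zpowers_iff.mp (hζ r)
    exact ⟨ζ ^ k, by rw [map_zpow, hk]⟩
  have hNker : N ≤ ρ.ker := hK ▸ hN
  let ρ' : A ⧸ N →* R := QuotientGroup.lift N ρ hNker
  have hρ' : Function.Surjective ρ' := by
    intro r
    obtain ⟨a, rfl⟩ := hsurj r
    exact ⟨π a, rfl⟩
  have hkerρ' : ρ'.ker = D := by
    show (QuotientGroup.lift N ρ hNker).ker = K.map π
    rw [QuotientGroup.ker_lift, hK]
  have hindex : D.index = f := by
    rw [← hkerρ', Subgroup.index_ker, MonoidHom.range_eq_top.2 hρ', Subgroup.card_top, hR]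
  -- the central element
  obtain ⟨z, hz⟩ : ∃ z : A ⧸ N, z = π ζ := ⟨_, rfl⟩
  have hρz : ρ' z = ρ ζ := by rw [hz]; rfl
  have hzf : z ^ f = 1 := by
    rw [hz, ← map_pow]
    exact (QuotientGroup.eq_one_iff _).mpr hζf
  have hRfin : Finite R := Nat.finite_of_card_ne_zero (by rw [hR]; omega)
  have hordρ : orderOf (ρ' z) = f := by
    rw [hρz, ← hR]
    exact orderOf_eq_card_of_forall_mem_zpowers hζ
  have hord : orderOf z = f := by
    have h2 : orderOf (ρ' z) ∣ orderOf z := orderOf_map_dvd ρ' z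
    have h3 : orderOf z ∣ f := orderOf_dvd_of_pow_eq_one hzf
    rw [hordρ] at h2
    exact Nat.dvd_antisymm h3 h2
  obtain ⟨C, hC⟩ : ∃ C : Subgroup (A ⧸ N), C = Subgroup.zpowers z := ⟨_, rfl⟩
  have hcardC : Nat.card C = f := by
    rw [hC, Nat.card_zpowers, hord]
  have hCcyc : IsCyclic ↥C := by
    rw [hC]
    infer_instance
  let ζ' : Multiplicative (ZMod f) ≃* ↥C := hcardC ▸ zmodCyclicMulEquiv hCcyc
  have hdisj : Disjoint D C := by
    rw [Subgroup.disjoint_def]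
    intro x hxD hxC
    rw [hC] at hxC
    obtain ⟨k, rfl⟩ := Subgroup.mem_zpowers_iff.mp hxC
    rw [← hkerρ', MonoidHom.mem_ker, map_zpow] at hxD
    have h2 : (f : ℤ) ∣ k := by
      rw [← hordρ]
      exact orderOf_dvd_iff_zpow_eq_one.mpr hxD
    obtain ⟨j, rfl⟩ := h2
    rw [zpow_mul, zpow_natCast, hzf, one_zpow]
  have hcompl : Subgroup.IsComplement' D C := by
    apply Subgroup.isComplement'_of_card_mul_and_disjoint _ hdisj
    rw [hcardC, ← hindex]
    exact D.card_mul_index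
  have hzcomm : ∀ d ∈ D, z * d = d * z := by
    rintro _ ⟨k, hk, rfl⟩
    have h1 : π (ζ * k * ζ⁻¹ * k⁻¹) = 1 := (QuotientGroup.eq_one_iff _).mpr (hcen k hk)
    rw [map_mul, map_mul, map_mul, map_inv, map_inv, ← hz] at h1
    calc z * π k = z * π k * z⁻¹ * (π k)⁻¹ * π k * z := by group
      _ = π k * z := by rw [h1, one_mul]
  have hcomm : ∀ c ∈ C, ∀ d ∈ D, c * d = d * c := by
    intro c hc d hd
    rw [hC] at hc
    obtain ⟨k, rfl⟩ := Subgroup.mem_zpowers_iff.mp hc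
    have h1 : Commute z d := hzcomm d hd
    exact (h1.zpow_left k)
  let μ : ↥D × ↥C →* A ⧸ N :=
    { toFun := fun x => (x.1 : A ⧸ N) * (x.2 : A ⧸ N)
      map_one' := by simp
      map_mul' := by
        rintro ⟨d₁, c₁⟩ ⟨d₂, c₂⟩
        show ((d₁ * d₂ : ↥D) : A ⧸ N) * ((c₁ * c₂ : ↥C) : A ⧸ N)
          = (d₁ : A ⧸ N) * (c₁ : A ⧸ N) * ((d₂ : A ⧸ N) * (c₂ : A ⧸ N))
        rw [Subgroup.coe_mul, Subgroup.coe_mul]
        have h := hcomm c₁ c₁.2 d₂ d₂.2
        calc (d₁ : A ⧸ N) * d₂ * (c₁ * c₂) = d₁ * (d₂ * c₁) * c₂ := by group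
          _ = d₁ * (c₁ * d₂) * c₂ := by rw [h]
          _ = _ := by group }
  have hμ : Function.Bijective μ := hcompl
  let e : ↥D × ↥C ≃* A ⧸ N := MulEquiv.ofBijective μ hμ
  exact ⟨e.symm.trans (MulEquiv.prodCongr θ ζ'.symm)⟩

/-- the automorphism induced on the image of a surjection with stable kernel -/
theorem induced_aut {K T : Type*} [Group K] [Group T] (ψ : K →* T) (hψ : Function.Surjective ψ)
    (c : MulAut K) (hc : ∀ k, ψ k = 1 ↔ ψ (c k) = 1) :
    ∃ β : MulAut T, ∀ k, β (ψ k) = ψ (c k) := by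
  have he : ψ.ker.map (c : K ≃* K).toMonoidHom = ψ.ker := by
    ext k
    constructor
    · rintro ⟨k', hk', rfl⟩
      exact MonoidHom.mem_ker.mpr ((hc k').mp (MonoidHom.mem_ker.mp hk'))
    · intro hk
      refine ⟨c.symm k, ?_, ?_⟩
      · rw [SetLike.mem_coe, MonoidHom.mem_ker, hc]
        have : c (c.symm k) = k := c.apply_symm_apply k
        rw [this]
        exact MonoidHom.mem_ker.mp hk
      · exact c.apply_symm_apply k
  let q := QuotientGroup.quotientKerEquivOfSurjective ψ hψ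
  refine ⟨q.symm.trans ((QuotientGroup.congr ψ.ker ψ.ker c he).trans q), fun k => ?_⟩
  have h1 : q.symm (ψ k) = (QuotientGroup.mk k : K ⧸ ψ.ker) := by
    rw [MulEquiv.symm_apply_eq]
    rfl
  show q ((QuotientGroup.congr ψ.ker ψ.ker c he) (q.symm (ψ k))) = ψ (c k)
  rw [h1]
  rfl

set_option maxRecDepth 100000 in
/-- an automorphism of the dihedral group of order eight fixing a non-central involution `s`
is the identity or the conjugation by `s` -/
theorem phiD_fix : ∀ a b s : DihedralGroup 4, (∀ x y, phiD a b x = phiD a b y → x = y) →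
    phiD a b s = s → s * s = 1 → (∃ c, s * c ≠ c * s) →
    (∀ x, phiD a b x = x) ∨ (∀ x, phiD a b x = s * x * s⁻¹) := by
  decide +kernel

/-- `K / N` dihedral of order eight, `f` even, `φ` fixes a non-central involution of `K / N`:
a generator of `A / K` centralising `K / N` with `f`-th power in `N` -/
theorem exists_central_d8 {A R : Type*} [Group A] [Group R] (N : Subgroup A) [N.Normal]
    (ρ : A →* R) (K : Subgroup A) (hK : ρ.ker = K) (f : ℕ) (hfe : Even f) (hN : N ≤ K)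
    (ψ : ↥K →* DihedralGroup 4) (hψ : Function.Surjective ψ) (hker : ψ.ker = N.subgroupOf K)
    (φ : A) (hφf : φ ^ f ∈ N)
    (a c : A) (ha : a ∈ K) (hc : c ∈ K) (haa : a * a ∈ N) (hφa : φ * a * φ⁻¹ * a⁻¹ ∈ N)
    (hac : a * c * a⁻¹ * c⁻¹ ∉ N) :
    ∃ ζ : A, ρ ζ = ρ φ ∧ ζ ^ f ∈ N ∧ ∀ k ∈ K, ζ * k * ζ⁻¹ * k⁻¹ ∈ N := by
  classical
  have hKn : K.Normal := hK ▸ MonoidHom.normal_ker ρ
  have hkerN : ∀ k : ↥K, ψ k = 1 ↔ (k : A) ∈ N := by
    intro k
    rw [← MonoidHom.mem_ker, hker, Subgroup.mem_subgroupOf]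
  obtain ⟨cφ, hcφ⟩ : ∃ cφ : MulAut ↥K, cφ = MulAut.conjNormal φ := ⟨_, rfl⟩
  have hcφv : ∀ k : ↥K, ((cφ k : ↥K) : A) = φ * k * φ⁻¹ := by
    intro k
    rw [hcφ]
    exact MulAut.conjNormal_apply φ k
  have hstab : ∀ k : ↥K, ψ k = 1 ↔ ψ (cφ k) = 1 := by
    intro k
    rw [hkerN, hkerN, hcφv]
    constructor
    · intro h
      exact (inferInstance : N.Normal).conj_mem _ h φ
    · intro h
      have h1 := (inferInstance : N.Normal).conj_mem _ h φ⁻¹
      have e : φ⁻¹ * (φ * (k : A) * φ⁻¹) * φ⁻¹⁻¹ = (k : A) := by group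
      rw [e] at h1
      exact h1
  obtain ⟨β, hβ⟩ := induced_aut ψ hψ cφ hstab
  -- two elements with the same image
  have heq : ∀ k k' : ↥K, (k : A) * (k' : A)⁻¹ ∈ N → ψ k = ψ k' := by
    intro k k' h
    have h1 : ψ (k * k'⁻¹) = 1 := by
      rw [hkerN]
      exact h
    rw [map_mul, map_inv, mul_inv_eq_one] at h1
    exact h1
  obtain ⟨s, hs⟩ : ∃ s : DihedralGroup 4, s = ψ ⟨a, ha⟩ := ⟨_, rfl⟩
  have hβs : β s = s := by
    rw [hs, hβ]
    apply heq
    rw [hcφv]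
    exact hφa
  have hss : s * s = 1 := by
    rw [hs, ← map_mul, hkerN]
    exact haa
  have hsc : ∃ c₀, s * c₀ ≠ c₀ * s := by
    refine ⟨ψ ⟨c, hc⟩, fun h => hac ?_⟩
    have h1 : ψ (⟨a, ha⟩ * ⟨c, hc⟩ * ⟨a, ha⟩⁻¹ * ⟨c, hc⟩⁻¹) = 1 := by
      simp only [map_mul, map_inv]
      rw [← hs, h]
      group
    exact (hkerN _).mp h1
  have hinj : ∀ x y, phiD (β (DihedralGroup.r 1)) (β (DihedralGroup.sr 0)) x
      = phiD (β (DihedralGroup.r 1)) (β (DihedralGroup.sr 0)) y → x = y := by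
    intro x y hxy
    rw [← aut_eq_phiD, ← aut_eq_phiD] at hxy
    exact β.injective hxy
  have hfix : phiD (β (DihedralGroup.r 1)) (β (DihedralGroup.sr 0)) s = s := by
    rw [← aut_eq_phiD]
    exact hβs
  rcases phiD_fix _ _ s hinj hfix hss hsc with h1 | h1
  · refine ⟨φ, rfl, hφf, fun k hk => ?_⟩
    have h2 : ψ (cφ ⟨k, hk⟩ * ⟨k, hk⟩⁻¹) = 1 := by
      rw [map_mul, map_inv, ← hβ, aut_eq_phiD, h1, mul_inv_cancel]
    have h3 := (hkerN _).mp h2
    rw [Subgroup.coe_mul, hcφv] at h3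
    exact h3
  · have haK : ρ a = 1 := by
      rw [← MonoidHom.mem_ker, hK]
      exact ha
    refine ⟨a⁻¹ * φ, by rw [map_mul, map_inv, haK, inv_one, one_mul], ?_, fun k hk => ?_⟩
    · rw [← QuotientGroup.eq_one_iff]
      have hcm : Commute (QuotientGroup.mk a⁻¹ : A ⧸ N) (QuotientGroup.mk φ) := by
        have h2 : (QuotientGroup.mk (φ * a * φ⁻¹ * a⁻¹) : A ⧸ N) = 1 :=
          (QuotientGroup.eq_one_iff _).mpr hφa
        simp only [QuotientGroup.mk_mul, QuotientGroup.mk_inv] at h2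
        show (QuotientGroup.mk a⁻¹ : A ⧸ N) * QuotientGroup.mk φ
          = QuotientGroup.mk φ * QuotientGroup.mk a⁻¹
        rw [QuotientGroup.mk_inv]
        calc (QuotientGroup.mk a : A ⧸ N)⁻¹ * QuotientGroup.mk φ
            = (QuotientGroup.mk a : A ⧸ N)⁻¹ * ((QuotientGroup.mk φ : A ⧸ N) * QuotientGroup.mk a
              * (QuotientGroup.mk φ)⁻¹ * (QuotientGroup.mk a)⁻¹)⁻¹ * QuotientGroup.mk φ := by
              rw [h2, inv_one, mul_one]
          _ = QuotientGroup.mk φ * (QuotientGroup.mk a)⁻¹ := by group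
      have ha2 : (QuotientGroup.mk a⁻¹ : A ⧸ N) ^ 2 = 1 := by
        rw [← QuotientGroup.mk_pow, QuotientGroup.eq_one_iff]
        have e : a⁻¹ ^ 2 = (a * a)⁻¹ := by group
        rw [e]
        exact inv_mem haa
      have hφ1 : (QuotientGroup.mk φ : A ⧸ N) ^ f = 1 := by
        rw [← QuotientGroup.mk_pow, QuotientGroup.eq_one_iff]
        exact hφf
      obtain ⟨j, hj⟩ := hfe
      rw [QuotientGroup.mk_pow, QuotientGroup.mk_mul, hcm.mul_pow, hφ1, mul_one, hj, ← two_mul,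
        pow_mul, ha2, one_pow]
    · have h2 : ψ (⟨a, ha⟩⁻¹ * cφ ⟨k, hk⟩ * ⟨a, ha⟩ * ⟨k, hk⟩⁻¹) = 1 := by
        simp only [map_mul, map_inv]
        rw [← hβ, aut_eq_phiD, h1, ← hs]
        group
      have h3 := (hkerN _).mp h2
      rw [Subgroup.coe_mul, Subgroup.coe_mul, Subgroup.coe_mul, hcφv] at h3
      have e : (a⁻¹ * φ) * k * (a⁻¹ * φ)⁻¹ * k⁻¹ = a⁻¹ * (φ * k * φ⁻¹) * a * k⁻¹ := by group
      rw [e]
      exact h3

/-- `K / N` dihedral of order eight and the generator `φ` of `A / K` fixes a non-central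
involution of `K / N`: then `A / N ≅ D₈ × C_f`, for every `f` -/
theorem out_d8_cyclic {A R : Type*} [Group A] [Finite A] [Group R] (N : Subgroup A) [N.Normal]
    (ρ : A →* R) (K : Subgroup A) (hK : ρ.ker = K) (f : ℕ) (hf : 1 ≤ f)
    (hR : Nat.card R = f) (hcyc : IsCyclic R) (hN : N ≤ K)
    (ψ : ↥K →* DihedralGroup 4) (hψ : Function.Surjective ψ) (hker : ψ.ker = N.subgroupOf K)
    (φ : A) (hφ : ∀ r : R, r ∈ Subgroup.zpowers (ρ φ)) (hφf : φ ^ f ∈ N)
    (a c : A) (ha : a ∈ K) (hc : c ∈ K) (haa : a * a ∈ N) (hφa : φ * a * φ⁻¹ * a⁻¹ ∈ N)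
    (hac : a * c * a⁻¹ * c⁻¹ ∉ N) :
    Nonempty (A ⧸ N ≃* DihedralGroup 4 × Multiplicative (ZMod f)) := by
  rcases Nat.even_or_odd f with hfe | hfo
  · obtain ⟨ζ, hζρ, hζf, hζc⟩ := exists_central_d8 N ρ K hK f hfe hN ψ hψ hker φ hφf a c ha hc
      haa hφa hac
    exact prod_of_central N ρ K hK f hf hR hN ψ hψ hker ζ (by rw [hζρ]; exact hφ) hζf hζc
  · have hsurj : Function.Surjective ρ := by
      intro r
      obtain ⟨k, hk⟩ := Subgroup.mem_zpowers_iff.mp (hφ r)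
      exact ⟨φ ^ k, by rw [map_zpow, hk]⟩
    exact out_dihedral_cyclic N ρ K hK f hfo hR hcyc hsurj hN ψ hψ hker

/-- `K / N` a four-group centralised by the generator `φ` of `A / K`: `A / N ≅ C₂ × C₂ × C_f` -/
theorem out_klein_prod {A R : Type*} [Group A] [Finite A] [Group R] (N : Subgroup A) [N.Normal]
    (ρ : A →* R) (K : Subgroup A) (hK : ρ.ker = K) (f : ℕ) (hf : 1 ≤ f)
    (hR : Nat.card R = f) (hN : N ≤ K)
    (ψ : ↥K →* Multiplicative (ZMod 2 × ZMod 2)) (hψ : Function.Surjective ψ)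
    (hker : ψ.ker = N.subgroupOf K)
    (φ : A) (hφ : ∀ r : R, r ∈ Subgroup.zpowers (ρ φ)) (hφf : φ ^ f ∈ N)
    (hcen : ∀ k ∈ K, φ * k * φ⁻¹ * k⁻¹ ∈ N) :
    Nonempty (A ⧸ N ≃* Multiplicative (ZMod 2 × ZMod 2 × ZMod f)) := by
  obtain ⟨e⟩ := prod_of_central N ρ K hK f hf hR hN ψ hψ hker φ hφ hφf hcen
  let e2 : Multiplicative (ZMod 2 × ZMod 2) × Multiplicative (ZMod f) ≃*
      Multiplicative (ZMod 2 × ZMod 2 × ZMod f) :=
    (MulEquiv.prodMultiplicative (ZMod 2 × ZMod 2) (ZMod f)).symm.trans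
      (AddEquiv.toMultiplicative (AddEquiv.prodAssoc : (ZMod 2 × ZMod 2) × ZMod f ≃+ _))
  exact ⟨e.trans e2⟩

end Cfsg.Agent.Lib.Helper52.OutAbs
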