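import Mathlib
import Cfsg.Agent.Lib.Helper52.OutMain
import Cfsg.Agent.Lib.Helper16.OUM4

/-!
# `Out(PΩ⁻_{2m+2}(q))` for odd `q`
-/

set_option autoImplicit false

namespace Cfsg.Agent.Lib.Helper52.OUMain

open Module QuadraticMap
open Cfsg.Agent.Lib.Helper51 Cfsg.Agent.Lib.Helper52 Cfsg.Agent.Lib.Helper52.OA
open Cfsg.Agent.Lib.Helper52.OU

variable {ι : Type} [Fintype ι] [DecidableEq ι] {F : Type*} [Field F]

theorem minus_comm_pso [Fintype F] (hodd : Odd (Fintype.card F)) {m : ℕ} (hm : 3 ≤ m) (a b : F)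
    (hab : ∀ z₁ z₂ : F, z₁ ^ 2 + a * z₁ * z₂ + b * z₂ ^ 2 = 0 → z₁ = 0 ∧ z₂ = 0)
    (β : MulAut (Cfsg.POmega F (Cfsg.quadFormMinus m F a b)))
    (g : GL ((Fin m ⊕ Fin m) ⊕ Fin 2) F) (σ : F ≃+* F)
    (hβ : Ind (Cfsg.quadFormMinus m F a b) β g σ)
    (k : MulAut (Cfsg.POmega F (Cfsg.quadFormMinus m F a b)))
    (hk : k ∈ Cfsg.pgoAut F (Cfsg.quadFormMinus m F a b)) :
    β * k * β⁻¹ * k⁻¹ ∈ Cfsg.psoAut F (Cfsg.quadFormMinus m F a b) :=
  Cfsg.Agent.Lib.Helper16.OUM4.minus_comm_pso hodd hm a b hab β g σ hβ k hk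

theorem r2606 {F : Type*} [Field F] [Fintype F] {p f m : ℕ} [Fact p.Prime] (hf : 1 ≤ f) (hF : Fintype.card F = p ^ f) (hp : p ≠ 2) (hm : 4 ≤ m) (a b : F) (hab : ∀ z₁ z₂ : F, z₁ ^ 2 + a * z₁ * z₂ + b * z₂ ^ 2 = 0 → z₁ = 0 ∧ z₂ = 0) : if p ^ f % 4 = 3 ∧ Odd m then Nonempty (Cfsg.Out (Cfsg.POmega F (Cfsg.quadFormMinus (m - 1) F a b)) ≃* DihedralGroup 4 × Multiplicative (ZMod f)) else Nonempty (Cfsg.Out (Cfsg.POmega F (Cfsg.quadFormMinus (m - 1) F a b)) ≃* Multiplicative (ZMod 2 × ZMod (2 * f))) := by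
  have hm' : 3 ≤ m - 1 := by omega
  have hpodd : Odd p := (Fact.out : p.Prime).odd_of_ne_two hp
  have hodd : Odd (Fintype.card F) := by rw [hF]; exact hpodd.pow
  obtain ⟨ρ, φ, hker, hcard, hcyc, hgen, hφf, hInn, hcI, hex, hscal⟩ :=
    minus_final_setup hf hF hm' a b hab
  obtain ⟨h8, h4⟩ := Cfsg.Agent.S2728.result hodd hm' a b hab
  have hcond : (p ^ f % 4 = 3 ∧ Odd m) ↔ (Even (m - 1) ∧ Fintype.card F % 4 = 3) := by
    rw [hF, Nat.odd_iff, Nat.even_iff]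
    constructor
    · rintro ⟨h1, h2⟩
      exact ⟨by omega, h1⟩
    · rintro ⟨h1, h2⟩
      exact ⟨h2, by omega⟩
  split_ifs with hc
  · obtain ⟨ψ, hψ, hkψ⟩ := h8 (hcond.mp hc)
    have hfodd : Odd f := by
      by_contra hne
      rw [Nat.not_odd_iff_even] at hne
      obtain ⟨k, rfl⟩ := hne
      rw [pow_add] at hc
      exact sq_mod_four_ne_three _ hc.1
    exact out_dihedral_cyclic _ ρ _ hker f hfodd hcard hcyc (surj_of_gen ρ φ hgen) hInn ψ hψ hkψ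
  · have hc' : ¬ (Even (m - 1) ∧ Fintype.card F % 4 = 3) := fun h => hc (hcond.mpr h)
    obtain ⟨ψ, hψ, hkψ⟩ := h4 hc'
    have hidx : (Cfsg.Inn (Cfsg.POmega F (Cfsg.quadFormMinus (m - 1) F a b))).relIndex
        (Cfsg.pgoAut F (Cfsg.quadFormMinus (m - 1) F a b)) = 4 := by
      rw [relIndex_of_hom _ _ ψ hψ hkψ, Nat.card_eq_fintype_card]
      rfl
    have hpso : Cfsg.psoAut F (Cfsg.quadFormMinus (m - 1) F a b)
        ≤ Cfsg.Inn (Cfsg.POmega F (Cfsg.quadFormMinus (m - 1) F a b)) :=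
      Subgroup.relIndex_eq_one.mp ((Cfsg.Agent.S2727.result hodd hm' a b hab).2 hc')
    refine out_klein_cyclic _ ρ _ hker f hf hcard hInn hidx ?_ ?_ φ hgen hφf
    · intro k hk
      have h1 : (⟨k, hk⟩ : ↥(Cfsg.pgoAut F (Cfsg.quadFormMinus (m - 1) F a b))) * ⟨k, hk⟩
          ∈ ψ.ker := by
        rw [MonoidHom.mem_ker, map_mul]
        have : ∀ x : Multiplicative (ZMod 2 × ZMod 2), x * x = 1 := by decide
        exact this _
      rw [hkψ] at h1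
      exact Subgroup.mem_subgroupOf.mp h1
    · intro β k hk
      obtain ⟨g, σ, hβ⟩ := hex β
      exact hpso (minus_comm_pso hodd hm' a b hab β g σ hβ k hk)

end Cfsg.Agent.Lib.Helper52.OUMain
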