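import Cfsg.Agent.Lib.Helper52.PN4Defs

/-!
# Project PN4 (helper52, for S2715), piece ADM: an automorphism of `D₄(F)` that rescales every
root element is admissible (preserves `U` and `V`)
-/

set_option autoImplicit false
set_option linter.unusedSectionVars false
set_option linter.unusedVariables false

namespace Cfsg.Agent.Lib.Helper52.PN4

open Cfsg Cfsg.Lie Matrix Cfsg.Agent.Lib.Helper99 Cfsg.Agent.Lib.Helper99.D4
open Cfsg.Agent.Lib.Helper27.PslnOut Cfsg.Agent.Lib.Helper27.DynOut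
  Cfsg.Agent.Lib.Helper27.ChevDyn Cfsg.Agent.Lib.Helper27.ChevDynI
  Cfsg.Agent.Lib.Helper27.ChevDynW Cfsg.Agent.Lib.Helper27.ChevDynExt
  Cfsg.Agent.Lib.Helper27.ChevDynStr Cfsg.Agent.Lib.Helper27.ChevDynD4
open Cfsg.Agent.Lib.Helper54

variable {F : Type*} [Field F]

theorem x_eq_xm_nat (r : ℕ) (hr : r < 24) (a : F) : chevD4.x F r a = xm ⟨r, hr⟩ a := by
  have h : r < chevD4.nroots := hr
  unfold ChevalleyDatum.x
  exact dif_pos h

theorem adm_key (P : ℕ → Prop) (hP : ∀ r, P r → r < 24)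
    (B : MulAut ↥(chevD4.group F)) (c : Fin 24 → Fˣ)
    (hB : ∀ (r : Fin 24) (t : F) (g : ↥(chevD4.group F)),
      (g.1.1 : Matrix I28 I28 F) = xm r t →
      ((B g).1.1 : Matrix I28 I28 F) = xm r (((c r : Fˣ) : F) * t))
    (x : GL chevD4.Idx F)
    (hx : x ∈ Subgroup.closure {g : GL chevD4.Idx F | ∃ (r : ℕ) (t : F), P r ∧
      (g : Matrix chevD4.Idx chevD4.Idx F) = chevD4.x F r t}) :
    ∃ hG : x ∈ chevD4.group F, (B (⟨x, hG⟩ : ↥(chevD4.group F))).1 ∈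
      Subgroup.closure {g : GL chevD4.Idx F | ∃ (r : ℕ) (t : F), P r ∧
        (g : Matrix chevD4.Idx chevD4.Idx F) = chevD4.x F r t} := by
  induction hx using Subgroup.closure_induction with
  | mem y hy =>
    obtain ⟨r, t, hPr, hy⟩ := hy
    have hr := hP r hPr
    have hG : y ∈ chevD4.group F :=
      Subgroup.subset_closure ⟨⟨r, hr⟩, t, by rw [hy, x_eq_xm_nat r hr]; rfl⟩
    refine ⟨hG, Subgroup.subset_closure ⟨r, ((c ⟨r, hr⟩ : Fˣ) : F) * t, hPr, ?_⟩⟩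
    have h1 := hB ⟨r, hr⟩ t ⟨y, hG⟩ (by rw [← x_eq_xm_nat r hr]; exact hy)
    rw [x_eq_xm_nat r hr]
    exact h1
  | one =>
    refine ⟨Subgroup.one_mem _, ?_⟩
    have h2 : B (⟨1, Subgroup.one_mem _⟩ : ↥(chevD4.group F)) = 1 := map_one B
    rw [h2]
    exact Subgroup.one_mem _
  | mul y z _ _ hy hz =>
    obtain ⟨hGy, hy⟩ := hy
    obtain ⟨hGz, hz⟩ := hz
    refine ⟨Subgroup.mul_mem _ hGy hGz, ?_⟩
    have h2 : B (⟨y * z, Subgroup.mul_mem _ hGy hGz⟩ : ↥(chevD4.group F)) =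
        B ⟨y, hGy⟩ * B ⟨z, hGz⟩ := map_mul B ⟨y, hGy⟩ ⟨z, hGz⟩
    rw [h2]
    exact Subgroup.mul_mem _ hy hz
  | inv y _ hy =>
    obtain ⟨hGy, hy⟩ := hy
    refine ⟨Subgroup.inv_mem _ hGy, ?_⟩
    have h2 : B (⟨y⁻¹, Subgroup.inv_mem _ hGy⟩ : ↥(chevD4.group F)) = (B ⟨y, hGy⟩)⁻¹ :=
      map_inv B ⟨y, hGy⟩
    rw [h2]
    exact Subgroup.inv_mem _ hy

theorem root_act_inv (k : Fin 24 → Fˣ) (A : MulAut ↥(chevD4.group F))
    (hA : ∀ (r : Fin 24) (t : F) (g : ↥(chevD4.group F)),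
      (g.1.1 : Matrix I28 I28 F) = xm r t →
      ((A g).1.1 : Matrix I28 I28 F) = xm r (((k r : Fˣ) : F) * t))
    (r : Fin 24) (t : F) (g : ↥(chevD4.group F))
    (hg : (g.1.1 : Matrix I28 I28 F) = xm r t) :
    ((A⁻¹ g).1.1 : Matrix I28 I28 F) = xm r ((((k r)⁻¹ : Fˣ) : F) * t) := by
  have hval : ((xg chevD4 r.val ((((k r)⁻¹ : Fˣ) : F) * t) : ↥(chevD4.group F)).1.1 :
      Matrix I28 I28 F) = xm r ((((k r)⁻¹ : Fˣ) : F) * t) := by
    have h1 := xg_val (F := F) chevD4 hD4 r.val ((((k r)⁻¹ : Fˣ) : F) * t)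
    rw [x_eq_xm_nat r.val r.isLt] at h1
    exact h1
  have h1 := hA r _ _ hval
  have h2 : A (xg chevD4 r.val ((((k r)⁻¹ : Fˣ) : F) * t)) = g := by
    apply Subtype.ext
    apply Units.ext
    rw [h1, hg, ← mul_assoc, Units.mul_inv, one_mul]
  rw [← h2, MulAut.inv_apply_self]
  exact hval

theorem adm_of_root_act [Fintype F] (p : ℕ) [Fact p.Prime] [CharP F p] (k : Fin 24 → Fˣ)
    (A : MulAut ↥(chevD4.group F))
    (hA : ∀ (r : Fin 24) (t : F) (g : ↥(chevD4.group F)),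
      (g.1.1 : Matrix I28 I28 F) = xm r t →
      ((A g).1.1 : Matrix I28 I28 F) = xm r (((k r : Fˣ) : F) * t)) :
    (okD (F := F) chevD4 hD4 p).Adm A := by
  have hAi := root_act_inv k A hA
  constructor
  · intro g
    constructor
    · intro h
      obtain ⟨hG, h2⟩ := adm_key chevD4.IsPosRoot (fun r hr => hr.1) A⁻¹ (fun r => (k r)⁻¹) hAi
        (A g).1 h
      have h3 : (⟨(A g).1, hG⟩ : ↥(chevD4.group F)) = A g := rfl
      rw [h3, MulAut.inv_apply_self] at h2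
      exact h2
    · intro h
      obtain ⟨hG, h2⟩ := adm_key chevD4.IsPosRoot (fun r hr => hr.1) A k hA g.1 h
      exact h2
  · intro g
    constructor
    · intro h
      obtain ⟨hG, h2⟩ := adm_key chevD4.IsNegRoot (fun r hr => hr.1) A⁻¹ (fun r => (k r)⁻¹) hAi
        (A g).1 h
      have h3 : (⟨(A g).1, hG⟩ : ↥(chevD4.group F)) = A g := rfl
      rw [h3, MulAut.inv_apply_self] at h2
      exact h2
    · intro h
      obtain ⟨hG, h2⟩ := adm_key chevD4.IsNegRoot (fun r hr => hr.1) A k hA g.1 h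
      exact h2

end Cfsg.Agent.Lib.Helper52.PN4
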