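import Cfsg.Agent.Lib.Helper52.PN4Defs

/-!
# Project PN4 (helper52, for S2715), piece PSI: the identification `PΩ⁺₈(F) ≃ D₄(F)`
-/

set_option autoImplicit false
set_option linter.unusedSectionVars false
set_option linter.unusedVariables false

namespace Cfsg.Agent.Lib.Helper52.PN4

open Cfsg Cfsg.Lie Matrix Cfsg.Agent.Lib.Helper99 Cfsg.Agent.Lib.Helper99.D4

variable {F : Type*} [Field F]

theorem o8Equiv_mulVec (g : O8 F) (v : Fin 4 ⊕ Fin 4 → F) :
    (((o8Equiv g : ↥(isometryGroup F (quadFormPlus 4 F))) : GL (Fin 4 ⊕ Fin 4) F) :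
      Matrix (Fin 4 ⊕ Fin 4) (Fin 4 ⊕ Fin 4) F) *ᵥ v = psi8.symm (toM8 g *ᵥ psi8 v) := by
  obtain ⟨u, rfl⟩ := (isoEquiv (LinearEquiv.refl F (Fin 8 → F)) (Q8 (F := F)) (Q8 (F := F))
    (fun _ => rfl)).surjective g
  have h1 : o8Equiv (isoEquiv (LinearEquiv.refl F (Fin 8 → F)) (Q8 (F := F)) (Q8 (F := F))
      (fun _ => rfl) u) = isoEquiv psi8 (quadFormPlus 4 F) (Q8 (F := F)) Q8_psi8 u := by
    unfold o8Equiv
    rw [MulEquiv.trans_apply, MulEquiv.symm_apply_apply]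
  rw [h1]
  have h2 : (((isoEquiv psi8 (quadFormPlus 4 F) (Q8 (F := F)) Q8_psi8 u :
      ↥(isometryGroup F (quadFormPlus 4 F))) : GL (Fin 4 ⊕ Fin 4) F) :
      Matrix (Fin 4 ⊕ Fin 4) (Fin 4 ⊕ Fin 4) F) =
      endEquivMat psi8 ((u : (Module.End F (Fin 8 → F))ˣ) : Module.End F (Fin 8 → F)) := rfl
  have h3 : toM8 (isoEquiv (LinearEquiv.refl F (Fin 8 → F)) (Q8 (F := F)) (Q8 (F := F))
      (fun _ => rfl) u) = endEquivMat (LinearEquiv.refl F (Fin 8 → F))
        ((u : (Module.End F (Fin 8 → F))ˣ) : Module.End F (Fin 8 → F)) := rfl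
  rw [h2, h3, endEquivMat_mulVec, endEquivMat_mulVec]
  rfl

theorem exists_psi :
    ∃ (Ψ : POmega F (quadFormPlus 4 F) ≃* ↥(chevD4.group F))
      (ρ : ↥(Omega F (quadFormPlus 4 F)) ≃* ↥(commutator (O8 F))),
      (∀ s : ↥(Omega F (quadFormPlus 4 F)), Ψ (QuotientGroup.mk s) = fG (ρ s)) ∧
      (∀ (s : ↥(Omega F (quadFormPlus 4 F))) (v : Fin 4 ⊕ Fin 4 → F),
        (((s : ↥(isometryGroup F (quadFormPlus 4 F))) : GL (Fin 4 ⊕ Fin 4) F) :
          Matrix (Fin 4 ⊕ Fin 4) (Fin 4 ⊕ Fin 4) F) *ᵥ v =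
          psi8.symm (toM8 (ρ s).1 *ᵥ psi8 v)) := by
  have hmap : (commutator (O8 F)).map (o8Equiv (F := F)).toMonoidHom =
      commutator ↥(isometryGroup F (quadFormPlus 4 F)) := by
    rw [commutator_def, commutator_def, Subgroup.map_commutator,
      Subgroup.map_top_of_surjective _ (o8Equiv (F := F)).surjective]
  obtain ⟨e', he'⟩ : ∃ e' : ↥(commutator (O8 F)) ≃* ↥(Omega F (quadFormPlus 4 F)),
      ∀ ω, ((e' ω : ↥(Omega F (quadFormPlus 4 F))) : ↥(isometryGroup F (quadFormPlus 4 F))) =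
        o8Equiv ω.1 :=
    ⟨((o8Equiv (F := F)).subgroupMap (commutator (O8 F))).trans (MulEquiv.subgroupCongr hmap),
      fun ω => rfl⟩
  have hsurj : Function.Surjective ((fG (F := F)).comp e'.symm.toMonoidHom) :=
    fun y => by
      obtain ⟨ω, rfl⟩ := fG_surjective y
      exact ⟨e' ω, by simp⟩
  have hker : ((fG (F := F)).comp e'.symm.toMonoidHom).ker =
      Subgroup.center ↥(Omega F (quadFormPlus 4 F)) := by
    ext x
    rw [MonoidHom.mem_ker]
    show fG (e'.symm x) = 1 ↔ _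
    rw [← MonoidHom.mem_ker, ker_fG, Subgroup.mem_center_iff, Subgroup.mem_center_iff]
    constructor
    · intro h y
      apply e'.symm.injective
      rw [map_mul, map_mul]
      exact h (e'.symm y)
    · intro h z
      obtain ⟨y, rfl⟩ := e'.symm.surjective z
      rw [← map_mul, ← map_mul, h y]
  refine ⟨(QuotientGroup.quotientMulEquivOfEq hker.symm).trans
    (QuotientGroup.quotientKerEquivOfSurjective _ hsurj), e'.symm, fun s => rfl, fun s v => ?_⟩
  have h1 := he' (e'.symm s)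
  rw [MulEquiv.apply_symm_apply] at h1
  rw [h1]
  exact o8Equiv_mulVec _ v

end Cfsg.Agent.Lib.Helper52.PN4
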