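import Cfsg.Agent.Lib.Helper52.PN4Defs

/-!
# Project PN4 (helper52, for S2715), piece ROOT: conjugation of the root elements by `D8 d`
-/

set_option autoImplicit false
set_option linter.unusedSectionVars false
set_option linter.unusedVariables false

namespace Cfsg.Agent.Lib.Helper52.PN4

open Cfsg Cfsg.Lie Matrix Cfsg.Agent.Lib.Helper99 Cfsg.Agent.Lib.Helper99.D4

variable {F : Type*} [Field F]

theorem dl_mul_pr (d : Fin 4 → Fˣ) (a : Fin 8) : dl d a * dl d (pr a) = mu d := by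
  have e0 : dl d 0 = d 0 * d 1 * d 2 := rfl
  have e1 : dl d 1 = d 1 * d 2 := rfl
  have e2 : dl d 2 = d 2 := rfl
  have e3 : dl d 3 = 1 := rfl
  have e4 : dl d 4 = (d 3)⁻¹ * (d 0)⁻¹ * (d 1)⁻¹ := rfl
  have e5 : dl d 5 = (d 3)⁻¹ * (d 1)⁻¹ := rfl
  have e6 : dl d 6 = (d 3)⁻¹ := rfl
  have e7 : dl d 7 = d 2 * (d 3)⁻¹ := rfl
  have p0 : pr 0 = 4 := rfl
  have p1 : pr 1 = 5 := rfl
  have p2 : pr 2 = 6 := rfl
  have p3 : pr 3 = 7 := rfl
  have p4 : pr 4 = 0 := rfl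
  have p5 : pr 5 = 1 := rfl
  have p6 : pr 6 = 2 := rfl
  have p7 : pr 7 = 3 := rfl
  have h0 := (d 0).ne_zero
  have h1 := (d 1).ne_zero
  have h2 := (d 2).ne_zero
  have h3 := (d 3).ne_zero
  unfold mu
  fin_cases a
  · show dl d 0 * dl d (pr 0) = _
    rw [p0, e0, e4]
    apply Units.ext
    simp only [Units.val_mul, Units.val_inv_eq_inv_val, Units.val_one]
    field_simp
  · show dl d 1 * dl d (pr 1) = _
    rw [p1, e1, e5]
    apply Units.ext
    simp only [Units.val_mul, Units.val_inv_eq_inv_val, Units.val_one]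
    field_simp
  · show dl d 2 * dl d (pr 2) = _
    rw [p2, e2, e6]
  · show dl d 3 * dl d (pr 3) = _
    rw [p3, e3, e7, one_mul]
  · show dl d 4 * dl d (pr 4) = _
    rw [p4, e0, e4]
    apply Units.ext
    simp only [Units.val_mul, Units.val_inv_eq_inv_val, Units.val_one]
    field_simp
  · show dl d 5 * dl d (pr 5) = _
    rw [p5, e1, e5]
    apply Units.ext
    simp only [Units.val_mul, Units.val_inv_eq_inv_val, Units.val_one]
    field_simp
  · show dl d 6 * dl d (pr 6) = _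
    rw [p6, e2, e6, mul_comm]
  · show dl d 7 * dl d (pr 7) = _
    rw [p7, e3, e7, mul_one]

theorem D8_Xr (d : Fin 4 → Fˣ) (a b : Fin 8) (t : F) :
    D8 d * Xr a b t * D8i d = Xr a b (((dl d a * (dl d b)⁻¹ : Fˣ) : F) * t) := by
  have key : dl d (pr b) * (dl d (pr a))⁻¹ = dl d a * (dl d b)⁻¹ := by
    have h := (dl_mul_pr d a).trans (dl_mul_pr d b).symm
    rw [mul_inv_eq_iff_eq_mul, mul_right_comm, h, mul_inv_cancel_comm]
  ext c p
  unfold D8 D8i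
  rw [Matrix.mul_diagonal, Matrix.diagonal_mul, Xr_apply, Xr_apply]
  have hA : ((dl d c : Fˣ) : F) * (if c = p then (1 : F) else 0) * (((dl d p)⁻¹ : Fˣ) : F) =
      if c = p then (1 : F) else 0 := by
    split_ifs with h
    · subst h
      rw [mul_one, ← Units.val_mul, mul_inv_cancel, Units.val_one]
    · rw [mul_zero, zero_mul]
  have hB : ((dl d c : Fˣ) : F) * (if c = a ∧ p = b then (1 : F) else 0) *
      (((dl d p)⁻¹ : Fˣ) : F) =
      ((dl d a * (dl d b)⁻¹ : Fˣ) : F) * (if c = a ∧ p = b then (1 : F) else 0) := by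
    split_ifs with h
    · obtain ⟨rfl, rfl⟩ := h
      rw [mul_one, mul_one, Units.val_mul]
    · rw [mul_zero, zero_mul, mul_zero]
  have hC : ((dl d c : Fˣ) : F) * (if c = pr b ∧ p = pr a then (1 : F) else 0) *
      (((dl d p)⁻¹ : Fˣ) : F) =
      ((dl d a * (dl d b)⁻¹ : Fˣ) : F) * (if c = pr b ∧ p = pr a then (1 : F) else 0) := by
    split_ifs with h
    · obtain ⟨rfl, rfl⟩ := h
      rw [mul_one, mul_one, ← key, Units.val_mul]
    · rw [mul_zero, zero_mul, mul_zero]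
  linear_combination hA + t * hB - t * hC

theorem xs_conj (d : Fin 4 → Fˣ) (r : Fin 24) (t : F) :
    D8 d * xs r t * D8i d = xs r (((rat d r : Fˣ) : F) * t) := by
  fin_cases r
  · exact D8_Xr d 4 1 t
  · exact D8_Xr d 4 2 t
  · exact D8_Xr d 3 0 t
  · exact D8_Xr d 4 3 t
  · exact (D8_Xr d 2 0 (-t)).trans (by rw [mul_neg]; rfl)
  · exact D8_Xr d 1 0 t
  · exact (D8_Xr d 5 2 (-t)).trans (by rw [mul_neg]; rfl)
  · exact (D8_Xr d 3 1 (-t)).trans (by rw [mul_neg]; rfl)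
  · exact (D8_Xr d 5 3 (-t)).trans (by rw [mul_neg]; rfl)
  · exact D8_Xr d 2 1 t
  · exact D8_Xr d 3 2 t
  · exact D8_Xr d 6 3 t
  · exact (D8_Xr d 2 7 (-t)).trans (by rw [mul_neg]; rfl)
  · exact D8_Xr d 2 3 t
  · exact D8_Xr d 1 2 t
  · exact D8_Xr d 1 7 t
  · exact (D8_Xr d 1 3 (-t)).trans (by rw [mul_neg]; rfl)
  · exact D8_Xr d 1 6 t
  · exact D8_Xr d 0 1 t
  · exact (D8_Xr d 0 2 (-t)).trans (by rw [mul_neg]; rfl)
  · exact (D8_Xr d 0 7 (-t)).trans (by rw [mul_neg]; rfl)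
  · exact D8_Xr d 0 3 t
  · exact (D8_Xr d 0 6 (-t)).trans (by rw [mul_neg]; rfl)
  · exact (D8_Xr d 0 5 (-t)).trans (by rw [mul_neg]; rfl)

theorem rat_simple (d : Fin 4 → Fˣ) :
    rat d 18 = d 0 ∧ rat d 14 = d 1 ∧ rat d 13 = d 2 ∧ rat d 12 = d 3 := by
  refine ⟨?_, ?_, ?_, ?_⟩
  · show d 0 * d 1 * d 2 * (d 1 * d 2)⁻¹ = d 0
    rw [mul_assoc (d 0) (d 1) (d 2), mul_inv_cancel_right]
  · show d 1 * d 2 * (d 2)⁻¹ = d 1
    rw [mul_inv_cancel_right]
  · show d 2 * (1 : Fˣ)⁻¹ = d 2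
    rw [inv_one, mul_one]
  · show d 2 * (d 2 * (d 3)⁻¹)⁻¹ = d 3
    rw [_root_.mul_inv_rev, inv_inv, mul_comm (d 3), ← mul_assoc, mul_inv_cancel, one_mul]

end Cfsg.Agent.Lib.Helper52.PN4
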