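import Cfsg.Agent.Lib.Helper52.PN4Defs

/-!
# Project PN4 (helper52, for S2715), piece SIM: the diagonal similarity `dsim d`
-/

set_option autoImplicit false
set_option linter.unusedSectionVars false
set_option linter.unusedVariables false

namespace Cfsg.Agent.Lib.Helper52.PN4

open Cfsg Cfsg.Lie Matrix Cfsg.Agent.Lib.Helper99 Cfsg.Agent.Lib.Helper99.D4
open Cfsg.Agent.Lib.Helper54

variable {F : Type*} [Field F]

theorem dsim_mem (d : Fin 4 → Fˣ) :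
    dsim d ∈ Geo.quadSimilarityGroup (F := F) (quadFormPlus 4 F) := by
  refine ⟨mu d, fun v => ?_⟩
  show quadFormPlus 4 F ((diagonal fun j => ((dl d (e8.symm j) : Fˣ) : F)) *ᵥ v) = _
  unfold quadFormPlus
  simp only [mulVec_diagonal, Fin.sum_univ_four]
  have hl0 : e8.symm (Sum.inl (0 : Fin 4)) = (0 : Fin 8) := rfl
  have hl1 : e8.symm (Sum.inl (1 : Fin 4)) = (1 : Fin 8) := rfl
  have hl2 : e8.symm (Sum.inl (2 : Fin 4)) = (2 : Fin 8) := rfl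
  have hl3 : e8.symm (Sum.inl (3 : Fin 4)) = (3 : Fin 8) := rfl
  have hr0 : e8.symm (Sum.inr (0 : Fin 4)) = (4 : Fin 8) := rfl
  have hr1 : e8.symm (Sum.inr (1 : Fin 4)) = (5 : Fin 8) := rfl
  have hr2 : e8.symm (Sum.inr (2 : Fin 4)) = (6 : Fin 8) := rfl
  have hr3 : e8.symm (Sum.inr (3 : Fin 4)) = (7 : Fin 8) := rfl
  rw [hl0, hl1, hl2, hl3, hr0, hr1, hr2, hr3]
  have e0 : dl d 0 = d 0 * d 1 * d 2 := rfl
  have e1 : dl d 1 = d 1 * d 2 := rfl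
  have e2 : dl d 2 = d 2 := rfl
  have e3 : dl d 3 = 1 := rfl
  have e4 : dl d 4 = (d 3)⁻¹ * (d 0)⁻¹ * (d 1)⁻¹ := rfl
  have e5 : dl d 5 = (d 3)⁻¹ * (d 1)⁻¹ := rfl
  have e6 : dl d 6 = (d 3)⁻¹ := rfl
  have e7 : dl d 7 = d 2 * (d 3)⁻¹ := rfl
  rw [e0, e1, e2, e3, e4, e5, e6, e7]
  unfold mu
  simp only [Units.val_mul, Units.val_inv_eq_inv_val, Units.val_one]
  have h0 := (d 0).ne_zero
  have h1 := (d 1).ne_zero
  have h2 := (d 2).ne_zero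
  have h3 := (d 3).ne_zero
  field_simp

theorem dsim_mulVec (d : Fin 4 → Fˣ) (v : Fin 4 ⊕ Fin 4 → F) :
    ((dsim d : GL (Fin 4 ⊕ Fin 4) F) : Matrix (Fin 4 ⊕ Fin 4) (Fin 4 ⊕ Fin 4) F) *ᵥ v =
      psi8.symm (D8 d *ᵥ psi8 v) ∧
    (((dsim d)⁻¹ : GL (Fin 4 ⊕ Fin 4) F) : Matrix (Fin 4 ⊕ Fin 4) (Fin 4 ⊕ Fin 4) F) *ᵥ v =
      psi8.symm (D8i d *ᵥ psi8 v) := by
  constructor
  · funext j
    show ((diagonal fun j => ((dl d (e8.symm j) : Fˣ) : F)) *ᵥ v) j =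
      (D8 d *ᵥ psi8 v) (e8.symm j)
    unfold D8
    rw [mulVec_diagonal, mulVec_diagonal, psi8_apply, Equiv.apply_symm_apply]
  · funext j
    show ((diagonal fun j => (((dl d (e8.symm j))⁻¹ : Fˣ) : F)) *ᵥ v) j =
      (D8i d *ᵥ psi8 v) (e8.symm j)
    unfold D8i
    rw [mulVec_diagonal, mulVec_diagonal, psi8_apply, Equiv.apply_symm_apply]

theorem rho_simConj (d : Fin 4 → Fˣ)
    (ρ : ↥(Omega F (quadFormPlus 4 F)) ≃* ↥(commutator (O8 F)))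
    (hρ : ∀ (s : ↥(Omega F (quadFormPlus 4 F))) (v : Fin 4 ⊕ Fin 4 → F),
      (((s : ↥(isometryGroup F (quadFormPlus 4 F))) : GL (Fin 4 ⊕ Fin 4) F) :
        Matrix (Fin 4 ⊕ Fin 4) (Fin 4 ⊕ Fin 4) F) *ᵥ v =
        psi8.symm (toM8 (ρ s).1 *ᵥ psi8 v))
    (s : ↥(Omega F (quadFormPlus 4 F))) :
    toM8 (ρ (simConj (quadFormPlus 4 F) ⟨dsim d, dsim_mem d⟩ s)).1 =
      D8 d * toM8 (ρ s).1 * D8i d := by
  apply Matrix.toLin'.injective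
  apply LinearMap.ext
  intro w
  rw [Matrix.toLin'_apply, Matrix.toLin'_apply]
  obtain ⟨v, rfl⟩ := (psi8 (F := F)).surjective w
  have h1 := hρ (simConj (quadFormPlus 4 F) ⟨dsim d, dsim_mem d⟩ s) v
  rw [simConj_coe] at h1
  have h2 : (((dsim d : GL (Fin 4 ⊕ Fin 4) F) *
      ((s : ↥(isometryGroup F (quadFormPlus 4 F))) : GL (Fin 4 ⊕ Fin 4) F) *
      (dsim d : GL (Fin 4 ⊕ Fin 4) F)⁻¹ : GL (Fin 4 ⊕ Fin 4) F) :
        Matrix (Fin 4 ⊕ Fin 4) (Fin 4 ⊕ Fin 4) F) *ᵥ v =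
      psi8.symm ((D8 d * toM8 (ρ s).1 * D8i d) *ᵥ psi8 v) := by
    rw [Units.val_mul, Units.val_mul, ← Matrix.mulVec_mulVec, ← Matrix.mulVec_mulVec,
      (dsim_mulVec d v).2, hρ s, LinearEquiv.apply_symm_apply, (dsim_mulVec d _).1,
      LinearEquiv.apply_symm_apply, Matrix.mulVec_mulVec, Matrix.mulVec_mulVec]
  have h3 := h1.symm.trans h2
  exact (psi8 (F := F)).symm.injective h3

end Cfsg.Agent.Lib.Helper52.PN4
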