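import Cfsg.Agent.Lib.Helper52.PN4Defs
import Cfsg.Agent.Lib.Helper42.PN4ABS
import Cfsg.Agent.Lib.Helper32.PN4CONJ
import Cfsg.Agent.Lib.Helper52.PN4ROOT
import Cfsg.Agent.Lib.Helper52.PN4ADM
import Cfsg.Agent.Lib.Helper52.PN4PSI
import Cfsg.Agent.Lib.Helper52.PN4SIM
import Cfsg.Agent.Lib.Helper75.PN4INN
import Cfsg.Agent.Lib.Helper66.PN4FIN
import Cfsg.Agent.Lib.Helper97.PN4CARDR

/-!
# Project PN4 (helper52, for S2715): assembly — `Inndiag(PΩ⁺₈(q))` is normal in `Aut(PΩ⁺₈(q))`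
-/

set_option autoImplicit false
set_option linter.unusedSectionVars false
set_option linter.unusedVariables false

namespace Cfsg.Agent.Lib.Helper52.PN4

open Cfsg Cfsg.Lie Matrix Cfsg.Agent.Lib.Helper99 Cfsg.Agent.Lib.Helper99.D4
open Cfsg.Agent.Lib.Helper27.PslnOut Cfsg.Agent.Lib.Helper27.DynOut
  Cfsg.Agent.Lib.Helper27.ChevDyn Cfsg.Agent.Lib.Helper27.ChevDynI
  Cfsg.Agent.Lib.Helper27.ChevDynW Cfsg.Agent.Lib.Helper27.ChevDynExt
  Cfsg.Agent.Lib.Helper27.ChevDynStr Cfsg.Agent.Lib.Helper27.ChevDynD4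
open Cfsg.Agent.Lib.Helper54

variable {F : Type*} [Field F]

/-- PIECE ACT: the transported conjugation multiplies the parameter of every root element -/
theorem root_act (d : Fin 4 → Fˣ) (A : MulAut ↥(chevD4.group F))
    (c : ↥(commutator (O8 F)) ≃* ↥(commutator (O8 F)))
    (hc : ∀ ω : ↥(commutator (O8 F)), toM8 (c ω).1 = D8 d * toM8 ω.1 * D8i d)
    (hA : ∀ ω, A (fG ω) = fG (c ω)) (r : Fin 24) (t : F) (g : ↥(chevD4.group F))
    (hg : (g.1.1 : Matrix I28 I28 F) = xm r t) :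
    ((A g).1.1 : Matrix I28 I28 F) = xm r (((rat d r : Fˣ) : F) * t) := by
  obtain ⟨a, b, t', hab, hab', hx⟩ := xs_valid r t
  have hmem : xO a b hab hab' t' ∈ commutator (O8 F) := by
    rw [commutator_eq_E8]
    exact xO_mem _ _ _ _ _
  have h1 : ((fG (⟨xO a b hab hab' t', hmem⟩ : ↥(commutator (O8 F)))).1.1 : Matrix I28 I28 F) =
      xm r t := by
    rw [fG_coe, piOm_apply]
    exact piO_xs _ r t (by rw [toM8_xO, hx])
  have hgω : g = fG (⟨xO a b hab hab' t', hmem⟩ : ↥(commutator (O8 F))) :=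
    Subtype.ext (Units.ext (hg.trans h1.symm))
  rw [hgω, hA, fG_coe, piOm_apply]
  apply piO_xs
  rw [hc]
  show D8 d * toM8 (xO a b hab hab' t') * D8i d = _
  rw [toM8_xO, ← hx, xs_conj]

theorem simple_vals : chevD4.simple 0 = 18 ∧ chevD4.simple 1 = 14 ∧ chevD4.simple 2 = 13 ∧
    chevD4.simple 3 = 12 := by decide

theorem x_eq_xm (r : Fin 24) (a : F) : chevD4.x F r.val a = xm r a := by
  have h : r.val < chevD4.nroots := r.isLt
  unfold ChevalleyDatum.x
  exact dif_pos h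

/-- PIECE DG: an automorphism scaling the root elements by `rat d` is the diagonal automorphism -/
theorem eq_dg [Fintype F] (p : ℕ) [Fact p.Prime] [CharP F p] (d : Fin 4 → Fˣ)
    (A : MulAut ↥(chevD4.group F))
    (hA : ∀ (r : Fin 24) (t : F) (g : ↥(chevD4.group F)),
      (g.1.1 : Matrix I28 I28 F) = xm r t →
      ((A g).1.1 : Matrix I28 I28 F) = xm r (((rat d r : Fˣ) : F) * t)) :
    A = (okD (F := F) chevD4 hD4 p).dg (extD chevD4 hD4 p) d := by
  have hadm := adm_of_root_act p (rat d) A hA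
  apply (okD (F := F) chevD4 hD4 p).eq_of_adm hadm
    ((okD (F := F) chevD4 hD4 p).dg_adm (extD chevD4 hD4 p) d)
  intro i a
  refine Eq.trans ?_ ((okD (F := F) chevD4 hD4 p).dg_x (extD chevD4 hD4 p) d i a).symm
  obtain ⟨s0, s1, s2, s3⟩ := simple_vals
  obtain ⟨r0, r1, r2, r3⟩ := rat_simple d
  have key : ∀ (r : Fin 24) (di : Fˣ), chevD4.simple i.val = r.val → rat d r = di →
      A (Cfsg.Agent.Lib.Helper27.ChevDyn.xs chevD4 i a) =
        Cfsg.Agent.Lib.Helper27.ChevDyn.xs chevD4 i ((di : F) * a) := by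
    intro r di hr hdi
    apply Subtype.ext
    apply Units.ext
    have e1 : ((Cfsg.Agent.Lib.Helper27.ChevDyn.xs chevD4 i a : ↥(chevD4.group F)).1.1 :
        Matrix I28 I28 F) = xm r a := by
      unfold Cfsg.Agent.Lib.Helper27.ChevDyn.xs
      rw [xg_val chevD4 hD4, hr, x_eq_xm]
    have e2 : ((Cfsg.Agent.Lib.Helper27.ChevDyn.xs chevD4 i ((di : F) * a) :
        ↥(chevD4.group F)).1.1 : Matrix I28 I28 F) = xm r ((di : F) * a) := by
      unfold Cfsg.Agent.Lib.Helper27.ChevDyn.xs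
      rw [xg_val chevD4 hD4, hr, x_eq_xm]
    rw [hA r a _ e1, hdi]
    exact e2.symm
  fin_cases i
  · exact key 18 (d 0) s0 r0
  · exact key 14 (d 1) s1 r1
  · exact key 13 (d 2) s2 r2
  · exact key 12 (d 3) s3 r3

/-- `Inndiag(PΩ⁺₈(F))` is normal in the automorphism group, `F` finite of odd characteristic -/
theorem inndiag_plus4_normal [Fintype F] (hF : ringChar F ≠ 2) :
    (Cfsg.inndiagPOmegaPlus 4 F).Normal := by
  obtain ⟨p, hp⟩ := CharP.exists F
  haveI : CharP F p := hp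
  haveI : Fact p.Prime := ⟨CharP.char_is_prime F p⟩
  have hp2 : p ≠ 2 := by
    rw [← ringChar.eq F p]
    exact hF
  obtain ⟨Ψ, ρ, hΨ, hρ⟩ := exists_psi (F := F)
  haveI : ((okD (F := F) chevD4 hD4 p).dgOut (extD chevD4 hD4 p)).range.Normal :=
    (okD (F := F) chevD4 hD4 p).ds_normal (extD chevD4 hD4 p)
  refine normal_of_transport Ψ (Cfsg.inndiagPOmegaPlus 4 F)
    ((okD (F := F) chevD4 hD4 p).dgOut (extD chevD4 hD4 p)).range (inn_le_inndiag hF) ?_ ?_
  · rw [card_inndiag hF, card_dgOut_range p hp2]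
  · rintro _ ⟨d, rfl⟩
    refine ⟨(okD (F := F) chevD4 hD4 p).dg (extD chevD4 hD4 p) d, rfl, ?_⟩
    obtain ⟨c, hc⟩ := exists_conj (F := F) d
    obtain ⟨A, hA⟩ := exists_induced_aut fG fG_surjective ker_fG c
    have hAd : A = (okD (F := F) chevD4 hD4 p).dg (extD chevD4 hD4 p) d :=
      eq_dg p d A (fun r t g hg => root_act d A c hc hA r t g hg)
    have key : (MulAut.congr Ψ) (simAut (quadFormPlus 4 F) ⟨dsim d, dsim_mem d⟩) = A := by
      refine MulEquiv.ext (fun y => ?_)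
      obtain ⟨x, rfl⟩ := Ψ.surjective y
      induction x using QuotientGroup.induction_on with
      | H s =>
        show Ψ (simAut (quadFormPlus 4 F) ⟨dsim d, dsim_mem d⟩
          (Ψ.symm (Ψ (QuotientGroup.mk s)))) = A (Ψ (QuotientGroup.mk s))
        rw [Ψ.symm_apply_apply, simAut_mk, hΨ, hΨ, hA]
        congr 1
        apply Subtype.ext
        apply toM8_injective
        rw [rho_simConj d ρ hρ s, hc]
    rw [← hAd, ← key, MulEquiv.symm_apply_apply]
    exact simAut_dsim_mem hF d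

end Cfsg.Agent.Lib.Helper52.PN4
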