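import Mathlib
import Cfsg.Agent.Lib.Helper31.PFORD
import Cfsg.Agent.Lib.Helper68.PFC2A
import Cfsg.Agent.Lib.Helper77.PFCENTE
import Cfsg.Agent.Lib.Helper29.PFCENTO
import Cfsg.Agent.Lib.Helper19.PFCOVER
import Cfsg.Agent.Lib.Helper35.PFR2
import Cfsg.Agent.Lib.Helper52.PN4Main
import Cfsg.Agent.Lib.Helper52.LangPlus
import Cfsg.Agent.Lib.Helper53.FixField
import Cfsg.Agent.Lib.Helper53.SplitAbs
import Cfsg.Agent.Lib.Helper21.MFABS
import Cfsg.Agent.Lib.Helper27.PslOutInst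

/-!
# Project PF (helper52): S2715 — field automorphisms of prime order of `PΩ⁺_{2m}(F)`, `m ≥ 4`

Assembly of the pieces PF-ORD, PF-C2A, PF-CENTE, PF-CENTO, PF-COVER, PF-R2 with the normality of
`Inndiag(PΩ⁺_{2m}(F))` in the automorphism group (`m ≥ 5`: `LangPlus`; `m = 4`: project PN4).
-/

set_option autoImplicit false
set_option linter.unusedSectionVars false
set_option linter.unusedVariables false

namespace Cfsg.Agent.Lib.Helper52.PF

open Cfsg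

universe u v

/-- `Inndiag(PΩ⁺_{2m}(F))` is stable under conjugation by every automorphism (`m ≥ 4`). -/
theorem inndiag_plus_normal {F : Type u} [Field F] [Fintype F] {m : ℕ} (hm : 4 ≤ m)
    (α δ : MulAut (Cfsg.POmega F (Cfsg.quadFormPlus m F)))
    (hδ : δ ∈ Cfsg.inndiagPOmegaPlus m F) : α * δ * α⁻¹ ∈ Cfsg.inndiagPOmegaPlus m F := by
  by_cases h2 : (2 : F) = 0
  · rw [inndiag_plus_eq_inn h2 hm] at hδ ⊢
    exact (Cfsg.innNormal _).conj_mem δ hδ α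
  · rcases Nat.lt_or_ge m 5 with h5 | h5
    · obtain rfl : m = 4 := by omega
      have hF : ringChar F ≠ 2 := by
        intro h
        apply h2
        have h1 := ringChar.Nat.cast_ringChar (R := F)
        rw [h] at h1
        exact_mod_cast h1
      exact (Cfsg.Agent.Lib.Helper52.PN4.inndiag_plus4_normal hF).conj_mem δ hδ α
    · have hm1 : 1 ≤ m := by omega
      have hγ : Cfsg.gammaPOmega F (Cfsg.quadFormPlus m F) = ⊤ := by
        obtain ⟨Q', hq', hQ', hn', h8'⟩ := Cfsg.Agent.Lib.Helper51.OAF.plus_data (F := F) h5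
        rw [← hq']
        exact Cfsg.Agent.Lib.Helper52.OA.gamma_eq_top Q' hQ' hn' h8'
      obtain ⟨a, τ, hα⟩ := Cfsg.Agent.Lib.Helper52.OUMain.exists_ind _ hγ α
      exact Cfsg.Agent.Lib.Helper52.LPMain.inndiag_plus_conj hm1 α δ a τ hα hδ

theorem conj_inv_mem {X : Type*} [Group X] (H : Subgroup X)
    (h : ∀ a δ : X, δ ∈ H → a * δ * a⁻¹ ∈ H) (a δ : X) (hδ : δ ∈ H) : a⁻¹ * δ * a ∈ H := by
  have := h a⁻¹ δ hδ
  rwa [inv_inv] at this

theorem map_conj_eq {X : Type*} [Group X] (H : Subgroup X)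
    (h : ∀ a δ : X, δ ∈ H → a * δ * a⁻¹ ∈ H) (a : X) :
    H.map (MulAut.conj a).toMonoidHom = H := by
  ext δ
  constructor
  · rintro ⟨δ', hδ', rfl⟩
    exact h a δ' hδ'
  · intro hδ
    refine ⟨a⁻¹ * δ * a, conj_inv_mem H h a δ hδ, ?_⟩
    show a * (a⁻¹ * δ * a) * a⁻¹ = δ
    group

theorem cent_conj {X : Type*} [Group X] (H : Subgroup X)
    (h : ∀ a δ : X, δ ∈ H → a * δ * a⁻¹ ∈ H) (a x : X) :
    Nonempty (↥(H ⊓ Subgroup.centralizer {x}) ≃*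
      ↥(H ⊓ Subgroup.centralizer {a * x * a⁻¹})) := by
  obtain ⟨e2⟩ := Cfsg.Agent.Lib.Helper21.MFABS.cent_map (MulAut.conj a) H x
  rw [map_conj_eq H h a] at e2
  exact ⟨e2⟩

/-- the statement S2715 -/
theorem main_plus {F : Type u} [Field F] [Fintype F] {p f : ℕ} [Fact p.Prime]
    (hF : Fintype.card F = p ^ f) {m : ℕ} (hm : 4 ≤ m)
    (x : MulAut (Cfsg.POmega F (Cfsg.quadFormPlus m F)))
    (hx : Cfsg.IsFieldAutClassPOmega (Cfsg.quadFormPlus m F) x) {r : ℕ} (hr : r.Prime)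
    (hxr : orderOf x = r) (F₀ : Type v) [Field F₀] [Fintype F₀]
    (hF₀ : Fintype.card F₀ = p ^ (f / r)) :
    r ∣ f ∧
    Nonempty (↥(Cfsg.inndiagPOmegaPlus m F ⊓ Subgroup.centralizer {x}) ≃*
      ↥(Cfsg.inndiagPOmegaPlus m F₀)) ∧
    ((Odd r ∨ p = 2) → Cfsg.splitClassCount (Cfsg.inndiagPOmegaPlus m F)
      (Cfsg.Inn (Cfsg.POmega F (Cfsg.quadFormPlus m F))) x = 1) ∧
    ((r = 2 ∧ p ≠ 2 ∧ Odd m ∧ p ^ (f / 2) % 4 = 1) →
      Cfsg.splitClassCount (Cfsg.inndiagPOmegaPlus m F)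
        (Cfsg.Inn (Cfsg.POmega F (Cfsg.quadFormPlus m F))) x = 2) ∧
    ((r = 2 ∧ p ≠ 2 ∧ ¬ (Odd m ∧ p ^ (f / 2) % 4 = 1)) →
      Cfsg.splitClassCount (Cfsg.inndiagPOmegaPlus m F)
        (Cfsg.Inn (Cfsg.POmega F (Cfsg.quadFormPlus m F))) x = 4) := by
  obtain ⟨α, φ, σ, hσne, hφ, hαx⟩ := hx
  have hφr : orderOf φ = r := by
    rw [← hαx, Cfsg.Agent.Lib.Helper52.LSMain.orderOf_conj_eq, hxr]
  have hσord : orderOf (σ : RingAut F) = r := order_sigma_plus hm σ hσne φ hφ hr hφr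
  obtain ⟨hdvd, -⟩ := Cfsg.Agent.Lib.Helper53.Fix.fixed_card hF σ hσord
  obtain ⟨e, he⟩ := Cfsg.Agent.Lib.Helper53.Fix.exists_embedding hF σ hσord F₀ hF₀
  haveI : CharP F p := Cfsg.Agent.Lib.Helper27.PslOutInst.charP_of_card hF
  have hp2 : (2 : F) = 0 ↔ p = 2 := by
    constructor
    · intro h
      have h1 : ((2 : ℕ) : F) = 0 := by exact_mod_cast h
      have h2 := (CharP.cast_eq_zero_iff F p 2).1 h1
      exact (Nat.prime_dvd_prime_iff_eq Fact.out Nat.prime_two).1 h2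
    · intro h
      have h1 : ((p : ℕ) : F) = 0 := CharP.cast_eq_zero F p
      rw [h] at h1
      exact_mod_cast h1
  have hDn : ∀ a δ : MulAut (Cfsg.POmega F (Cfsg.quadFormPlus m F)),
      δ ∈ Cfsg.inndiagPOmegaPlus m F → a * δ * a⁻¹ ∈ Cfsg.inndiagPOmegaPlus m F :=
    fun a δ hδ => inndiag_plus_normal hm a δ hδ
  have hIn : ∀ a δ : MulAut (Cfsg.POmega F (Cfsg.quadFormPlus m F)),
      δ ∈ Cfsg.Inn (Cfsg.POmega F (Cfsg.quadFormPlus m F)) →
      a * δ * a⁻¹ ∈ Cfsg.Inn (Cfsg.POmega F (Cfsg.quadFormPlus m F)) :=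
    fun a δ hδ => (Cfsg.innNormal _).conj_mem δ hδ a
  have hsplit : Cfsg.splitClassCount (Cfsg.inndiagPOmegaPlus m F)
      (Cfsg.Inn (Cfsg.POmega F (Cfsg.quadFormPlus m F))) φ =
      Cfsg.splitClassCount (Cfsg.inndiagPOmegaPlus m F)
      (Cfsg.Inn (Cfsg.POmega F (Cfsg.quadFormPlus m F))) x := by
    rw [← hαx]
    exact Cfsg.Agent.Lib.Helper53.SplitAbs.split_conj _ _ α (fun δ hδ => hDn α δ hδ)
      (fun δ hδ => conj_inv_mem _ hDn α δ hδ) (fun δ hδ => hIn α δ hδ)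
      (fun δ hδ => conj_inv_mem _ hIn α δ hδ) x
  have hcent : Nonempty (↥(Cfsg.inndiagPOmegaPlus m F ⊓ Subgroup.centralizer {x}) ≃*
      ↥(Cfsg.inndiagPOmegaPlus m F ⊓ Subgroup.centralizer {φ})) := by
    have h := cent_conj (Cfsg.inndiagPOmegaPlus m F) hDn α x
    rwa [hαx] at h
  refine ⟨hdvd, ?_, ?_, ?_, ?_⟩
  · obtain ⟨e2⟩ := hcent
    by_cases h2 : (2 : F) = 0
    · have h2₀ : (2 : F₀) = 0 := e.injective (by rw [map_ofNat, h2, map_zero])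
      obtain ⟨e1⟩ := cent_even_plus h2 hm e σ he φ hφ
      rw [inndiag_plus_eq_inn h2₀ hm]
      rw [inndiag_plus_eq_inn h2 hm] at e2 ⊢
      exact ⟨e2.trans e1⟩
    · obtain ⟨e1⟩ := cent_odd_plus h2 hm e σ r hr.pos hσord he φ hφ
      exact ⟨e2.trans e1⟩
  · intro h
    rw [← hsplit]
    by_cases h2 : (2 : F) = 0
    · rw [inndiag_plus_eq_inn h2 hm]
      exact Cfsg.Agent.Lib.Helper21.MFABS.split_self _ φ
    · rcases h with hodd | hp
      · exact Cfsg.Agent.Lib.Helper21.MFABS.split_eq_one_of_cover _ _ φ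
          (cover_odd_plus h2 hm e σ r hodd hσord he φ hφ)
      · exact absurd (hp2.2 hp) h2
  · rintro ⟨rfl, hpne, hmodd, hmod⟩
    rw [← hsplit]
    have h2 : (2 : F) ≠ 0 := fun h => hpne (hp2.1 h)
    exact (split_two_plus h2 hm e σ hσord he φ hφ).1 ⟨hmodd, by rw [hF₀]; exact hmod⟩
  · rintro ⟨rfl, hpne, hn⟩
    rw [← hsplit]
    have h2 : (2 : F) ≠ 0 := fun h => hpne (hp2.1 h)
    exact (split_two_plus h2 hm e σ hσord he φ hφ).2
      (fun h => hn ⟨h.1, by rw [← hF₀]; exact h.2⟩)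

end Cfsg.Agent.Lib.Helper52.PF
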