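import Mathlib
import Cfsg.Agent.Lib.Helper99.D4Final
import Cfsg.Agent.Lib.Helper27.ChevDynD4b
import Cfsg.Agent.Lib.Helper54.OrthInnPlus

/-!
# Project PN4 (helper52, for S2715): `Inndiag(PΩ⁺₈(q))` is normal in `Aut(PΩ⁺₈(q))`, `q` odd

Definitions.  For `d : Fin 4 → Fˣ` the diagonal similarity `D8 d` of the form `Q8`
(coordinates `Fin 8`, `pr c = c + 4`) has diagonal `dl d`, multiplier `mu d`, and conjugation by it
multiplies the parameter of the root element `xs r` (helper99, `D4Basis`) by `rat d r`; on the four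
simple roots `18, 14, 13, 12` of `chevD4` the factor is `d 0, d 1, d 2, d 3`.
`fG` is helper99's surjection `Ω₈⁺(F) → D₄(F)` with kernel the centre.
-/

set_option autoImplicit false

namespace Cfsg.Agent.Lib.Helper52.PN4

open Cfsg Cfsg.Lie Matrix Cfsg.Agent.Lib.Helper99 Cfsg.Agent.Lib.Helper99.D4

variable {F : Type*} [Field F]

/-- the diagonal of the similarity attached to `d` -/
def dl (d : Fin 4 → Fˣ) : Fin 8 → Fˣ :=
  ![d 0 * d 1 * d 2, d 1 * d 2, d 2, 1,
    (d 3)⁻¹ * (d 0)⁻¹ * (d 1)⁻¹, (d 3)⁻¹ * (d 1)⁻¹, (d 3)⁻¹, d 2 * (d 3)⁻¹]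

/-- the multiplier of the similarity attached to `d` -/
def mu (d : Fin 4 → Fˣ) : Fˣ := d 2 * (d 3)⁻¹

/-- the diagonal similarity attached to `d`, coordinates `Fin 8` -/
def D8 (d : Fin 4 → Fˣ) : Matrix (Fin 8) (Fin 8) F := diagonal fun c => ((dl d c : Fˣ) : F)

/-- the inverse of `D8 d` -/
def D8i (d : Fin 4 → Fˣ) : Matrix (Fin 8) (Fin 8) F := diagonal fun c => (((dl d c)⁻¹ : Fˣ) : F)

/-- the pair `(a, b)` with `xs r t = Xr a b (± t)` -/
def rab : Fin 24 → Fin 8 × Fin 8 :=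
  ![(4, 1), (4, 2), (3, 0), (4, 3), (2, 0), (1, 0), (5, 2), (3, 1), (5, 3), (2, 1), (3, 2), (6, 3),
    (2, 7), (2, 3), (1, 2), (1, 7), (1, 3), (1, 6), (0, 1), (0, 2), (0, 7), (0, 3), (0, 6), (0, 5)]

/-- the factor by which conjugation by `D8 d` multiplies the parameter of `xs r` -/
def rat (d : Fin 4 → Fˣ) (r : Fin 24) : Fˣ := dl d (rab r).1 * (dl d (rab r).2)⁻¹

/-- helper99's surjection `Ω₈⁺(F) → D₄(F)` -/
def fG : ↥(commutator (O8 F)) →* ↥(chevD4.group F) :=
  piOm.codRestrict (chevD4.group F) (fun ω => by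
    rw [← range_piOm]
    exact ⟨ω, rfl⟩)

theorem fG_coe (ω : ↥(commutator (O8 F))) : (fG ω).1 = piOm ω := rfl

theorem fG_surjective : Function.Surjective (fG (F := F)) := by
  rintro ⟨g, hg⟩
  have hg' : g ∈ (piOm (F := F)).range := by rw [range_piOm]; exact hg
  obtain ⟨ω, rfl⟩ := hg'
  exact ⟨ω, rfl⟩

theorem ker_fG : (fG (F := F)).ker = Subgroup.center ↥(commutator (O8 F)) := by
  rw [← ker_piOm]
  ext ω
  rw [MonoidHom.mem_ker, MonoidHom.mem_ker]
  constructor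
  · intro h
    have := congrArg (Subtype.val) h
    exact this
  · intro h
    exact Subtype.ext h

/-- the diagonal similarity attached to `d`, coordinates `Fin 4 ⊕ Fin 4` -/
def dsim (d : Fin 4 → Fˣ) : GL (Fin 4 ⊕ Fin 4) F where
  val := diagonal fun j => ((dl d (e8.symm j) : Fˣ) : F)
  inv := diagonal fun j => (((dl d (e8.symm j))⁻¹ : Fˣ) : F)
  val_inv := by
    rw [diagonal_mul_diagonal]
    simp
  inv_val := by
    rw [diagonal_mul_diagonal]
    simp

end Cfsg.Agent.Lib.Helper52.PN4
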