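import Mathlib
import Cfsg.Agent.Lib.Helper52.OutMain
import Cfsg.Agent.Lib.Helper52.OutAbs
import Cfsg.Agent.Lib.Helper52.LangPlus
import Cfsg.Agent.Lib.Helper52.GFSplitB
import Cfsg.Agent.Lib.Helper16.OUM4
import Cfsg.Agent.Lib.Helper75.OUM3
import Cfsg.Agent.Lib.Helper54.OrthDih
import Cfsg.Agent.S2695
import Cfsg.Agent.S2724

/-!
# `Aut` and `Out` of `PΩ⁺_{2m}(q)` for `m ≥ 5`

From `S2695` (every automorphism is induced by a semisimilarity), the homomorphism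
`ρ : Aut →* RingAut F` with kernel `pgoAut` (`OutMain.core_data`), the structure of
`pgoAut / Inn` (`S2724`, and `Helper75.OUM3.relIndex_char_two` in characteristic two) and the
abstract lemmas of `OutAbs`.
-/

set_option autoImplicit false
set_option linter.unusedSectionVars false
set_option linter.unusedVariables false

namespace Cfsg.Agent.Lib.Helper52.PlusOut

open Module QuadraticMap Matrix
open Cfsg Cfsg.Agent.Lib.Helper51 Cfsg.Agent.Lib.Helper52 Cfsg.Agent.Lib.Helper54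
open Cfsg.Agent.Lib.Helper52.OU Cfsg.Agent.Lib.Helper52.OUMain Cfsg.Agent.Lib.Helper52.LP
open Cfsg.Agent.Lib.Helper52.LSMain (ind_congr)

variable {ι : Type} [Fintype ι] [DecidableEq ι] {F : Type*} [Field F]

local notation "mt(" g ")" => ((g : Matrix.GeneralLinearGroup ι F) : Matrix ι ι F)

/-- the common data, for a form all of whose field automorphisms are semisimilarities -/
theorem setup_aux [Fintype F] {p f : ℕ} [Fact p.Prime]
    (hF : Fintype.card F = p ^ f) (Q : QuadraticForm F (ι → F))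
    (hQ : (polarBilin Q).Nondegenerate) (hn : 7 ≤ Fintype.card ι)
    (hγ : Cfsg.gammaPOmega F ⇑Q = ⊤)
    (hfrob : ∀ σ : F ≃+* F, Cfsg.IsSemisimilarityPair ⇑Q 1 σ) :
    ∃ (ρ : MulAut (Cfsg.POmega F ⇑Q) →* RingAut F) (φ : MulAut (Cfsg.POmega F ⇑Q))
      (σ : F ≃+* F),
      ρ.ker = Cfsg.pgoAut F ⇑Q ∧ Nat.card (RingAut F) = f ∧ IsCyclic (RingAut F) ∧
      (∀ r : RingAut F, r ∈ Subgroup.zpowers (ρ φ)) ∧ φ ^ f = 1 ∧ Ind ⇑Q φ 1 σ ∧
      Cfsg.Inn (Cfsg.POmega F ⇑Q) ≤ Cfsg.pgoAut F ⇑Q ∧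
      Nat.card (Cfsg.Inn (Cfsg.POmega F ⇑Q)) = Nat.card (Cfsg.POmega F ⇑Q) ∧
      (∀ (h : GL ι F), Ind ⇑Q 1 h (RingEquiv.refl F) →
        ∃ c : Fˣ, mt(h) = (c : F) • (1 : Matrix ι ι F)) := by
  obtain ⟨ρ, hρ, hker, hcard, hcyc⟩ := core_data hF Q hQ hn hγ
  obtain ⟨σ0, hσ0⟩ := hcyc.exists_generator
  obtain ⟨φ, hφ⟩ := ind_of_pair ⇑Q 1 σ0 (hfrob σ0)
  have hρφ : ρ φ = σ0 := hρ φ 1 σ0 hφ
  have hgen : ∀ r : RingAut F, r ∈ Subgroup.zpowers (ρ φ) := by rw [hρφ]; exact hσ0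
  have hφf : φ ^ f = 1 := by
    have h1 := ind_pow ⇑Q hφ f
    rw [tpow_one] at h1
    have h2 : (σ0 : RingAut F) ^ f = 1 := by rw [← hcard]; exact pow_card_eq_one'
    rw [h2] at h1
    exact ind_eq ⇑Q h1 (ind_one ⇑Q)
  exact ⟨ρ, φ, σ0, hker, hcard, hcyc, hgen, hφf, hφ, inn_le_pgo Q, card_inn_POmega Q hQ hn,
    fun h hh => (ind_one_scalar Q hQ hn (semi_conj_mem ⇑Q) h _ hh).2⟩

/-- a reflection in a rational vector commutes with the field automorphisms -/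
theorem refl_fixed [Fintype F] (Q : QuadraticForm F (ι → F)) (σ : F ≃+* F) (hσ : SigInv σ Q)
    (v : ι → F) (hv0 : Q v ≠ 0) (hv : ∀ i, σ (v i) = v i)
    (φ : MulAut (Cfsg.POmega F ⇑Q)) (hφ : Ind ⇑Q φ 1 σ) :
    φ * simAut ⇑Q (isoSim Q (refl Q v hv0)) * φ⁻¹ = simAut ⇑Q (isoSim Q (refl Q v hv0)) := by
  have ha := Cfsg.Agent.Lib.Helper52.GFSplit.ind_simAut ⇑Q (isoSim Q (refl Q v hv0))
  have i1 := ind_mul ⇑Q (ind_mul ⇑Q hφ ha) (ind_inv ⇑Q hφ)
  have i2 : Ind ⇑Q (φ * simAut ⇑Q (isoSim Q (refl Q v hv0)) * φ⁻¹)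
      ((isoSim Q (refl Q v hv0) : ↥(Geo.quadSimilarityGroup (F := F) ⇑Q)) : GL ι F)
      (RingEquiv.refl F) := by
    refine ind_congr ⇑Q i1 ?_ ?_
    · simp only [inv_one, map_one, mul_one, one_mul]
      rw [Cfsg.Agent.Lib.Helper52.LPMain.coe_map_eq]
      exact (Cfsg.Agent.Lib.Helper52.LPMain.refl_sigma_fixed Q σ hσ v hv).symm
    · intro x
      simp
  exact ind_eq ⇑Q i2 ha

/-- the data of the plus form -/
theorem plus_setup [Fintype F] {p f : ℕ} [Fact p.Prime] (hF : Fintype.card F = p ^ f) {m : ℕ}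
    (hm : 5 ≤ m) :
    ∃ (ρ : MulAut (Cfsg.POmega F ⇑(QPlus m F)) →* RingAut F)
      (φ : MulAut (Cfsg.POmega F ⇑(QPlus m F))) (σ : F ≃+* F),
      ρ.ker = Cfsg.pgoAut F ⇑(QPlus m F) ∧ Nat.card (RingAut F) = f ∧ IsCyclic (RingAut F) ∧
      (∀ r : RingAut F, r ∈ Subgroup.zpowers (ρ φ)) ∧ φ ^ f = 1 ∧ Ind ⇑(QPlus m F) φ 1 σ ∧
      Cfsg.Inn (Cfsg.POmega F ⇑(QPlus m F)) ≤ Cfsg.pgoAut F ⇑(QPlus m F) ∧
      Nat.card (Cfsg.Inn (Cfsg.POmega F ⇑(QPlus m F))) = Nat.card (Cfsg.POmega F ⇑(QPlus m F)) ∧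
      (∀ (h : GL (Fin m ⊕ Fin m) F), Ind ⇑(QPlus m F) 1 h (RingEquiv.refl F) →
        ∃ c : Fˣ, (h : Matrix (Fin m ⊕ Fin m) (Fin m ⊕ Fin m) F)
          = (c : F) • (1 : Matrix (Fin m ⊕ Fin m) (Fin m ⊕ Fin m) F)) := by
  refine setup_aux hF (QPlus m F) (nondeg_of_polarSep _ polarSep_plus)
    (by simp only [Fintype.card_sum, Fintype.card_fin]; omega) ?_ ?_
  · rw [coe_QPlus]
    exact Cfsg.Agent.S2695.result hm
  · intro σ
    rw [coe_QPlus]
    exact Cfsg.Agent.Lib.Helper52.LPMain.frob_pair_plus m σ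

/-- the reflection and the similarity witnessing the dihedral structure -/
theorem plus_d8_data [Fintype F] (hodd : Odd (Fintype.card F)) {m : ℕ} (hm : 3 ≤ m)
    (h : ¬ (Odd m ∧ Fintype.card F % 4 = 3)) :
    ∃ a c : MulAut (POmega F ⇑(QPlus m F)), a ∈ pgoAut F ⇑(QPlus m F) ∧
      c ∈ pgoAut F ⇑(QPlus m F) ∧ a * a = 1 ∧
      a * c * a⁻¹ * c⁻¹ ∉ Inn (POmega F ⇑(QPlus m F)) ∧
      ∀ (σ : F ≃+* F) (φ : MulAut (POmega F ⇑(QPlus m F))), Ind ⇑(QPlus m F) φ 1 σ →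
        φ * a * φ⁻¹ = a := by
  have hF := ringChar_ne_two_of_odd hodd
  have h2 : (2 : F) ≠ 0 := Ring.two_ne_zero hF
  have hm1 : 1 ≤ m := by omega
  have hv := hv_plus (F := F) hm1
  have hker := simAut_ker_plus (F := F) hm
  have hneg : negO (QPlus m F) ∈ commutator ↥(isometryGroup F ⇑(QPlus m F)) := by
    rw [negO_mem_plus_iff h2, neg_one_cond hodd m]
    exact h
  obtain ⟨c, hc⟩ := FiniteField.exists_nonsquare (F := F) hF
  have hc0 : c ≠ 0 := by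
    rintro rfl
    exact hc ⟨0, by simp⟩
  obtain ⟨t, ht⟩ : ∃ t : ↥(Geo.quadSimilarityGroup (F := F) ⇑(QPlus m F)),
      t = simOfMatrix (QPlus m F) polarSep_plus _ c hc0 (plus_scale_sim c) := ⟨_, rfl⟩
  have htns : ¬ IsSquare (simMul (QPlus m F) hv t) := by
    rintro ⟨r, hr⟩
    apply hc
    refine ⟨(r : F), ?_⟩
    rw [← simMul_simOfMatrix (QPlus m F) polarSep_plus hv _ c hc0 (plus_scale_sim c), ← ht, hr,
      Units.val_mul]
  obtain ⟨v, hvdef⟩ : ∃ v : Fin m ⊕ Fin m → F,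
      v = Pi.single (Sum.inl (⟨0, hm1⟩ : Fin m)) (1 : F)
        + Pi.single (Sum.inr (⟨0, hm1⟩ : Fin m)) (1 : F) := ⟨_, rfl⟩
  have hv0 : QPlus m F v ≠ 0 := by
    rw [hvdef]
    exact (hypPlus m F ⟨0, hm1⟩).Q_plus_ne
  have hsq : IsSquare (QPlus m F v) := by
    rw [hvdef, (hypPlus m F ⟨0, hm1⟩).Q_plus]
    exact ⟨1, by simp⟩
  have hμ : (simMul (QPlus m F) hv t : F) ≠ 0 := (simMul (QPlus m F) hv t).ne_zero
  have hv1 : QPlus m F (((t : GL (Fin m ⊕ Fin m) F) :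
      Matrix (Fin m ⊕ Fin m) (Fin m ⊕ Fin m) F) *ᵥ v) ≠ 0 := by
    rw [simMul_spec (QPlus m F) hv]
    exact mul_ne_zero hμ hv0
  have hsw : ¬ IsSquare (QPlus m F (((t : GL (Fin m ⊕ Fin m) F) :
      Matrix (Fin m ⊕ Fin m) (Fin m ⊕ Fin m) F) *ᵥ v)) := by
    obtain ⟨r, hr⟩ := hsq
    have hr0 : r ≠ 0 := by
      rintro rfl
      apply hv0
      rw [hr, mul_zero]
    rintro ⟨s, hs⟩
    apply htns
    rw [simMul_spec (QPlus m F) hv, hr] at hs
    have hs0 : s ≠ 0 := by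
      rintro rfl
      rw [mul_zero] at hs
      exact mul_ne_zero hμ (mul_ne_zero hr0 hr0) hs
    refine ⟨Units.mk0 (s / r) (div_ne_zero hs0 hr0), ?_⟩
    apply Units.ext
    rw [Units.val_mul, Units.val_mk0]
    field_simp
    linear_combination hs
  obtain ⟨-, hn0⟩ := exists_special_not_commutator (QPlus m F) hF v _ hv0 hv1 hsq hsw
  refine ⟨simAut ⇑(QPlus m F) (isoSim (QPlus m F) (refl (QPlus m F) v hv0)),
    simAut ⇑(QPlus m F) t, ?_, ?_, ?_, ?_, ?_⟩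
  · rw [pgoAut_eq]
    exact ⟨_, rfl⟩
  · rw [pgoAut_eq]
    exact ⟨_, rfl⟩
  · rw [← map_mul, ← isoSim_mul, refl_mul_self]
    exact map_one _
  · intro hmem
    have hN : (Inn (POmega F ⇑(QPlus m F))).comap (simAut ⇑(QPlus m F)) =
        (omegaGL ⇑(QPlus m F)).subgroupOf (Geo.quadSimilarityGroup (F := F) ⇑(QPlus m F)) ⊔
          (simAut ⇑(QPlus m F)).ker := by
      rw [inn_eq, Subgroup.comap_map_eq]
    have e : isoSim (QPlus m F) (refl (QPlus m F) v hv0) * t *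
        (isoSim (QPlus m F) (refl (QPlus m F) v hv0))⁻¹ * t⁻¹ =
        isoSim (QPlus m F) (refl (QPlus m F) v hv0 * refl (QPlus m F) _ hv1) := by
      have h1 := sim_mul_refl (QPlus m F) hv t v hv0 hv1
      have h3 : t * (isoSim (QPlus m F) (refl (QPlus m F) v hv0))⁻¹ * t⁻¹ =
          (isoSim (QPlus m F) (refl (QPlus m F) _ hv1))⁻¹ := by
        rw [← isoSim_inv, ← isoSim_inv, refl_inv, refl_inv, h1]
        group
      calc isoSim (QPlus m F) (refl (QPlus m F) v hv0) * t *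
            (isoSim (QPlus m F) (refl (QPlus m F) v hv0))⁻¹ * t⁻¹
          = isoSim (QPlus m F) (refl (QPlus m F) v hv0) *
            (t * (isoSim (QPlus m F) (refl (QPlus m F) v hv0))⁻¹ * t⁻¹) := by group
        _ = _ := by rw [h3, ← isoSim_inv, refl_inv, ← isoSim_mul]
    have hmem' : isoSim (QPlus m F) (refl (QPlus m F) v hv0 * refl (QPlus m F) _ hv1) ∈
        (Inn (POmega F ⇑(QPlus m F))).comap (simAut ⇑(QPlus m F)) := by
      rw [Subgroup.mem_comap, ← e]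
      simpa only [map_mul, map_inv] using hmem
    rw [hN, iso_mem_join_iff (QPlus m F) hv hker hneg] at hmem'
    exact hn0 hmem'
  · intro σ φ hφ
    refine refl_fixed (QPlus m F) σ (Cfsg.Agent.Lib.Helper52.LPMain.sigInv_plus m σ) v hv0 ?_ φ hφ
    intro i
    rw [hvdef]
    simp only [Pi.add_apply, Pi.single_apply]
    split_ifs <;> simp

/-- parity -/
theorem parity_plus (m q : ℕ) (hq : Odd q) :
    Even (m * (q - 1) / 2) ↔ ¬ (Odd m ∧ q % 4 = 3) := by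
  obtain ⟨t, rfl⟩ := hq
  have e : m * (2 * t + 1 - 1) / 2 = m * t := by
    rw [Nat.add_sub_cancel, Nat.mul_left_comm, Nat.mul_div_cancel_left _ (by norm_num : 0 < 2)]
  rw [e, Nat.even_mul, Nat.even_iff, Nat.even_iff, Nat.odd_iff]
  omega

/-- the index of `Inn` in `pgoAut` in characteristic two -/
theorem plus_relIndex_two [Fintype F] (h2 : (2 : F) = 0) {m : ℕ} (hm : 3 ≤ m)
    (hscal : ∀ (h : GL (Fin m ⊕ Fin m) F), Ind ⇑(QPlus m F) 1 h (RingEquiv.refl F) →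
        ∃ c : Fˣ, (h : Matrix (Fin m ⊕ Fin m) (Fin m ⊕ Fin m) F)
          = (c : F) • (1 : Matrix (Fin m ⊕ Fin m) (Fin m ⊕ Fin m) F)) :
    (Cfsg.Inn (Cfsg.POmega F ⇑(QPlus m F))).relIndex (Cfsg.pgoAut F ⇑(QPlus m F)) = 2 := by
  have hne : Nonempty (Fin m ⊕ Fin m) := ⟨Sum.inl ⟨0, by omega⟩⟩
  obtain ⟨u, hu⟩ := hv_plus (F := F) (m := m) (by omega)
  exact Cfsg.Agent.Lib.Helper75.OUM3.relIndex_char_two (QPlus m F) h2
    (nondeg_of_polarSep _ polarSep_plus)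
    (Or.inr (by simp only [Fintype.card_sum, Fintype.card_fin]; omega)) u hu hscal

/-- `|Aut(PΩ⁺_{2m}(q))|` for `m ≥ 5` -/
theorem card_aut_plus {F : Type*} [Field F] [Fintype F] (p f : ℕ) [Fact p.Prime] (hf : 1 ≤ f)
    (hF : Fintype.card F = p ^ f) (m : ℕ) (hm : 5 ≤ m) :
    Nat.card (MulAut (Cfsg.POmega F (Cfsg.quadFormPlus m F))) =
      (if p = 2 then 2 else (if Even (m * (p ^ f - 1) / 2) then 8 else 4)) * f *
        Nat.card (Cfsg.POmega F (Cfsg.quadFormPlus m F)) := by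
  rw [← coe_QPlus m F]
  obtain ⟨ρ, φ, σ, hker, hcard, hcyc, hgen, hφf, hφ, hInn, hcI, hscal⟩ := plus_setup hF hm
  rw [card_of_rho _ ρ _ hker (surj_of_gen ρ φ hgen) hInn, hcard, hcI]
  congr 2
  by_cases hp2 : p = 2
  · subst hp2
    rw [if_pos rfl]
    have hchar : CharP F 2 := Cfsg.Agent.Lib.Helper27.PslOutInst.charP_of_card hF
    have h2 : (2 : F) = 0 := by
      have := CharP.cast_eq_zero F 2
      exact_mod_cast this
    exact plus_relIndex_two h2 (by omega) hscal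
  · rw [if_neg hp2]
    have hpodd : Odd p := (Fact.out : p.Prime).odd_of_ne_two hp2
    have hqodd : Odd (p ^ f) := hpodd.pow
    have hodd : Odd (Fintype.card F) := by rw [hF]; exact hqodd
    obtain ⟨h4, h8⟩ := Cfsg.Agent.S2724.result (F := F) hodd (m := m) (by omega)
    rw [← coe_QPlus m F] at h4 h8
    have hpar := parity_plus m (p ^ f) hqodd
    rw [← hF] at hpar
    by_cases hc : Odd m ∧ Fintype.card F % 4 = 3
    · obtain ⟨ψ, hψ, hkψ⟩ := h4 hc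
      rw [relIndex_of_hom _ _ ψ hψ hkψ, if_neg (fun h => (hpar.mp (by rw [hF]; exact h)) hc)]
      rw [Nat.card_eq_fintype_card]
      rfl
    · obtain ⟨ψ, hψ, hkψ⟩ := h8 hc
      rw [relIndex_of_hom _ _ ψ hψ hkψ, if_pos (by rw [← hF]; exact hpar.mpr hc)]
      rw [DihedralGroup.nat_card]

/-- `Out(PΩ⁺_{2m}(q))` for `m ≥ 5`, `q` even -/
theorem out_plus_two {F : Type*} [Field F] [Fintype F] {f m : ℕ} (hf : 1 ≤ f)
    (hF : Fintype.card F = 2 ^ f) (hm : 5 ≤ m) :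
    Nonempty (Cfsg.Out (Cfsg.POmega F (Cfsg.quadFormPlus m F)) ≃*
      Multiplicative (ZMod 2 × ZMod f)) := by
  rw [← coe_QPlus m F]
  obtain ⟨ρ, φ, σ, hker, hcard, hcyc, hgen, hφf, hφ, hInn, hcI, hscal⟩ :=
    plus_setup (p := 2) hF hm
  have hchar : CharP F 2 := Cfsg.Agent.Lib.Helper27.PslOutInst.charP_of_card hF
  have h2 : (2 : F) = 0 := by
    have := CharP.cast_eq_zero F 2
    exact_mod_cast this
  exact out_two_cyclic (Cfsg.Inn (Cfsg.POmega F ⇑(QPlus m F))) ρ _ hker f hf hcard hInn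
    (plus_relIndex_two h2 (by omega) hscal) φ hgen (by rw [hφf]; exact one_mem _)

/-- `Out(PΩ⁺_{2m}(q))` for `m ≥ 5`, `q` odd -/
theorem out_plus_odd {F : Type*} [Field F] [Fintype F] {p f m : ℕ} [Fact p.Prime] (hf : 1 ≤ f)
    (hF : Fintype.card F = p ^ f) (hp : p ≠ 2) (hm : 5 ≤ m) :
    if p ^ f % 4 = 3 ∧ Odd m then
      Nonempty (Cfsg.Out (Cfsg.POmega F (Cfsg.quadFormPlus m F)) ≃*
        Multiplicative (ZMod 2 × ZMod 2 × ZMod f))
    else Nonempty (Cfsg.Out (Cfsg.POmega F (Cfsg.quadFormPlus m F)) ≃*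
        DihedralGroup 4 × Multiplicative (ZMod f)) := by
  rw [← coe_QPlus m F]
  have hpodd : Odd p := (Fact.out : p.Prime).odd_of_ne_two hp
  have hodd : Odd (Fintype.card F) := by rw [hF]; exact hpodd.pow
  have hFc := ringChar_ne_two_of_odd hodd
  obtain ⟨ρ, φ, σ, hker, hcard, hcyc, hgen, hφf, hφ, hInn, hcI, hscal⟩ := plus_setup hF hm
  obtain ⟨h4, h8⟩ := Cfsg.Agent.S2724.result (F := F) hodd (m := m) (by omega)
  rw [← coe_QPlus m F] at h4 h8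
  have hφN : φ ^ f ∈ Cfsg.Inn (Cfsg.POmega F ⇑(QPlus m F)) := by rw [hφf]; exact one_mem _
  split_ifs with hc
  · have hc' : Odd m ∧ Fintype.card F % 4 = 3 := ⟨hc.2, by rw [hF]; exact hc.1⟩
    obtain ⟨ψ, hψ, hkψ⟩ := h4 hc'
    have hpso : Cfsg.psoAut F ⇑(QPlus m F) ≤ Cfsg.Inn (Cfsg.POmega F ⇑(QPlus m F)) :=
      Subgroup.relIndex_eq_one.mp ((relIndex_plus hodd (by omega)).1 hc')
    refine Cfsg.Agent.Lib.Helper52.OutAbs.out_klein_prod _ ρ _ hker f hf hcard hInn ψ hψ hkψ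
      φ hgen hφN ?_
    intro k hk
    exact hpso (Cfsg.Agent.Lib.Helper16.OUM4.comm_pso_generic (QPlus m F) hFc polarSep_plus
      (hv_plus (by omega)) m card_plus φ 1 σ hφ k hk)
  · have hc' : ¬ (Odd m ∧ Fintype.card F % 4 = 3) :=
      fun h => hc ⟨by rw [← hF]; exact h.2, h.1⟩
    obtain ⟨ψ, hψ, hkψ⟩ := h8 hc'
    obtain ⟨a, c, ha, hcK, haa, hac, hfix⟩ := plus_d8_data hodd (by omega : 3 ≤ m) hc'
    exact Cfsg.Agent.Lib.Helper52.OutAbs.out_d8_cyclic _ ρ _ hker f hf hcard hcyc hInn ψ hψ hkψ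
      φ hgen hφN a c ha hcK (by rw [haa]; exact one_mem _)
      (by rw [hfix σ φ hφ, mul_inv_cancel]; exact one_mem _) hac

end Cfsg.Agent.Lib.Helper52.PlusOut
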