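import Mathlib
import Cfsg.Agent.Lib.Helper52.SP8EBDefs

/-! SP8-EB piece MINA (helper52, insurance copy). -/

set_option autoImplicit false

namespace Cfsg.Agent.Lib.Helper52.SP8EB

open Matrix Cfsg.Geo Cfsg.Agent.Lib.Helper71.Asch

variable {n : ℕ} {F : Type*} [Field F] [Fintype F]

theorem MINA_upd_mul (i₀ : Fin 3) (a b : Matrix (Fin 2) (Fin 2) F) (hab : a * b = 1) (i : Fin 3) :
    (Function.update (fun _ : Fin 3 => (1 : Matrix (Fin 2) (Fin 2) F)) i₀ a) i *
      (Function.update (fun _ : Fin 3 => (1 : Matrix (Fin 2) (Fin 2) F)) i₀ b) i = 1 := by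
  by_cases hi : i = i₀
  · subst hi
    simp [hab]
  · simp [Function.update_of_ne hi]

theorem MINA_gl_iota (e : Fin n ≃ (Fin 3 → Fin 2)) (P : GL (Fin n) F) (hglof : HGlof e P)
    (i₀ : Fin 3) (a b : Matrix (Fin 2) (Fin 2) F) (hab : a * b = 1) :
    ∃ g : GL (Fin n) F, g.1 = tw e P (iota i₀ a) ∧ (g⁻¹ : GL (Fin n) F).1 = tw e P (iota i₀ b) := by
  obtain ⟨g, hg, hgi⟩ := hglof _ _ (MINA_upd_mul i₀ a b hab)
  exact ⟨g, by rw [hg, iota_eq_pt], by rw [hgi, iota_eq_pt]⟩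

theorem MINA (f : (Fin n → F) → (Fin n → F) → F) (e : Fin n ≃ (Fin 3 → Fin 2)) (P : GL (Fin n) F)
    (hgen : HQgen F) (hmul : HQmul F) (hinv : HQinv F) (hconj : HQconj F) (hglof : HGlof e P)
    (hpg : HPureG f e P) (L' : Subgroup (GL (Fin n) F)) (hN : Nrm (Gsub f e P) L')
    (cs : Fin 3 → Matrix (Fin 2) (Fin 2) F) (hcs : ∀ i, IsQ (cs i)) (x : GL (Fin n) F)
    (hx : x ∈ L') (hxe : x.1 = tw e P (pt cs)) (i₀ : Fin 3) (h1 : cs i₀ ≠ 1) (h2 : cs i₀ ≠ -1) :
    HasFactor e P L' i₀ := by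
  classical
  choose ds hdsQ hds1 hds2 using fun i => hinv (cs i) (hcs i)
  -- the inverse of `x`
  have hxinv : (x⁻¹ : GL (Fin n) F).1 = tw e P (pt ds) := by
    obtain ⟨gx, hgx, hgxi⟩ := hglof cs ds hds1
    have : gx = x := Units.ext (by rw [hgx, hxe])
    rw [← this, hgxi]
  let S : Set (Matrix (Fin 2) (Fin 2) F) :=
    {y | IsQ y ∧ ∀ g : GL (Fin n) F, g.1 = tw e P (iota i₀ y) → g ∈ L'}
  have key : ∀ y, IsQ y → y ∈ S := by
    apply hgen (cs i₀) (hcs i₀) h1 h2 S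
    · -- products
      rintro y ⟨hyQ, hy⟩ z ⟨hzQ, hz⟩
      refine ⟨hmul y z hyQ hzQ, ?_⟩
      intro g hg
      obtain ⟨y', -, hyy', -⟩ := hinv y hyQ
      obtain ⟨z', -, hzz', -⟩ := hinv z hzQ
      obtain ⟨gy, hgy, -⟩ := MINA_gl_iota e P hglof i₀ y y' hyy'
      obtain ⟨gz, hgz, -⟩ := MINA_gl_iota e P hglof i₀ z z' hzz'
      have hg' : g = gy * gz := Units.ext (by rw [hg, Units.val_mul, hgy, hgz, tw_mul, iota_mul])
      rw [hg']
      exact L'.mul_mem (hy gy hgy) (hz gz hgz)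
    · -- conjugation
      rintro y ⟨hyQ, hy⟩ g h hdet hgh
      refine ⟨hconj y hyQ g h hgh, ?_⟩
      intro k hk
      obtain ⟨y', -, hyy', -⟩ := hinv y hyQ
      obtain ⟨gy, hgy, -⟩ := MINA_gl_iota e P hglof i₀ y y' hyy'
      obtain ⟨G₁, hG₁, hG₁i⟩ := MINA_gl_iota e P hglof i₀ g h hgh
      have hG₁mem : G₁ ∈ Gsub f e P := by
        refine hpg (Function.update (fun _ => 1) i₀ g) ?_ G₁ (by rw [hG₁, iota_eq_pt])
        intro i
        by_cases hi : i = i₀
        · subst hi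
          simpa using hdet
        · simp [Function.update_of_ne hi]
      have hk' : k = G₁ * gy * G₁⁻¹ :=
        Units.ext (by rw [hk, Units.val_mul, Units.val_mul, hG₁, hgy, hG₁i, tw_mul, tw_mul,
          iota_mul, iota_mul])
      rw [hk']
      exact hN G₁ hG₁mem gy (hy gy hgy)
    · -- commutators
      intro a' g h haa' hdet hgh
      have ha' : a' = ds i₀ := by
        calc a' = (ds i₀ * cs i₀) * a' := by rw [hds2, one_mul]
          _ = ds i₀ * (cs i₀ * a') := by rw [mul_assoc]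
          _ = ds i₀ := by rw [haa', mul_one]
      refine ⟨hmul _ _ (ha' ▸ hdsQ i₀) (hconj (cs i₀) (hcs i₀) g h hgh), ?_⟩
      intro k hk
      obtain ⟨G₁, hG₁, hG₁i⟩ := MINA_gl_iota e P hglof i₀ g h hgh
      have hG₁mem : G₁ ∈ Gsub f e P := by
        refine hpg (Function.update (fun _ => 1) i₀ g) ?_ G₁ (by rw [hG₁, iota_eq_pt])
        intro i
        by_cases hi : i = i₀
        · subst hi
          simpa using hdet
        · simp [Function.update_of_ne hi]
      have hmem : x⁻¹ * (G₁ * x * G₁⁻¹) ∈ L' := L'.mul_mem (L'.inv_mem hx) (hN G₁ hG₁mem x hx)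
      have hk' : k = x⁻¹ * (G₁ * x * G₁⁻¹) := by
        apply Units.ext
        rw [hk, Units.val_mul, Units.val_mul, Units.val_mul, hxinv, hG₁, hxe, hG₁i, iota_eq_pt,
          iota_eq_pt, iota_eq_pt, tw_mul, tw_mul, tw_mul, pt_mul, pt_mul, pt_mul]
        congr 2
        funext i
        by_cases hi : i = i₀
        · subst hi
          simp [ha']
        · simp [Function.update_of_ne hi, hds2 i]
      rw [hk']
      exact hmem
  intro y hy g hg
  exact (key y hy).2 g hg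

end Cfsg.Agent.Lib.Helper52.SP8EB
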