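import Mathlib
import Cfsg.Agent.Lib.Helper52.SP8EBDefs

/-! SP8-EB piece PERMGL (helper52). -/

set_option autoImplicit false

namespace Cfsg.Agent.Lib.Helper52.SP8EB

open Matrix Cfsg.Geo Cfsg.Agent.Lib.Helper71.Asch

variable {n : ℕ} {F : Type*} [Field F] [Fintype F]

theorem PERMGL_h52_aux (σ τ : Equiv.Perm (Fin 3)) (h : ∀ i, σ (τ i) = i) :
    (permM σ : Matrix (Fin 3 → Fin 2) (Fin 3 → Fin 2) F) * permM τ = 1 := by
  ext x w
  rw [Matrix.mul_apply, Finset.sum_eq_single (x ∘ σ)]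
  · have h1 : (permM σ : Matrix (Fin 3 → Fin 2) (Fin 3 → Fin 2) F) x (x ∘ σ) = 1 := by
      simp [permM]
    rw [h1, one_mul, Matrix.one_apply]
    have h2 : (x ∘ σ) ∘ τ = x := by
      funext i
      simp [h]
    by_cases hxw : x = w
    · subst hxw
      simp [permM, h2]
    · rw [if_neg hxw]
      have : ¬ (w = (x ∘ σ) ∘ τ) := by
        rw [h2]
        exact fun hw => hxw hw.symm
      simp [permM, this]
  · intro y _ hy
    have : (permM σ : Matrix (Fin 3 → Fin 2) (Fin 3 → Fin 2) F) x y = 0 := by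
      simp [permM, hy]
    rw [this, zero_mul]
  · intro hx
    exact absurd (Finset.mem_univ _) hx

theorem PERMGL (e : Fin n ≃ (Fin 3 → Fin 2)) (P : GL (Fin n) F) : HPermGL e P := by
  intro σ
  refine ⟨⟨tw e P (permM σ), tw e P (permM σ.symm), ?_, ?_⟩, rfl, rfl⟩
  · rw [tw_mul, PERMGL_h52_aux σ σ.symm (fun i => by simp), tw_one]
  · rw [tw_mul, PERMGL_h52_aux σ.symm σ (fun i => by simp), tw_one]

end Cfsg.Agent.Lib.Helper52.SP8EB
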