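import Mathlib
import Cfsg.Agent.Lib.Helper52.SP8EBDefs
import Cfsg.Agent.Lib.Helper91.SP8EBQMUL
import Cfsg.Agent.Lib.Helper13.SP8EBQINV
import Cfsg.Agent.Lib.Helper56.SP8EBQCONJ
import Cfsg.Agent.Lib.Helper31.SP8EBQCOMM
import Cfsg.Agent.Lib.Helper83.SP8EBQSPAN
import Cfsg.Agent.Lib.Helper23.SP8EBQGEN
import Cfsg.Agent.Lib.Helper58.SP8EBGLOF
import Cfsg.Agent.Lib.Helper52.SP8EBPERMGL
import Cfsg.Agent.Lib.Helper82.SP8EBPERMCONJ
import Cfsg.Agent.Lib.Helper30.SP8EBPUREG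
import Cfsg.Agent.Lib.Helper16.SP8EBPERMG
import Cfsg.Agent.Lib.Helper38.SP8EBRMEM
import Cfsg.Agent.Lib.Helper39.SP8EBNRMS
import Cfsg.Agent.Lib.Helper11.SP8EBNRM
import Cfsg.Agent.Lib.Helper29.SP8EBNSCAL
import Cfsg.Agent.Lib.Helper29.SP8EBABS1
import Cfsg.Agent.Lib.Helper72.SP8EBABS2a
import Cfsg.Agent.Lib.Helper69.SP8EBABS2b
import Cfsg.Agent.Lib.Helper45.SP8EBCOMM
import Cfsg.Agent.Lib.Helper99.SP8EBMIND
import Cfsg.Agent.Lib.Helper52.SP8EBMINA
import Cfsg.Agent.Lib.Helper21.SP8EBMINB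
import Cfsg.Agent.Lib.Helper45.SP8EBMINC

/-! SP8-EB (sub-project of S5823, sp8): assembly (helper52).
`q = 3`: a group of isometries inside the tensor cube stabiliser lies in a group `G` of isometries
with a minimal normal non-scalar absolutely irreducible subgroup `R = Q8 ∘ Q8 ∘ Q8` (`SymT G R`). -/

set_option autoImplicit false

namespace Cfsg.Agent.Lib.Helper52.SP8EB

open Matrix Cfsg.Geo Cfsg.Agent.Lib.Helper71.Asch

variable {n : ℕ} {F : Type*} [Field F] [Fintype F]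

theorem EB (hq3 : Fintype.card F = 3) (f : (Fin n → F) → (Fin n → F) → F) (_hf : IsSymplecticForm f)
    (H : Subgroup (GL (Fin n) F)) (hfix : FixesForm (matrixSet H) f)
    (e : Fin n ≃ (Fin 3 → Fin 2)) (P : GL (Fin n) F) (f₁ : (Fin 2 → F) → (Fin 2 → F) → F)
    (hf₁ : IsSymplecticForm f₁) (htp : IsTensorPowerFormStructure id f f₁ e P)
    (hH : H ≤ tensorWreathSubgroup 2 3 e P) :
    ∃ G R : Subgroup (GL (Fin n) F), H ≤ G ∧ FixesForm (matrixSet G) f ∧ SymT G R := by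
  have hQmul : HQmul F := QMUL hq3
  have hQinv : HQinv F := QINV
  have hQconj : HQconj F := QCONJ
  have hQcomm : HQcomm F := QCOMM hq3
  have hQspan : HQspan F := QSPAN hq3
  have hQgen : HQgen F := QGEN hq3
  have hGlof : HGlof e P := GLOF e P
  have hPermGL : HPermGL e P := PERMGL e P
  have hPermConj : HPermConj F := PERMCONJ
  have hPureG : HPureG f e P := PUREG f e P f₁ hf₁ htp
  have hPermG : HPermG f e P := PERMG f e P f₁ htp
  have hRmem : HRmem e P := RMEM hQmul hQinv e P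
  have hNrmS : HNrmS F := NRMS hQconj hPermConj
  have hSI : HSpanIota e P (matrixSet (Rsub e P)) := ABS1 e P hQspan hQinv hGlof
  refine ⟨Gsub f e P, Rsub e P, ?_, ?_, ⟨⟨?_, ?_, ?_, ?_⟩, ⟨?_, ?_⟩, ?_⟩⟩
  · intro h hh
    exact ⟨hH hh, fun u v => hfix h.1 ⟨h, hh, rfl⟩ u v⟩
  · rintro _ ⟨g, hg, rfl⟩ u v
    exact hg.2 u v
  · -- R ≤ G
    refine (Subgroup.closure_le _).mpr ?_
    rintro g ⟨cs, hcs, hg⟩
    exact hPureG cs (fun i => (hcs i).1) g hg
  · exact NRM f e P hRmem hNrmS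
  · exact NSCAL e P hGlof
  · -- minimality
    intro L' hL hN
    by_cases hsc : L' ≤ scalars (Fin n) F
    · exact Or.inl hsc
    · right
      obtain ⟨x, hxL, hxs⟩ := SetLike.not_le_iff_exists.mp hsc
      obtain ⟨cs, hcs, hxe⟩ := hRmem x (hL hxL)
      obtain ⟨i₀, h1, h2⟩ := MIND e P cs hcs x hxe hxs
      have hA : HasFactor e P L' i₀ :=
        MINA f e P hQgen hQmul hQinv hQconj hGlof hPureG L' hN cs hcs x hxL hxe i₀ h1 h2
      have hB : ∀ i, HasFactor e P L' i :=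
        fun i => MINB f e P hPermG hPermGL hPermConj hGlof hQinv L' hN i₀ hA i
      exact le_antisymm hL (MINC e P hGlof hQinv L' hB)
  · exact ABS2b e P _ hSI
  · exact ABS2a e P _ hSI
  · exact COMM e P hRmem hQcomm

end Cfsg.Agent.Lib.Helper52.SP8EB
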