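import Mathlib
import Cfsg.Prelude.Def_GeometricClasses
import Cfsg.Prelude.Def_LieClassical
import Cfsg.Agent.Lib.Helper18.Symp

/-!
# SPP (helper71's project): `Sp_{2m}(F)` is transitive on non-zero vectors (helper52)
-/

set_option autoImplicit false

namespace Cfsg.Agent.Lib.Helper52.SPPTrans

open Matrix Cfsg.Geo

variable {F : Type*} [Field F]

theorem exists_partner (m : ℕ) (u : Fin m ⊕ Fin m → F) (hu : u ≠ 0) :
    ∃ u₂, Cfsg.Agent.Lib.Helper18.sympB m u u₂ = 1 := by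
  have hex : ∃ x, Cfsg.Agent.Lib.Helper18.sympB m u x ≠ 0 := by
    by_contra hcon
    push Not at hcon
    exact hu ((Cfsg.Agent.Lib.Helper18.sympB_nondegenerate m).1 u hcon)
  obtain ⟨x, hx⟩ := hex
  refine ⟨(Cfsg.Agent.Lib.Helper18.sympB m u x)⁻¹ • x, ?_⟩
  rw [map_smul, smul_eq_mul, inv_mul_cancel₀ hx]

/-- `Sp` is transitive on non-zero vectors -/
theorem sp_transitive (m : ℕ) (u v : Fin m ⊕ Fin m → F) (hu : u ≠ 0) (hv : v ≠ 0) :
    ∃ g ∈ Cfsg.spGL m F, (g : Matrix (Fin m ⊕ Fin m) (Fin m ⊕ Fin m) F) *ᵥ u = v := by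
  obtain ⟨u₂, hu₂⟩ := exists_partner m u hu
  obtain ⟨v₂, hv₂⟩ := exists_partner m v hv
  obtain ⟨g, hg, hgu⟩ := Cfsg.Agent.Lib.Helper18.exists_TP_move
    (Cfsg.Agent.Lib.Helper18.sympB_isAlt m) u u₂ v v₂ hu₂ hv₂
  obtain ⟨hA, -⟩ := Cfsg.Agent.Lib.Helper18.TP_to_closure m hg
  have hdet : IsUnit (LinearMap.toMatrix' g).det := SymplecticGroup.symplectic_det hA
  refine ⟨Matrix.GeneralLinearGroup.mk'' (LinearMap.toMatrix' g) hdet, ?_, ?_⟩
  · intro x y
    show Cfsg.sympForm m F (LinearMap.toMatrix' g *ᵥ x) (LinearMap.toMatrix' g *ᵥ y) =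
      Cfsg.sympForm m F x y
    have h := Cfsg.Agent.Lib.Helper18.symplectic_isometry m _ hA x y
    rw [Cfsg.Agent.Lib.Helper18.sympB_eq_sympForm, Cfsg.Agent.Lib.Helper18.sympB_eq_sympForm,
      Matrix.toLin'_apply, Matrix.toLin'_apply] at h
    exact h
  · show LinearMap.toMatrix' g *ᵥ u = v
    rw [← Matrix.toLin'_apply, Matrix.toLin'_toMatrix']
    exact hgu

/-- the value of the standard symplectic form on two basis vectors of the first half -/
theorem sympForm_inl_inl (m : ℕ) (i j : Fin m) :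
    Cfsg.sympForm m F (Pi.single (Sum.inl i) 1) (Pi.single (Sum.inl j) 1) = 0 := by
  unfold Cfsg.sympForm
  rw [single_one_dotProduct, Matrix.mulVec_single_one]
  simp [Matrix.J, Matrix.fromBlocks]

/-- the value of the standard symplectic form on a hyperbolic pair of basis vectors -/
theorem sympForm_inl_inr_ne (m : ℕ) (i : Fin m) :
    Cfsg.sympForm m F (Pi.single (Sum.inl i) 1) (Pi.single (Sum.inr i) 1) ≠ 0 := by
  unfold Cfsg.sympForm
  rw [single_one_dotProduct, Matrix.mulVec_single_one]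
  simp [Matrix.J, Matrix.fromBlocks]

end Cfsg.Agent.Lib.Helper52.SPPTrans
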