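import Mathlib
import Cfsg.Prelude.Def_GeometricClasses
import Cfsg.Prelude.Def_LieClassical
import Cfsg.Agent.Lib.Helper52.SPPTrans

/-!
# SPP piece NS1 (helper71's project): `Sp_{2m}(F)` stabilises no proper non-zero subspace
-/

set_option autoImplicit false

namespace Cfsg.Agent.Lib.Helper52.SPPNS1

open Matrix Cfsg.Geo

variable {n : ℕ} {F : Type*} [Field F] [Fintype F]

/-- NS1 -/
theorem NS1 (m : ℕ) (hm : 2 ≤ m) (W : Submodule F (Fin m ⊕ Fin m → F)) (h0 : W ≠ ⊥)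
    (h1 : W ≠ ⊤) : ¬ Cfsg.spGL m F ≤ subspaceStabilizer W := by
  intro hle
  obtain ⟨w, hwW, hw0⟩ := Submodule.exists_mem_ne_zero_of_ne_bot h0
  have hex : ∃ v : Fin m ⊕ Fin m → F, v ∉ W := by
    by_contra hcon
    push Not at hcon
    exact h1 (Submodule.eq_top_iff'.2 hcon)
  obtain ⟨v, hv⟩ := hex
  have hv0 : v ≠ 0 := by
    rintro rfl
    exact hv W.zero_mem
  obtain ⟨g, hg, hgw⟩ := Cfsg.Agent.Lib.Helper52.SPPTrans.sp_transitive m w v hw0 hv0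
  have hst : ∀ x : Fin m ⊕ Fin m → F,
      x ∈ (W : Set (Fin m ⊕ Fin m → F)) ↔
        (g : Matrix (Fin m ⊕ Fin m) (Fin m ⊕ Fin m) F) *ᵥ x ∈ (W : Set (Fin m ⊕ Fin m → F)) :=
    hle hg
  have h2 := (hst w).1 hwW
  rw [hgw] at h2
  exact hv h2

end Cfsg.Agent.Lib.Helper52.SPPNS1
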