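import Mathlib
import Cfsg.Prelude.Def_GeometricClasses
import Cfsg.Prelude.Def_LieClassical
import Cfsg.Agent.Lib.Helper52.SPPTrans

/-!
# SPP piece NS9 (helper71's project): `Sp_{2m}(F)` is in no orthogonal similarity group whose
polar form is the symplectic form
-/

set_option autoImplicit false

namespace Cfsg.Agent.Lib.Helper52.SPPNS9

open Matrix Cfsg.Geo

variable {n : ℕ} {F : Type*} [Field F] [Fintype F]

/-- NS9 -/
theorem NS9 (m : ℕ) (hm : 2 ≤ m) (Q : (Fin m ⊕ Fin m → F) → F)
    (hQ : IsNondegenerateQuadraticForm Q)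
    (hpol : ∀ u v : Fin m ⊕ Fin m → F, QuadraticMap.polar Q u v = Cfsg.sympForm m F u v) :
    ¬ Cfsg.spGL m F ≤ quadSimilarityGroup Q := by
  intro hle
  -- two distinct indices
  let i0 : Fin m := ⟨0, by omega⟩
  let i1 : Fin m := ⟨1, by omega⟩
  have hi : i0 ≠ i1 := by
    intro h
    have := congrArg Fin.val h
    simp [i0, i1] at this
  set e₀ : Fin m ⊕ Fin m → F := Pi.single (Sum.inl i0) 1 with he₀
  set e₁ : Fin m ⊕ Fin m → F := Pi.single (Sum.inl i1) 1 with he₁
  set f₀ : Fin m ⊕ Fin m → F := Pi.single (Sum.inr i0) 1 with hf₀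
  have hef : Cfsg.sympForm m F e₀ f₀ ≠ 0 := Cfsg.Agent.Lib.Helper52.SPPTrans.sympForm_inl_inr_ne m i0
  have hee : Cfsg.sympForm m F e₀ e₁ = 0 := Cfsg.Agent.Lib.Helper52.SPPTrans.sympForm_inl_inl m i0 i1
  -- the additivity formula
  have hadd : ∀ u v : Fin m ⊕ Fin m → F, Q (u + v) = Q u + Q v + Cfsg.sympForm m F u v := by
    intro u v
    rw [← hpol u v, QuadraticMap.polar]
    ring
  -- characteristic two
  have h2 : (2 : F) = 0 := by
    have hsymm : Cfsg.sympForm m F e₀ f₀ = Cfsg.sympForm m F f₀ e₀ := by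
      rw [← hpol, ← hpol, QuadraticMap.polar_comm]
    have hskew : Cfsg.sympForm m F f₀ e₀ = - Cfsg.sympForm m F e₀ f₀ := by
      have h1 := hadd (e₀ + f₀) (e₀ + f₀)
      have hal : Cfsg.sympForm m F (e₀ + f₀) (e₀ + f₀) = 0 := by
        have := Cfsg.Agent.Lib.Helper18.sympB_isAlt (F := F) m (e₀ + f₀)
        rwa [Cfsg.Agent.Lib.Helper18.sympB_eq_sympForm] at this
      have hal0 : Cfsg.sympForm m F e₀ e₀ = 0 := by
        have := Cfsg.Agent.Lib.Helper18.sympB_isAlt (F := F) m e₀
        rwa [Cfsg.Agent.Lib.Helper18.sympB_eq_sympForm] at this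
      have hal1 : Cfsg.sympForm m F f₀ f₀ = 0 := by
        have := Cfsg.Agent.Lib.Helper18.sympB_isAlt (F := F) m f₀
        rwa [Cfsg.Agent.Lib.Helper18.sympB_eq_sympForm] at this
      have hbil : Cfsg.sympForm m F (e₀ + f₀) (e₀ + f₀) =
          Cfsg.sympForm m F e₀ e₀ + Cfsg.sympForm m F e₀ f₀ +
            (Cfsg.sympForm m F f₀ e₀ + Cfsg.sympForm m F f₀ f₀) := by
        simp only [← Cfsg.Agent.Lib.Helper18.sympB_eq_sympForm, map_add, LinearMap.add_apply]
        ring
      rw [hal, hal0, hal1] at hbil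
      linear_combination -hbil
    have h3 : (2 : F) * Cfsg.sympForm m F e₀ f₀ = 0 := by
      linear_combination hsymm + hskew
    rcases mul_eq_zero.1 h3 with h | h
    · exact h
    · exact absurd h hef
  have hQ0 : Q 0 = 0 := by
    have := hQ.smul 0 0
    simpa using this
  -- a nonsingular vector
  have hex : ∃ w : Fin m ⊕ Fin m → F, Q w ≠ 0 := by
    by_contra hcon
    push Not at hcon
    have := hadd e₀ f₀
    rw [hcon, hcon, hcon] at this
    apply hef
    linear_combination -this
  obtain ⟨w, hw⟩ := hex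
  have hw0 : w ≠ 0 := by
    rintro rfl
    exact hw hQ0
  -- a singular non-zero vector
  have hsing : ∃ v : Fin m ⊕ Fin m → F, v ≠ 0 ∧ Q v = 0 := by
    have he₀0 : e₀ ≠ 0 := by
      intro h
      have := congrFun h (Sum.inl i0)
      simp [e₀] at this
    by_cases h0 : Q e₀ = 0
    · exact ⟨e₀, he₀0, h0⟩
    · -- a square root of `Q e₁ / Q e₀`
      have hinj : Function.Injective (fun a : F => a * a) := by
        intro a b hab
        have h4 : (a - b) * (a - b) = 0 := by
          have : (a - b) * (a - b) = a * a + b * b - 2 * (a * b) := by ring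
          rw [this, h2]
          simp only [zero_mul, sub_zero]
          have hab' : a * a = b * b := hab
          rw [hab']
          linear_combination (b * b) * h2
        have := mul_self_eq_zero.1 h4
        exact sub_eq_zero.1 this
      obtain ⟨a, ha⟩ := Finite.surjective_of_injective hinj (Q e₁ / Q e₀)
      have ha' : a * a * Q e₀ = Q e₁ := by
        have : a * a = Q e₁ / Q e₀ := ha
        rw [this]
        field_simp
      refine ⟨a • e₀ + e₁, ?_, ?_⟩
      · intro h
        have := congrFun h (Sum.inl i1)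
        simp [e₀, e₁, Ne.symm hi] at this
      · rw [hadd, hQ.smul]
        have hlin : Cfsg.sympForm m F (a • e₀) e₁ = a * Cfsg.sympForm m F e₀ e₁ := by
          simp only [← Cfsg.Agent.Lib.Helper18.sympB_eq_sympForm, map_smul, LinearMap.smul_apply,
            smul_eq_mul]
        rw [hlin, hee]
        linear_combination ha' + (Q e₁) * h2
  obtain ⟨v, hv0, hv⟩ := hsing
  obtain ⟨g, hg, hgv⟩ := Cfsg.Agent.Lib.Helper52.SPPTrans.sp_transitive m v w hv0 hw0
  obtain ⟨c, hc⟩ := hle hg
  have := hc v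
  rw [hgv, hv, mul_zero] at this
  exact hw this

end Cfsg.Agent.Lib.Helper52.SPPNS9
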