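import Mathlib
import Cfsg.Agent.Lib.Helper52.HypK
import Cfsg.Agent.Lib.Helper52.FullPair
import Cfsg.Agent.Lib.Helper52.GeoOmega
import Cfsg.Agent.Lib.Helper50.SubfMax

/-!
Rational structure of a quadratic space: a quadratic form `Q` on `F^ι` taking values in a
subfield `F₀` on vectors with entries in `F₀` restricts to a quadratic form `Q0` on `F₀^ι`.
Eichler transformations with rational data are rational matrices; the membership calculus `TS`
for Eichler transformations in a subgroup of the isometry group.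
-/

set_option autoImplicit false
set_option linter.unusedSectionVars false

namespace Cfsg.Agent.Lib.Helper52

open Module QuadraticMap
open Cfsg.Agent.Lib.Helper51 Cfsg.Agent.Lib.Helper50

section SubfQ

variable {ι : Type} [Fintype ι] [DecidableEq ι] {F : Type*} [Field F]
variable (F₀ : Subfield F)

local notation "mt(" g ")" => ((g : Matrix.GeneralLinearGroup ι F) : Matrix ι ι F)

/-- The vector of `F^ι` with the same entries as a vector of `F₀^ι`. -/
def jV (v : ι → F₀) : ι → F := fun i => (v i : F)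

theorem jV_apply (v : ι → F₀) (i : ι) : jV F₀ v i = (v i : F) := rfl

theorem ratV_jV (v : ι → F₀) : RatV F₀ (jV F₀ v) := fun i => (v i).2

theorem exists_jV_of_ratV {v : ι → F} (h : RatV F₀ v) : ∃ v₀ : ι → F₀, jV F₀ v₀ = v :=
  ⟨fun i => ⟨v i, h i⟩, rfl⟩

theorem jV_add (u v : ι → F₀) : jV F₀ (u + v) = jV F₀ u + jV F₀ v := rfl

theorem jV_sub (u v : ι → F₀) : jV F₀ (u - v) = jV F₀ u - jV F₀ v := rfl

theorem jV_neg (u : ι → F₀) : jV F₀ (-u) = -jV F₀ u := rfl

theorem jV_zero : jV F₀ (0 : ι → F₀) = 0 := rfl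

theorem jV_smul (c : F₀) (v : ι → F₀) : jV F₀ (c • v) = (c : F) • jV F₀ v := rfl

theorem jV_injective : Function.Injective (jV F₀ : (ι → F₀) → ι → F) := by
  intro u v h
  funext i
  exact Subtype.ext (congrFun h i)

theorem jV_eq_zero {v : ι → F₀} (h : jV F₀ v = 0) : v = 0 :=
  jV_injective F₀ (by rw [h, jV_zero])

theorem jV_ne_zero {v : ι → F₀} (h : v ≠ 0) : jV F₀ v ≠ 0 := fun h0 => h (jV_eq_zero F₀ h0)

theorem jV_single (i : ι) (c : F₀) : jV F₀ (Pi.single i c) = Pi.single i (c : F) := by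
  funext k
  by_cases hk : k = i
  · subst hk; simp [jV]
  · simp [jV, Pi.single_eq_of_ne hk]

theorem ratM_vecMulVec {u φ : ι → F} (hu : RatV F₀ u) (hφ : RatV F₀ φ) :
    RatM F₀ (Matrix.vecMulVec u φ) := fun i j => by
  rw [Matrix.vecMulVec_apply]
  exact F₀.mul_mem (hu i) (hφ j)

variable (Q : QuadraticForm F (ι → F))

/-- A linear functional vanishing on the standard basis vanishes. -/
theorem polar_eq_zero_of_single (u : ι → F)
    (h : ∀ j, polar ⇑Q u (Pi.single j 1) = 0) (y : ι → F) : polar ⇑Q u y = 0 := by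
  have h1 : polarBilin Q u = 0 := by
    apply (Pi.basisFun F ι).ext
    intro j
    rw [Pi.basisFun_apply, polarBilin_apply_apply, h j]
    rfl
  have h2 := congrArg (fun f => f y) h1
  simpa [polarBilin_apply_apply] using h2

theorem eq_zero_of_polar_jV (hQ : (polarBilin Q).Nondegenerate) (u : ι → F)
    (h : ∀ v₀ : ι → F₀, polar ⇑Q (jV F₀ v₀) u = 0) : u = 0 := by
  apply hQ.1
  intro y
  rw [polarBilin_apply_apply]
  apply polar_eq_zero_of_single
  intro j
  have h1 := h (Pi.single j 1)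
  rw [jV_single, polar_comm] at h1
  simpa using h1

theorem polar_jV_mem (hrat : ∀ v : ι → F₀, Q (jV F₀ v) ∈ F₀) (u v : ι → F₀) :
    polar ⇑Q (jV F₀ u) (jV F₀ v) ∈ F₀ := by
  unfold polar
  rw [← jV_add]
  exact F₀.sub_mem (F₀.sub_mem (hrat _) (hrat _)) (hrat _)

/-- The restriction of `Q` to the rational vectors, as a quadratic form over `F₀`. -/
noncomputable def Q0 (hrat : ∀ v : ι → F₀, Q (jV F₀ v) ∈ F₀) : QuadraticForm F₀ (ι → F₀) :=
  QuadraticMap.ofPolar (fun v => (⟨Q (jV F₀ v), hrat v⟩ : F₀))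
    (fun a x => by
      apply Subtype.ext
      show Q (jV F₀ (a • x)) = (a : F) * (a : F) * Q (jV F₀ x)
      rw [jV_smul, QuadraticMap.map_smul]; rfl)
    (fun x x' y => by
      apply Subtype.ext
      show Q (jV F₀ (x + x' + y)) - Q (jV F₀ (x + x')) - Q (jV F₀ y)
        = (Q (jV F₀ (x + y)) - Q (jV F₀ x) - Q (jV F₀ y))
          + (Q (jV F₀ (x' + y)) - Q (jV F₀ x') - Q (jV F₀ y))
      have h := polar_add_left Q (jV F₀ x) (jV F₀ x') (jV F₀ y)
      unfold polar at h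
      simp only [jV_add] at h ⊢
      exact h)
    (fun a x y => by
      apply Subtype.ext
      show Q (jV F₀ (a • x + y)) - Q (jV F₀ (a • x)) - Q (jV F₀ y)
        = (a : F) * (Q (jV F₀ (x + y)) - Q (jV F₀ x) - Q (jV F₀ y))
      have h := polar_smul_left Q (a : F) (jV F₀ x) (jV F₀ y)
      unfold polar at h
      simp only [jV_add, jV_smul, smul_eq_mul] at h ⊢
      exact h)

variable (hrat : ∀ v : ι → F₀, Q (jV F₀ v) ∈ F₀)

include hrat

theorem coe_Q0 (v : ι → F₀) : ((Q0 F₀ Q hrat v : F₀) : F) = Q (jV F₀ v) := rfl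

theorem coe_polar_Q0 (u v : ι → F₀) :
    ((polar ⇑(Q0 F₀ Q hrat) u v : F₀) : F) = polar ⇑Q (jV F₀ u) (jV F₀ v) := rfl

theorem Q0_eq_zero_iff (v : ι → F₀) : Q0 F₀ Q hrat v = 0 ↔ Q (jV F₀ v) = 0 := by
  rw [← coe_Q0 F₀ Q hrat]
  exact ⟨fun h => by rw [h]; rfl, fun h => Subtype.ext h⟩

theorem polar_Q0_eq_zero_iff (u v : ι → F₀) :
    polar ⇑(Q0 F₀ Q hrat) u v = 0 ↔ polar ⇑Q (jV F₀ u) (jV F₀ v) = 0 := by
  rw [← coe_polar_Q0 F₀ Q hrat]
  exact ⟨fun h => by rw [h]; rfl, fun h => Subtype.ext h⟩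

theorem polar_Q0_eq_one_iff (u v : ι → F₀) :
    polar ⇑(Q0 F₀ Q hrat) u v = 1 ↔ polar ⇑Q (jV F₀ u) (jV F₀ v) = 1 := by
  rw [← coe_polar_Q0 F₀ Q hrat]
  exact ⟨fun h => by rw [h]; rfl, fun h => Subtype.ext h⟩

theorem Q0_nondeg (hQ : (polarBilin Q).Nondegenerate) :
    (polarBilin (Q0 F₀ Q hrat)).Nondegenerate := by
  have hnd : ∀ u : ι → F₀, (∀ v, polar ⇑(Q0 F₀ Q hrat) u v = 0) → u = 0 := by
    intro u hu
    apply jV_eq_zero F₀
    apply eq_zero_of_polar_jV F₀ Q hQ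
    intro v₀
    rw [polar_comm]
    exact (polar_Q0_eq_zero_iff F₀ Q hrat u v₀).mp (hu v₀)
  constructor
  · intro x hx
    apply hnd x
    intro y
    have := hx y
    rwa [polarBilin_apply_apply] at this
  · intro y hy
    apply hnd y
    intro x
    have := hy x
    rw [polarBilin_apply_apply] at this
    rw [polar_comm]
    exact this

/-- A functional on the rational vectors is represented by a rational vector. -/
theorem exists_jV_polar_eq (hQ : (polarBilin Q).Nondegenerate)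
    (φ : (ι → F₀) →ₗ[F₀] F₀) :
    ∃ w₀ : ι → F₀, ∀ v₀ : ι → F₀, polar ⇑Q (jV F₀ v₀) (jV F₀ w₀) = (φ v₀ : F) := by
  have hQ0 := Q0_nondeg F₀ Q hrat hQ
  refine ⟨(LinearMap.BilinForm.toDual (polarBilin (Q0 F₀ Q hrat)) hQ0).symm φ, fun v₀ => ?_⟩
  rw [polar_comm, ← coe_polar_Q0 F₀ Q hrat, ← polarBilin_apply_apply,
    ← LinearMap.BilinForm.toDual_def hQ0, LinearEquiv.apply_symm_apply]

/-- A vector pairing rationally with all rational vectors is rational. -/
theorem exists_jV_of_polar_mem (hQ : (polarBilin Q).Nondegenerate) (w : ι → F)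
    (h : ∀ v₀ : ι → F₀, polar ⇑Q (jV F₀ v₀) w ∈ F₀) : ∃ w₀ : ι → F₀, jV F₀ w₀ = w := by
  let φ : (ι → F₀) →ₗ[F₀] F₀ :=
    { toFun := fun v₀ => ⟨polar ⇑Q (jV F₀ v₀) w, h v₀⟩
      map_add' := fun x y => by
        apply Subtype.ext
        show polar ⇑Q (jV F₀ (x + y)) w = polar ⇑Q (jV F₀ x) w + polar ⇑Q (jV F₀ y) w
        rw [jV_add, polar_add_left]
      map_smul' := fun c x => by
        apply Subtype.ext
        show polar ⇑Q (jV F₀ (c • x)) w = (c : F) * polar ⇑Q (jV F₀ x) w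
        rw [jV_smul, polar_smul_left]; rfl }
  obtain ⟨w₀, hw₀⟩ := exists_jV_polar_eq F₀ Q hrat hQ φ
  refine ⟨w₀, ?_⟩
  have h1 : jV F₀ w₀ - w = 0 := by
    apply eq_zero_of_polar_jV F₀ Q hQ
    intro v₀
    rw [polar_sub_right, hw₀ v₀]
    exact sub_self _
  exact sub_eq_zero.mp h1

theorem polarVec_jV_mem (v : ι → F₀) (j : ι) : polarVec ⇑Q (jV F₀ v) j ∈ F₀ := by
  unfold polarVec
  have h := polar_jV_mem F₀ Q hrat v (Pi.single j 1)
  rw [jV_single] at h
  exact h

/-- Eichler transformations with rational data are rational matrices. -/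
theorem ratM_eichMat (u w : ι → F₀) : RatM F₀ (eichMat Q (jV F₀ u) (jV F₀ w)) := by
  unfold eichMat
  have hu : RatV F₀ (polarVec ⇑Q (jV F₀ u)) := polarVec_jV_mem F₀ Q hrat u
  have hw : RatV F₀ (polarVec ⇑Q (jV F₀ w)) := polarVec_jV_mem F₀ Q hrat w
  exact ratM_sub (ratM_sub (ratM_add (ratM_one F₀) (ratM_vecMulVec F₀ (ratV_jV F₀ u) hw))
    (ratM_vecMulVec F₀ (ratV_jV F₀ w) hu))
    (ratM_smul (hrat w) (ratM_vecMulVec F₀ (ratV_jV F₀ u) hu))

theorem eich_jV_mem_H1 (u w : ι → F₀) (hu : Q (jV F₀ u) = 0)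
    (huw : polar ⇑Q (jV F₀ u) (jV F₀ w) = 0) :
    ((eich Q (jV F₀ u) (jV F₀ w) hu huw : ↥(Cfsg.isometryGroup F ⇑Q)) :
      Matrix.GeneralLinearGroup ι F) ∈ H1 ι F₀ :=
  mem_H1_of F₀ _ 1 one_ne_zero _ (ratM_eichMat F₀ Q hrat u w) (by rw [one_smul]; rfl)

end SubfQ

section TSCalc

variable {ι : Type} [Fintype ι] [DecidableEq ι] {F : Type*} [Field F]
variable (Q : QuadraticForm F (ι → F))

local notation "mt(" g ")" => ((g : Matrix.GeneralLinearGroup ι F) : Matrix ι ι F)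

/-- The Eichler transformation with data `u`, `w` lies in `M`. -/
def TS (M : Subgroup ↥(Cfsg.isometryGroup F ⇑Q)) (u w : ι → F) : Prop :=
  ∃ (hu : Q u = 0) (huw : polar ⇑Q u w = 0), eich Q u w hu huw ∈ M

variable {Q} {M : Subgroup ↥(Cfsg.isometryGroup F ⇑Q)}

theorem TS.Q_eq {u w : ι → F} (h : TS Q M u w) : Q u = 0 := h.1

theorem TS.polar_eq {u w : ι → F} (h : TS Q M u w) : polar ⇑Q u w = 0 := h.2.1

theorem TS_of_eichMat_eq {u w u' w' : ι → F} (h : TS Q M u w) (hu' : Q u' = 0)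
    (huw' : polar ⇑Q u' w' = 0) (he : eichMat Q u w = eichMat Q u' w') : TS Q M u' w' := by
  obtain ⟨hu, huw, hm⟩ := h
  refine ⟨hu', huw', ?_⟩
  rw [← eich_congr Q hu huw hu' huw' he]
  exact hm

theorem TS.add {u w w' : ι → F} (h : TS Q M u w) (h' : TS Q M u w') : TS Q M u (w + w') := by
  obtain ⟨hu, huw, hm⟩ := h
  obtain ⟨hu', huw', hm'⟩ := h'
  refine ⟨hu, by rw [polar_add_right, huw, huw', add_zero], ?_⟩
  rw [← eich_mul Q u w w' hu huw huw']
  exact M.mul_mem hm hm'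

theorem TS.neg {u w : ι → F} (h : TS Q M u w) : TS Q M u (-w) := by
  obtain ⟨hu, huw, hm⟩ := h
  refine ⟨hu, by rw [polar_neg_right, huw, neg_zero], ?_⟩
  rw [← eich_inv Q u w hu huw]
  exact M.inv_mem hm

theorem TS.sub {u w w' : ι → F} (h : TS Q M u w) (h' : TS Q M u w') : TS Q M u (w - w') := by
  rw [sub_eq_add_neg]; exact h.add h'.neg

theorem TS_zero (M : Subgroup ↥(Cfsg.isometryGroup F ⇑Q)) {u : ι → F} (hu : Q u = 0) :
    TS Q M u 0 :=
  ⟨hu, polar_zero_right _ _, by rw [eich_zero]; exact M.one_mem⟩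

/-- `E(c u, w) = E(u, c w)`. -/
theorem TS.smul_left {u w : ι → F} {c : F} (h : TS Q M (c • u) w) (hu : Q u = 0) :
    TS Q M u (c • w) := by
  refine TS_of_eichMat_eq h hu ?_ (eichMat_smul_left Q u w c)
  have := h.polar_eq
  rw [polar_smul_left] at this
  rw [polar_smul_right]; exact this

theorem TS.smul_left' {u w : ι → F} {c : F} (h : TS Q M u (c • w)) :
    TS Q M (c • u) w := by
  have h1 := h.polar_eq
  rw [polar_smul_right] at h1
  refine TS_of_eichMat_eq h (by rw [QuadraticMap.map_smul, h.Q_eq, smul_zero]) ?_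
    (eichMat_smul_left Q u w c).symm
  rw [polar_smul_left]; exact h1

/-- `E(u, w + c u) = E(u, w)`. -/
theorem TS.add_smul {u w : ι → F} (c : F) (h : TS Q M u (w + c • u)) : TS Q M u w := by
  have h1 := h.polar_eq
  rw [polar_add_right, polar_smul_right, Helper51.polar_self, h.Q_eq] at h1
  have h2 : polar ⇑Q u w = 0 := by simpa using h1
  exact TS_of_eichMat_eq h h.Q_eq h2 (eichMat_add_smul Q u w c h.Q_eq h2)

theorem TS.add_smul' {u w : ι → F} (c : F) (h : TS Q M u w) : TS Q M u (w + c • u) := by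
  have h2 := h.polar_eq
  refine TS_of_eichMat_eq h h.Q_eq ?_ (eichMat_add_smul Q u w c h.Q_eq h2).symm
  rw [polar_add_right, polar_smul_right, Helper51.polar_self, h.Q_eq, h2]
  simp

theorem eichMat_swap (u w : ι → F) (hu : Q u = 0) (hw : Q w = 0) :
    eichMat Q u w = eichMat Q w (-u) := by
  apply matrix_ext_mulVec
  intro x
  rw [eichMat_mulVec, eichMat_mulVec, hw, QuadraticMap.map_neg, hu, polar_neg_left]
  simp only [zero_mul, zero_smul, sub_zero, neg_smul, smul_neg]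
  abel

/-- `E(u, w) = E(w, -u)` for singular orthogonal `u`, `w`. -/
theorem TS.swap {u w : ι → F} (h : TS Q M u w) (hw : Q w = 0) : TS Q M w (-u) := by
  refine TS_of_eichMat_eq h hw ?_ (eichMat_swap u w h.Q_eq hw)
  rw [polar_neg_right, polar_comm, h.polar_eq, neg_zero]

theorem TS.swap' {u w : ι → F} (h : TS Q M u w) (hw : Q w = 0) : TS Q M w (-u) := h.swap hw

/-- Conjugation by an element of `M`. -/
theorem TS.conj {u w : ι → F} (h : TS Q M u w) {g : ↥(Cfsg.isometryGroup F ⇑Q)} (hg : g ∈ M) :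
    TS Q M (mt(g).mulVec u) (mt(g).mulVec w) := by
  obtain ⟨hu, huw, hm⟩ := h
  refine ⟨by rw [isometry_apply, hu], by rw [isometry_polar, huw], ?_⟩
  rw [← conj_eich Q g u w hu huw]
  exact M.mul_mem (M.mul_mem hg hm) (M.inv_mem hg)

theorem TS.mem {u w : ι → F} (h : TS Q M u w) : eich Q u w h.1 h.2.1 ∈ M := h.2.2

/-- The commutator formula: `[E(x, y), E(x', y')] = E(x', f(y, y') x)` when `x ⊥ x'`,
`x' ⊥ y`, `x ⊥ y'`. -/
theorem TS.comm {x y x' y' : ι → F} (h : TS Q M x y) (h' : TS Q M x' y')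
    (hxx' : polar ⇑Q x x' = 0) (hx'y : polar ⇑Q x' y = 0) (hxy' : polar ⇑Q x y' = 0) :
    TS Q M x' (polar ⇑Q y y' • x) := by
  have h1 := h'.conj h.mem
  rw [coe_eich, eichMat_mulVec, eichMat_mulVec, hxx', hxy', polar_comm (⇑Q) y x', hx'y] at h1
  simp only [zero_smul, sub_zero, mul_zero, add_zero] at h1
  have h2 := h1.sub h'
  rwa [add_sub_cancel_left] at h2

end TSCalc

end Cfsg.Agent.Lib.Helper52
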