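import Mathlib
import Cfsg.Agent.Lib.Helper52.SubfQ

/-!
The parameter field of an overgroup `M` of the rational part of `Ω`: the set of `c` such that
all long root elements `E(a, c b)` on rational totally singular pairs lie in `M` is a subfield
containing `F₀`.  One long root element with parameter `c` on an independent rational pair
puts `c` in it.  If it is all of `F`, then `Ω ≤ M`.
-/

set_option autoImplicit false
set_option linter.unusedSectionVars false

namespace Cfsg.Agent.Lib.Helper52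

open Module QuadraticMap
open Cfsg.Agent.Lib.Helper51 Cfsg.Agent.Lib.Helper50

section SubfPar

variable {ι : Type} [Fintype ι] [DecidableEq ι] {F : Type*} [Field F] [Fintype F]
variable (F₀ : Subfield F) (Q : QuadraticForm F (ι → F))
variable (hrat : ∀ v : ι → F₀, Q (jV F₀ v) ∈ F₀) (hQ : (polarBilin Q).Nondegenerate)
variable (M : Subgroup ↥(Cfsg.isometryGroup F ⇑Q))

local notation "mt(" g ")" => ((g : Matrix.GeneralLinearGroup ι F) : Matrix ι ι F)

/-- `M` contains the rational part of `Ω`. -/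
def RatLe (F₀ : Subfield F) (Q : QuadraticForm F (ι → F))
    (M : Subgroup ↥(Cfsg.isometryGroup F ⇑Q)) : Prop :=
  ∀ g : ↥(Cfsg.isometryGroup F ⇑Q), g ∈ commutator ↥(Cfsg.isometryGroup F ⇑Q) →
    (g : Matrix.GeneralLinearGroup ι F) ∈ H1 ι F₀ → g ∈ M

include hrat hQ in
theorem rat_TS (hn : 5 ≤ Fintype.card ι) (hHM : RatLe F₀ Q M) (u w : ι → F₀)
    (hu : Q (jV F₀ u) = 0) (huw : polar ⇑Q (jV F₀ u) (jV F₀ w) = 0) :
    TS Q M (jV F₀ u) (jV F₀ w) :=
  ⟨hu, huw, hHM _ (eich_mem_commutator Q hQ hn _ _ hu huw) (eich_jV_mem_H1 F₀ Q hrat u w hu huw)⟩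

/-- `c` is a parameter of `M`. -/
def InW (c : F) : Prop :=
  ∀ a b : ι → F₀, Q (jV F₀ a) = 0 → Q (jV F₀ b) = 0 → polar ⇑Q (jV F₀ a) (jV F₀ b) = 0 →
    TS Q M (jV F₀ a) (c • jV F₀ b)

include hrat hQ in
theorem inW_of_mem (hn : 5 ≤ Fintype.card ι) (hHM : RatLe F₀ Q M) {c : F} (hc : c ∈ F₀) :
    InW F₀ Q M c := by
  intro a b ha hb hab
  have h1 : c • jV F₀ b = jV F₀ ((⟨c, hc⟩ : F₀) • b) := by rw [jV_smul]
  rw [h1]
  apply rat_TS F₀ Q hrat hQ M hn hHM a _ ha
  rw [← h1, polar_smul_right, hab, smul_zero]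

theorem inW_add {c c' : F} (h : InW F₀ Q M c) (h' : InW F₀ Q M c') : InW F₀ Q M (c + c') := by
  intro a b ha hb hab
  rw [add_smul]
  exact (h a b ha hb hab).add (h' a b ha hb hab)

theorem inW_neg {c : F} (h : InW F₀ Q M c) : InW F₀ Q M (-c) := by
  intro a b ha hb hab
  rw [neg_smul]
  exact (h a b ha hb hab).neg

include hrat hQ in
/-- A rational hyperbolic pair orthogonal to a finite set of rational vectors. -/
theorem exists_rat_hyp (S : Finset (ι → F₀)) (h : 2 * S.card + 3 ≤ Fintype.card ι) :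
    ∃ d d' : ι → F₀, Q (jV F₀ d) = 0 ∧ Q (jV F₀ d') = 0 ∧
      polar ⇑Q (jV F₀ d) (jV F₀ d') = 1 ∧
      (∀ s ∈ S, polar ⇑Q (jV F₀ s) (jV F₀ d) = 0) ∧
      (∀ s ∈ S, polar ⇑Q (jV F₀ s) (jV F₀ d') = 0) := by
  classical
  let _ : Fintype F₀ := Fintype.ofFinite F₀
  obtain ⟨d, d', h1, h2, h3, h4, h5⟩ :=
    exists_hyp_perp (Q0 F₀ Q hrat) (Q0_nondeg F₀ Q hrat hQ) S h
  rw [mem_perpS] at h1 h2
  exact ⟨d, d', (Q0_eq_zero_iff F₀ Q hrat d).mp h3, (Q0_eq_zero_iff F₀ Q hrat d').mp h4,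
    (polar_Q0_eq_one_iff F₀ Q hrat d d').mp h5,
    fun s hs => (polar_Q0_eq_zero_iff F₀ Q hrat s d).mp (h1 s hs),
    fun s hs => (polar_Q0_eq_zero_iff F₀ Q hrat s d').mp (h2 s hs)⟩

include hrat hQ in
/-- Two mutually orthogonal rational hyperbolic pairs orthogonal to a finite set of rational
vectors. -/
theorem exists_two_rat_hyp (S : Finset (ι → F₀)) (h : 2 * S.card + 5 ≤ Fintype.card ι) :
    ∃ d d' e e' : ι → F₀, Q (jV F₀ d) = 0 ∧ Q (jV F₀ d') = 0 ∧
      polar ⇑Q (jV F₀ d) (jV F₀ d') = 1 ∧ Q (jV F₀ e) = 0 ∧ Q (jV F₀ e') = 0 ∧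
      polar ⇑Q (jV F₀ e) (jV F₀ e') = 1 ∧
      (∀ s ∈ S, polar ⇑Q (jV F₀ s) (jV F₀ d) = 0) ∧
      (∀ s ∈ S, polar ⇑Q (jV F₀ s) (jV F₀ d') = 0) ∧
      (∀ s ∈ S, polar ⇑Q (jV F₀ s) (jV F₀ e) = 0) ∧
      (∀ s ∈ S, polar ⇑Q (jV F₀ s) (jV F₀ e') = 0) ∧
      polar ⇑Q (jV F₀ d) (jV F₀ e) = 0 ∧ polar ⇑Q (jV F₀ d) (jV F₀ e') = 0 ∧
      polar ⇑Q (jV F₀ d') (jV F₀ e) = 0 ∧ polar ⇑Q (jV F₀ d') (jV F₀ e') = 0 := by
  classical
  let _ : Fintype F₀ := Fintype.ofFinite F₀
  obtain ⟨d, d', e, e', h1, h2, h3, h4, h5, g1, g2, g3, g4, g5, k1, k2, k3, k4⟩ :=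
    exists_two_hyp_perp (Q0 F₀ Q hrat) (Q0_nondeg F₀ Q hrat hQ) S h
  rw [mem_perpS] at h1 h2 g1 g2
  exact ⟨d, d', e, e', (Q0_eq_zero_iff F₀ Q hrat d).mp h3, (Q0_eq_zero_iff F₀ Q hrat d').mp h4,
    (polar_Q0_eq_one_iff F₀ Q hrat d d').mp h5,
    (Q0_eq_zero_iff F₀ Q hrat e).mp g3, (Q0_eq_zero_iff F₀ Q hrat e').mp g4,
    (polar_Q0_eq_one_iff F₀ Q hrat e e').mp g5,
    fun s hs => (polar_Q0_eq_zero_iff F₀ Q hrat s d).mp (h1 s hs),
    fun s hs => (polar_Q0_eq_zero_iff F₀ Q hrat s d').mp (h2 s hs),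
    fun s hs => (polar_Q0_eq_zero_iff F₀ Q hrat s e).mp (g1 s hs),
    fun s hs => (polar_Q0_eq_zero_iff F₀ Q hrat s e').mp (g2 s hs),
    (polar_Q0_eq_zero_iff F₀ Q hrat d e).mp k1, (polar_Q0_eq_zero_iff F₀ Q hrat d e').mp k2,
    (polar_Q0_eq_zero_iff F₀ Q hrat d' e).mp k3, (polar_Q0_eq_zero_iff F₀ Q hrat d' e').mp k4⟩

include hrat hQ in
/-- Separation by a rational vector. -/
theorem exists_rat_sep (u v a : ι → F₀) (h : ∀ α β : F₀, a ≠ α • u + β • v) :
    ∃ y : ι → F₀, polar ⇑Q (jV F₀ a) (jV F₀ y) = -1 ∧ polar ⇑Q (jV F₀ u) (jV F₀ y) = 0 ∧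
      polar ⇑Q (jV F₀ v) (jV F₀ y) = 0 := by
  have hQ0 := Q0_nondeg F₀ Q hrat hQ
  have hmem : a ∉ Submodule.span F₀ ({u, v} : Set (ι → F₀)) := by
    intro hm
    obtain ⟨α, β, hαβ⟩ := Submodule.mem_span_pair.mp hm
    exact h α β hαβ.symm
  obtain ⟨y, hy1, hy2⟩ := exists_polar_sep (Q0 F₀ Q hrat) hQ0 _ a hmem
  have hu := hy2 u (Submodule.subset_span (Set.mem_insert _ _))
  have hv := hy2 v (Submodule.subset_span (Set.mem_insert_of_mem _ rfl))
  refine ⟨-y, ?_, ?_, ?_⟩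
  · rw [jV_neg, polar_neg_right, polar_comm, ← coe_polar_Q0 F₀ Q hrat, hy1]; rfl
  · rw [jV_neg, polar_neg_right, polar_comm,
      (polar_Q0_eq_zero_iff F₀ Q hrat y u).mp hu, neg_zero]
  · rw [jV_neg, polar_neg_right, polar_comm,
      (polar_Q0_eq_zero_iff F₀ Q hrat y v).mp hv, neg_zero]

include hrat hQ in
theorem inW_mul (hn : 7 ≤ Fintype.card ι) {c c' : F} (h : InW F₀ Q M c)
    (h' : InW F₀ Q M c') : InW F₀ Q M (c * c') := by
  classical
  intro a b ha hb hab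
  obtain ⟨d, d', hd, hd', hdd', hSd, hSd'⟩ := exists_rat_hyp F₀ Q hrat hQ {a, b}
    (by have := Finset.card_le_two (a := a) (b := b); omega)
  have had : polar ⇑Q (jV F₀ a) (jV F₀ d) = 0 := hSd a (by simp)
  have hbd : polar ⇑Q (jV F₀ b) (jV F₀ d) = 0 := hSd b (by simp)
  have had' : polar ⇑Q (jV F₀ a) (jV F₀ d') = 0 := hSd' a (by simp)
  have hbd' : polar ⇑Q (jV F₀ b) (jV F₀ d') = 0 := hSd' b (by simp)
  have h1 := h b d hb hd hbd
  have h2 := h' a d' ha hd' had'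
  have h3 := h1.comm h2 (by rw [polar_comm]; exact hab)
    (by rw [polar_smul_right, had, smul_zero]) (by rw [polar_smul_right, hbd', smul_zero])
  rw [polar_smul_left, polar_smul_right, hdd'] at h3
  simpa [smul_eq_mul, mul_comm] using h3

include hrat hQ in
/-- The parameters form a subfield between `F₀` and `F`; for prime degree it is `F₀` or `F`. -/
theorem inW_dichotomy (hn : 7 ≤ Fintype.card ι) (hHM : RatLe F₀ Q M) (r : ℕ) (hr : r.Prime)
    (hcard : Fintype.card F = Nat.card F₀ ^ r) :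
    (∀ c : F, InW F₀ Q M c → c ∈ F₀) ∨ (∀ c : F, InW F₀ Q M c) := by
  classical
  let R : Subring F :=
    { carrier := {c | InW F₀ Q M c}
      mul_mem' := fun ha hb => inW_mul F₀ Q hrat hQ M hn ha hb
      one_mem' := inW_of_mem F₀ Q hrat hQ M (by omega) hHM F₀.one_mem
      add_mem' := fun ha hb => inW_add F₀ Q M ha hb
      zero_mem' := inW_of_mem F₀ Q hrat hQ M (by omega) hHM F₀.zero_mem
      neg_mem' := fun ha => inW_neg F₀ Q M ha }
  let K : Subfield F :=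
    { R with
      inv_mem' := by
        intro c hc
        by_cases h0 : c = 0
        · subst h0; rw [_root_.inv_zero]; exact R.zero_mem
        · have h1 : c⁻¹ = c ^ (Fintype.card F - 2) := by
            have h2 := FiniteField.pow_card_sub_one_eq_one c h0
            have h4 : Fintype.card F - 1 = (Fintype.card F - 2) + 1 := by
              have := Fintype.one_lt_card (α := F); omega
            rw [h4, pow_succ] at h2
            exact inv_eq_of_mul_eq_one_left h2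
          rw [h1]; exact R.pow_mem hc _ }
  have hle : ∀ x : F₀, algebraMap F₀ F x ∈ K :=
    fun x => inW_of_mem F₀ Q hrat hQ M (by omega) hHM x.2
  let E : IntermediateField F₀ F := Subfield.toIntermediateField K hle
  have hfin : Module.finrank F₀ F = r := by
    let _ : Fintype F₀ := Fintype.ofFinite F₀
    have h1 := Module.card_eq_pow_finrank (K := F₀) (V := F)
    rw [hcard, Nat.card_eq_fintype_card] at h1
    exact (Nat.pow_right_injective (Fintype.one_lt_card) h1).symm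
  have hso := IntermediateField.isSimpleOrder_of_finrank_prime F₀ F (by rw [hfin]; exact hr)
  rcases eq_bot_or_eq_top E with hE | hE
  · left
    intro c hc
    have h1 : c ∈ E := hc
    rw [hE, IntermediateField.mem_bot] at h1
    obtain ⟨x, rfl⟩ := h1
    exact x.2
  · right
    intro c
    have h1 : c ∈ E := by rw [hE]; exact IntermediateField.mem_top
    exact h1

include hrat hQ in
/-- Replacing the first vector of a long root element. -/
theorem TS_move1 (hn : 5 ≤ Fintype.card ι) (hHM : RatLe F₀ Q M) {a b x' y' : ι → F₀} {c : F}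
    (h : TS Q M (jV F₀ a) (c • jV F₀ b)) (hb : Q (jV F₀ b) = 0) (hx' : Q (jV F₀ x') = 0)
    (hx'a : polar ⇑Q (jV F₀ x') (jV F₀ a) = 0) (hx'b : polar ⇑Q (jV F₀ x') (jV F₀ b) = 0)
    (hx'y' : polar ⇑Q (jV F₀ x') (jV F₀ y') = 0) (hby' : polar ⇑Q (jV F₀ b) (jV F₀ y') = 0)
    (hay' : polar ⇑Q (jV F₀ a) (jV F₀ y') = -1) : TS Q M (jV F₀ x') (c • jV F₀ b) := by
  have h1 : TS Q M (jV F₀ b) (c • -jV F₀ a) :=
    (h.swap (by rw [QuadraticMap.map_smul, hb, smul_zero])).smul_left hb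
  have h2 := rat_TS F₀ Q hrat hQ M hn hHM x' y' hx' hx'y'
  have h3 := h1.comm h2 (by rw [polar_comm]; exact hx'b)
    (by rw [polar_smul_right, polar_neg_right, hx'a, neg_zero, smul_zero]) hby'
  rw [polar_smul_left, polar_neg_left, hay'] at h3
  simpa using h3

include hrat hQ in
/-- Replacing the second vector of a long root element. -/
theorem TS_move2 (hn : 5 ≤ Fintype.card ι) (hHM : RatLe F₀ Q M) {a b x' y' : ι → F₀} {c : F}
    (h : TS Q M (jV F₀ a) (c • jV F₀ b)) (hx' : Q (jV F₀ x') = 0)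
    (hx'a : polar ⇑Q (jV F₀ x') (jV F₀ a) = 0) (hx'b : polar ⇑Q (jV F₀ x') (jV F₀ b) = 0)
    (hx'y' : polar ⇑Q (jV F₀ x') (jV F₀ y') = 0) (hay' : polar ⇑Q (jV F₀ a) (jV F₀ y') = 0)
    (hby' : polar ⇑Q (jV F₀ b) (jV F₀ y') = -1) : TS Q M (jV F₀ a) (c • jV F₀ x') := by
  have ha : Q (jV F₀ a) = 0 := h.Q_eq
  have h2 := rat_TS F₀ Q hrat hQ M hn hHM x' y' hx' hx'y'
  have h3 := h.comm h2 (by rw [polar_comm]; exact hx'a)
    (by rw [polar_smul_right, hx'b, smul_zero]) hay'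
  rw [polar_smul_left, hby'] at h3
  have h4 : TS Q M (jV F₀ a) ((c • (-1 : F)) • -jV F₀ x') :=
    (h3.swap (by rw [QuadraticMap.map_smul, ha, smul_zero])).smul_left ha
  simpa using h4

theorem eichMat_zero_left (w : ι → F) : eichMat Q 0 w = 1 := by
  apply matrix_ext_mulVec
  intro x
  rw [eichMat_mulVec, polar_zero_left, Matrix.one_mulVec]
  simp

theorem TS_zero_left {w : ι → F} : TS Q M 0 w := by
  refine TS_of_eichMat_eq (TS_zero M (QuadraticMap.map_zero Q)) (QuadraticMap.map_zero Q)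
    (polar_zero_left _ _) ?_
  rw [eichMat_zero_left, eichMat_zero_left]

theorem polar_jV_comb (α β : F₀) (u v w : ι → F₀) :
    polar ⇑Q (jV F₀ (α • u + β • v)) (jV F₀ w)
      = (α : F) * polar ⇑Q (jV F₀ u) (jV F₀ w) + (β : F) * polar ⇑Q (jV F₀ v) (jV F₀ w) := by
  rw [jV_add, jV_smul, jV_smul, polar_add_left, polar_smul_left, polar_smul_left]
  rfl

theorem coe_eq_zero' {α : F₀} (h : (α : F) = 0) : α = 0 := Subtype.ext h

include hrat hQ in
/-- One long root element with parameter `c` on an independent rational pair makes `c` a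
parameter. -/
theorem inW_of_TS (hn : 13 ≤ Fintype.card ι) (hHM : RatLe F₀ Q M) {a b : ι → F₀} {c : F}
    (h : TS Q M (jV F₀ a) (c • jV F₀ b)) (hb : Q (jV F₀ b) = 0)
    (hind : ∀ α β : F₀, α • a + β • b = 0 → α = 0 ∧ β = 0) : InW F₀ Q M c := by
  classical
  by_cases hc : c = 0
  · rw [hc]; exact inW_of_mem F₀ Q hrat hQ M (by omega) hHM F₀.zero_mem
  have ha : Q (jV F₀ a) = 0 := h.Q_eq
  have hab : polar ⇑Q (jV F₀ a) (jV F₀ b) = 0 := by
    have := h.polar_eq
    rw [polar_smul_right] at this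
    rcases smul_eq_zero.mp this with h0 | h0
    · exact absurd h0 hc
    · exact h0
  intro a' b' ha' hb' ha'b'
  by_cases ha'0 : a' = 0
  · rw [ha'0, jV_zero]; exact TS_zero_left Q M
  by_cases hdep : ∃ β : F₀, b' = β • a'
  · obtain ⟨β, hβ⟩ := hdep
    have h1 := (TS_zero M ha').add_smul' (c * (β : F))
    rw [zero_add] at h1
    rw [hβ, jV_smul, smul_smul]
    exact h1
  push Not at hdep
  obtain ⟨d, d', e, e', hd, hd', hdd', he, he', hee', hSd, hSd', hSe, hSe', hde, hde', hd'e,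
    hd'e'⟩ := exists_two_rat_hyp F₀ Q hrat hQ {a, b, a', b'} (by
      have h1 : ({a, b, a', b'} : Finset (ι → F₀)).card ≤ 4 := Finset.card_le_four
      omega)
  have mA : a ∈ ({a, b, a', b'} : Finset (ι → F₀)) := by simp
  have mB : b ∈ ({a, b, a', b'} : Finset (ι → F₀)) := by simp
  have mA' : a' ∈ ({a, b, a', b'} : Finset (ι → F₀)) := by simp
  have mB' : b' ∈ ({a, b, a', b'} : Finset (ι → F₀)) := by simp
  have hn5 : 5 ≤ Fintype.card ι := by omega
  -- step 1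
  obtain ⟨y1, hy1a, hy1d, hy1b⟩ := exists_rat_sep F₀ Q hrat hQ d b a (by
    intro α β heq
    have h1 := polar_jV_comb F₀ Q α β d b d'
    rw [← heq, hSd' a mA, hdd', hSd' b mB, mul_one, mul_zero, add_zero] at h1
    have hα : α = 0 := coe_eq_zero' F₀ h1.symm
    rw [hα, zero_smul, zero_add] at heq
    have h2 := hind 1 (-β) (by rw [one_smul, neg_smul, heq]; exact add_neg_cancel _)
    exact one_ne_zero h2.1)
  have s1 : TS Q M (jV F₀ d) (c • jV F₀ b) :=
    TS_move1 F₀ Q hrat hQ M hn5 hHM h hb hd (by rw [polar_comm]; exact hSd a mA)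
      (by rw [polar_comm]; exact hSd b mB) hy1d hy1b hy1a
  -- step 2
  obtain ⟨y2, hy2b, hy2e, hy2d⟩ := exists_rat_sep F₀ Q hrat hQ e d b (by
    intro α β heq
    have h1 := polar_jV_comb F₀ Q α β e d e'
    rw [← heq, hSe' b mB, hee', hde', mul_one, mul_zero, add_zero] at h1
    have hα : α = 0 := coe_eq_zero' F₀ h1.symm
    have h3 := polar_jV_comb F₀ Q α β e d d'
    rw [← heq, hSd' b mB, hdd', mul_one, hα] at h3
    have hβ : β = 0 := coe_eq_zero' F₀ (by
      have : (0 : F) = ((0 : F₀) : F) * polar ⇑Q (jV F₀ e) (jV F₀ d') + (β : F) := h3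
      simpa using this.symm)
    rw [hα, hβ, zero_smul, zero_smul, zero_add] at heq
    have h2 := hind 0 1 (by rw [zero_smul, one_smul, heq, zero_add])
    exact one_ne_zero h2.2)
  have s2 : TS Q M (jV F₀ d) (c • jV F₀ e) :=
    TS_move2 F₀ Q hrat hQ M hn5 hHM s1 he (by rw [polar_comm]; exact hde)
      (by rw [polar_comm]; exact hSe b mB) hy2e hy2d hy2b
  -- step 3
  obtain ⟨y3, hy3d, hy3a', hy3e⟩ := exists_rat_sep F₀ Q hrat hQ a' e d (by
    intro α β heq
    have h1 := polar_jV_comb F₀ Q α β a' e d'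
    rw [← heq, hdd', hSd' a' mA', polar_comm (⇑Q) (jV F₀ e), hd'e, mul_zero, mul_zero,
      add_zero] at h1
    exact one_ne_zero h1)
  have s3 : TS Q M (jV F₀ a') (c • jV F₀ e) :=
    TS_move1 F₀ Q hrat hQ M hn5 hHM s2 he ha' (hSd a' mA') (hSe a' mA') hy3a' hy3e hy3d
  -- step 4
  obtain ⟨y4, hy4e, hy4b', hy4a'⟩ := exists_rat_sep F₀ Q hrat hQ b' a' e (by
    intro α β heq
    have h1 := polar_jV_comb F₀ Q α β b' a' e'
    rw [← heq, hee', hSe' b' mB', hSe' a' mA', mul_zero, mul_zero, add_zero] at h1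
    exact one_ne_zero h1)
  exact TS_move2 F₀ Q hrat hQ M hn5 hHM s3 hb' (by rw [polar_comm]; exact ha'b')
    (hSe b' mB') hy4b' hy4a' hy4e

include hrat hQ in
/-- If every element of `F` is a parameter, all Eichler transformations centred at a rational
singular vector and directed by a rational vector lie in `M`, with arbitrary coefficient. -/
theorem TS_smul_of_inW (hn : 7 ≤ Fintype.card ι) (hall : ∀ c : F, InW F₀ Q M c)
    (x b : ι → F₀) (hx : Q (jV F₀ x) = 0) (hxb : polar ⇑Q (jV F₀ x) (jV F₀ b) = 0) (c : F) :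
    TS Q M (jV F₀ x) (c • jV F₀ b) := by
  classical
  obtain ⟨d, d', hd, hd', hdd', hSd, hSd'⟩ := exists_rat_hyp F₀ Q hrat hQ {x, b}
    (by have := Finset.card_le_two (a := x) (b := b); omega)
  have hxd : polar ⇑Q (jV F₀ x) (jV F₀ d) = 0 := hSd x (by simp)
  have hbd : polar ⇑Q (jV F₀ b) (jV F₀ d) = 0 := hSd b (by simp)
  have hxd' : polar ⇑Q (jV F₀ x) (jV F₀ d') = 0 := hSd' x (by simp)
  have hbd' : polar ⇑Q (jV F₀ b) (jV F₀ d') = 0 := hSd' b (by simp)
  set qb : F₀ := ⟨Q (jV F₀ b), hrat b⟩ with hqb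
  set z : ι → F₀ := b + d - qb • d' with hz
  have hzj : jV F₀ z = jV F₀ b + jV F₀ d - Q (jV F₀ b) • jV F₀ d' := rfl
  have hQz : Q (jV F₀ z) = 0 := by
    have e1 : jV F₀ b + jV F₀ d - Q (jV F₀ b) • jV F₀ d'
        = jV F₀ b + (1 : F) • jV F₀ d + (-Q (jV F₀ b)) • jV F₀ d' := by
      rw [one_smul, neg_smul, sub_eq_add_neg]
    rw [hzj, e1, Q_add_smul_add_smul, hd, hd', hbd, hbd', hdd']
    ring
  have hxz : polar ⇑Q (jV F₀ x) (jV F₀ z) = 0 := by
    rw [hzj, polar_sub_right, polar_add_right, polar_smul_right, hxb, hxd, hxd']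
    simp
  have h1 := hall c x z hx hQz hxz
  have h2 := hall c x d hx hd hxd
  have h3 := hall (c * Q (jV F₀ b)) x d' hx hd' hxd'
  have h4 := (h1.sub h2).add h3
  have e : c • jV F₀ z - c • jV F₀ d + (c * Q (jV F₀ b)) • jV F₀ d' = c • jV F₀ b := by
    rw [hzj, smul_sub, smul_add, smul_smul]
    abel
  rwa [e] at h4

theorem TS_sum {u : ι → F} (hu : Q u = 0) (s : Finset ι) (f : ι → ι → F)
    (h : ∀ j ∈ s, TS Q M u (f j)) : TS Q M u (∑ j ∈ s, f j) := by
  classical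
  induction s using Finset.induction_on with
  | empty => rw [Finset.sum_empty]; exact TS_zero M hu
  | insert a s ha ih =>
    rw [Finset.sum_insert ha]
    exact (h a (Finset.mem_insert_self a s)).add
      (ih (fun j hj => h j (Finset.mem_insert_of_mem hj)))

theorem polar_sum_single (u w : ι → F) :
    polar ⇑Q u w = ∑ j, w j * polar ⇑Q u (Pi.single j 1) := by
  have h1 : w = ∑ j, w j • (Pi.single j (1 : F) : ι → F) := by
    funext k
    rw [Finset.sum_apply]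
    simp [Pi.single_apply]
  conv_lhs => rw [h1]
  rw [← polarBilin_apply_apply, map_sum]
  apply Finset.sum_congr rfl
  intro j _
  rw [map_smul, polarBilin_apply_apply]
  rfl

include hrat hQ in
/-- If every element of `F` is a parameter, `Ω ≤ M`. -/
theorem commutator_le_of_inW (hn : 7 ≤ Fintype.card ι) (hall : ∀ c : F, InW F₀ Q M c) :
    commutator ↥(Cfsg.isometryGroup F ⇑Q) ≤ M := by
  classical
  have hfull : ∀ x : ι → F₀, Q (jV F₀ x) = 0 → x ≠ 0 → IsFullPt Q M (jV F₀ x) := by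
    intro x hx hx0
    refine ⟨hx, ?_⟩
    intro w hxw
    have hQ0 := Q0_nondeg F₀ Q hrat hQ
    obtain ⟨a', ha', -⟩ := exists_polar_sep (Q0 F₀ Q hrat) hQ0 ⊥ x
      (by rw [Submodule.mem_bot]; exact hx0)
    have ha'' : polar ⇑Q (jV F₀ x) (jV F₀ a') = 1 := by
      rw [polar_comm]; exact (polar_Q0_eq_one_iff F₀ Q hrat a' x).mp ha'
    set bj : ι → ι → F₀ := fun j =>
      Pi.single j 1 - (⟨polar ⇑Q (jV F₀ x) (jV F₀ (Pi.single j 1)),
        polar_jV_mem F₀ Q hrat x (Pi.single j 1)⟩ : F₀) • a' with hbj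
    have hbjj : ∀ j, jV F₀ (bj j) = Pi.single j 1
        - polar ⇑Q (jV F₀ x) (Pi.single j 1) • jV F₀ a' := by
      intro j
      show jV F₀ (Pi.single j 1) - polar ⇑Q (jV F₀ x) (jV F₀ (Pi.single j 1)) • jV F₀ a' = _
      rw [jV_single]
      rfl
    have hbjx : ∀ j, polar ⇑Q (jV F₀ x) (jV F₀ (bj j)) = 0 := by
      intro j
      rw [hbjj, polar_sub_right, polar_smul_right, ha'']
      simp
    have h1 : TS Q M (jV F₀ x) (∑ j, w j • jV F₀ (bj j)) :=
      TS_sum Q M hx Finset.univ _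
        (fun j _ => TS_smul_of_inW F₀ Q hrat hQ M hn hall x (bj j) hx (hbjx j) (w j))
    have e : ∑ j, w j • jV F₀ (bj j) = w := by
      have h2 : ∑ j, w j • jV F₀ (bj j) = ∑ j, w j • (Pi.single j (1 : F) : ι → F)
          - (∑ j, w j * polar ⇑Q (jV F₀ x) (Pi.single j 1)) • jV F₀ a' := by
        rw [Finset.sum_smul, ← Finset.sum_sub_distrib]
        apply Finset.sum_congr rfl
        intro j _
        rw [hbjj, smul_sub, smul_smul]
      rw [h2, ← polar_sum_single, hxw, zero_smul, sub_zero]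
      funext k
      rw [Finset.sum_apply]
      simp [Pi.single_apply]
    rw [e] at h1
    exact h1.mem
  obtain ⟨d, d', hd, hd', hdd', -, -⟩ := exists_rat_hyp F₀ Q hrat hQ ∅ (by simp; omega)
  have hd0 : d ≠ 0 := by
    rintro rfl
    rw [jV_zero, polar_zero_left] at hdd'
    exact zero_ne_one hdd'
  have hd'0 : d' ≠ 0 := by
    rintro rfl
    rw [jV_zero, polar_zero_right] at hdd'
    exact zero_ne_one hdd'
  exact commutator_le_of_fullPair Q hQ (by omega) (hfull d hd hd0) (hfull d' hd' hd'0)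
    (by rw [hdd']; exact one_ne_zero)

end SubfPar

end Cfsg.Agent.Lib.Helper52
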