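import Mathlib
import Cfsg.Agent.Lib.Helper52.SubfPar

/-!
The case where the parameter field of the overgroup `M` is `F₀`: Eichler transformations in `M`
centred at a rational singular vector are rational; an element of `M` mapping a rational
singular point to a rational point is rational up to a scalar; so is an element of `M` mapping
a rational singular vector into the orthogonal complement of suitable rational vectors.
-/

set_option autoImplicit false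
set_option linter.unusedSectionVars false

namespace Cfsg.Agent.Lib.Helper52

open Module QuadraticMap
open Cfsg.Agent.Lib.Helper51 Cfsg.Agent.Lib.Helper50

section SubfFix

variable {ι : Type} [Fintype ι] [DecidableEq ι] {F : Type*} [Field F] [Fintype F]
variable (F₀ : Subfield F) (Q : QuadraticForm F (ι → F))
variable (hrat : ∀ v : ι → F₀, Q (jV F₀ v) ∈ F₀) (hQ : (polarBilin Q).Nondegenerate)
variable (M : Subgroup ↥(Cfsg.isometryGroup F ⇑Q))
variable (hn : 13 ≤ Fintype.card ι) (hHM : RatLe F₀ Q M)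
variable (hW : ∀ c : F, InW F₀ Q M c → c ∈ F₀)

local notation "mt(" g ")" => ((g : Matrix.GeneralLinearGroup ι F) : Matrix ι ι F)

include hrat hQ hn hHM hW in
theorem polar_mem_of_TS_sing {x : ι → F₀} (hx0 : x ≠ 0) {w : ι → F} (h : TS Q M (jV F₀ x) w)
    (x'' : ι → F₀) (hx'' : Q (jV F₀ x'') = 0) (hxx'' : polar ⇑Q (jV F₀ x) (jV F₀ x'') = 0) :
    polar ⇑Q (jV F₀ x'') w ∈ F₀ := by
  classical
  have hx := h.Q_eq
  have hxw := h.polar_eq
  have hn5 : 5 ≤ Fintype.card ι := by omega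
  by_cases hdep : ∃ α β : F₀, (α ≠ 0 ∨ β ≠ 0) ∧ α • x + β • x'' = 0
  · obtain ⟨α, β, hne, hαβ⟩ := hdep
    have hβ : β ≠ 0 := by
      intro hβ
      rw [hβ, zero_smul, add_zero] at hαβ
      rcases smul_eq_zero.mp hαβ with h0 | h0
      · rcases hne with h1 | h1
        · exact h1 h0
        · exact h1 hβ
      · exact hx0 h0
    have h1 : x'' = (-(β⁻¹ * α)) • x := by
      have h2 : β • x'' = -(α • x) := eq_neg_of_add_eq_zero_right hαβ
      calc x'' = β⁻¹ • (β • x'') := by rw [smul_smul, inv_mul_cancel₀ hβ, one_smul]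
        _ = (-(β⁻¹ * α)) • x := by rw [h2, smul_neg, smul_smul, neg_smul]
    rw [h1, jV_smul, polar_smul_left, hxw, smul_zero]
    exact F₀.zero_mem
  · push Not at hdep
    have hind : ∀ α β : F₀, α • x + β • x'' = 0 → α = 0 ∧ β = 0 := by
      intro α β hαβ
      by_contra hcon
      apply hdep α β ?_ hαβ
      by_contra h2
      push Not at h2
      exact hcon h2
    obtain ⟨d, d', hd, hd', hdd', hSd, hSd'⟩ := exists_rat_hyp F₀ Q hrat hQ {x, x''}
      (by have := Finset.card_le_two (a := x) (b := x''); omega)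
    have hxd : polar ⇑Q (jV F₀ x) (jV F₀ d) = 0 := hSd x (by simp)
    have hx''d : polar ⇑Q (jV F₀ x'') (jV F₀ d) = 0 := hSd x'' (by simp)
    have hxd' : polar ⇑Q (jV F₀ x) (jV F₀ d') = 0 := hSd' x (by simp)
    have hx''d' : polar ⇑Q (jV F₀ x'') (jV F₀ d') = 0 := hSd' x'' (by simp)
    have hg := rat_TS F₀ Q hrat hQ M hn5 hHM x'' d hx'' hx''d
    have h1 := h.conj hg.mem
    rw [coe_eich, eichMat_mulVec, eichMat_mulVec, polar_comm (⇑Q) (jV F₀ d) (jV F₀ x), hxd,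
      polar_comm (⇑Q) (jV F₀ x'') (jV F₀ x), hxx'', hd] at h1
    simp only [zero_smul, sub_zero, mul_zero, add_zero, zero_mul] at h1
    have h2 := h1.sub h
    rw [show w + polar ⇑Q (jV F₀ d) w • jV F₀ x'' - polar ⇑Q (jV F₀ x'') w • jV F₀ d - w
      = polar ⇑Q (jV F₀ d) w • jV F₀ x'' - polar ⇑Q (jV F₀ x'') w • jV F₀ d by abel] at h2
    have hg' := rat_TS F₀ Q hrat hQ M hn5 hHM x'' d' hx'' hx''d'
    have h3 := hg'.comm h2 (by rw [polar_comm]; exact hxx'') hxd' (by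
      rw [polar_sub_right, polar_smul_right, polar_smul_right, Helper51.polar_self, hx'', hx''d]
      simp)
    rw [polar_sub_right, polar_smul_right, polar_smul_right, polar_comm (⇑Q) (jV F₀ d')
      (jV F₀ x''), hx''d', polar_comm (⇑Q) (jV F₀ d') (jV F₀ d), hdd'] at h3
    simp only [smul_zero, smul_eq_mul, mul_one, zero_sub] at h3
    have h4 := hW _ (inW_of_TS F₀ Q hrat hQ M hn hHM h3 hx'' hind)
    have h5 := F₀.neg_mem h4
    simpa using h5

include hrat hQ hn hHM hW in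
theorem polar_mem_of_TS {x : ι → F₀} (hx0 : x ≠ 0) {w : ι → F} (h : TS Q M (jV F₀ x) w)
    (b : ι → F₀) (hxb : polar ⇑Q (jV F₀ x) (jV F₀ b) = 0) :
    polar ⇑Q (jV F₀ b) w ∈ F₀ := by
  classical
  obtain ⟨d, d', hd, hd', hdd', hSd, hSd'⟩ := exists_rat_hyp F₀ Q hrat hQ {x, b}
    (by have := Finset.card_le_two (a := x) (b := b); omega)
  have hxd : polar ⇑Q (jV F₀ x) (jV F₀ d) = 0 := hSd x (by simp)
  have hbd : polar ⇑Q (jV F₀ b) (jV F₀ d) = 0 := hSd b (by simp)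
  have hxd' : polar ⇑Q (jV F₀ x) (jV F₀ d') = 0 := hSd' x (by simp)
  have hbd' : polar ⇑Q (jV F₀ b) (jV F₀ d') = 0 := hSd' b (by simp)
  set qb : F₀ := ⟨Q (jV F₀ b), hrat b⟩ with hqb
  set z : ι → F₀ := b + d - qb • d' with hz
  have hzj : jV F₀ z = jV F₀ b + jV F₀ d - Q (jV F₀ b) • jV F₀ d' := rfl
  have hQz : Q (jV F₀ z) = 0 := by
    have e1 : jV F₀ b + jV F₀ d - Q (jV F₀ b) • jV F₀ d'
        = jV F₀ b + (1 : F) • jV F₀ d + (-Q (jV F₀ b)) • jV F₀ d' := by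
      rw [one_smul, neg_smul, sub_eq_add_neg]
    rw [hzj, e1, Q_add_smul_add_smul, hd, hd', hbd, hbd', hdd']
    ring
  have hxz : polar ⇑Q (jV F₀ x) (jV F₀ z) = 0 := by
    rw [hzj, polar_sub_right, polar_add_right, polar_smul_right, hxb, hxd, hxd']
    simp
  have h1 := polar_mem_of_TS_sing F₀ Q hrat hQ M hn hHM hW hx0 h z hQz hxz
  have h2 := polar_mem_of_TS_sing F₀ Q hrat hQ M hn hHM hW hx0 h d hd hxd
  have h3 := polar_mem_of_TS_sing F₀ Q hrat hQ M hn hHM hW hx0 h d' hd' hxd'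
  have e : polar ⇑Q (jV F₀ b) w = polar ⇑Q (jV F₀ z) w - polar ⇑Q (jV F₀ d) w
      + Q (jV F₀ b) * polar ⇑Q (jV F₀ d') w := by
    rw [hzj, polar_sub_left, polar_add_left, polar_smul_left, smul_eq_mul]
    ring
  rw [e]
  exact F₀.add_mem (F₀.sub_mem h1 h2) (F₀.mul_mem (hrat b) h3)

include hrat hQ in
/-- A rational singular vector has a rational singular partner. -/
theorem exists_rat_partner {x : ι → F₀} (hx : Q (jV F₀ x) = 0) (hx0 : x ≠ 0) :
    ∃ y : ι → F₀, Q (jV F₀ y) = 0 ∧ polar ⇑Q (jV F₀ x) (jV F₀ y) = 1 := by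
  have hQ0 := Q0_nondeg F₀ Q hrat hQ
  obtain ⟨y₁, hy₁, -⟩ := exists_polar_sep (Q0 F₀ Q hrat) hQ0 ⊥ x
    (by rw [Submodule.mem_bot]; exact hx0)
  have hy₁' : polar ⇑Q (jV F₀ y₁) (jV F₀ x) = 1 := (polar_Q0_eq_one_iff F₀ Q hrat y₁ x).mp hy₁
  set q : F₀ := ⟨Q (jV F₀ y₁), hrat y₁⟩ with hq
  refine ⟨y₁ + (-q) • x, ?_, ?_⟩
  · have e : jV F₀ (y₁ + (-q) • x) = jV F₀ y₁ + (-Q (jV F₀ y₁)) • jV F₀ x := rfl
    rw [e, Q_add_smul, hx, hy₁']
    ring
  · have e : jV F₀ (y₁ + (-q) • x) = jV F₀ y₁ + (-Q (jV F₀ y₁)) • jV F₀ x := rfl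
    rw [e, polar_add_right, polar_smul_right, Helper51.polar_self, hx, polar_comm, hy₁']
    simp

include hrat hQ hn hHM hW in
/-- Eichler transformations in `M` centred at a rational singular vector are rational. -/
theorem rat_of_TS {x : ι → F₀} (hx0 : x ≠ 0) {w : ι → F} (h : TS Q M (jV F₀ x) w) :
    ∃ (w₀ : ι → F₀) (s : F), w = jV F₀ w₀ + s • jV F₀ x := by
  have hx := h.Q_eq
  obtain ⟨a', -, ha'⟩ := exists_rat_partner F₀ Q hrat hQ hx hx0
  have hperp : ∀ v₀ : ι → F₀, polar ⇑Q (jV F₀ x)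
      (jV F₀ (v₀ - (⟨polar ⇑Q (jV F₀ x) (jV F₀ v₀), polar_jV_mem F₀ Q hrat x v₀⟩ : F₀) • a'))
        = 0 := by
    intro v₀
    show polar ⇑Q (jV F₀ x) (jV F₀ v₀ - polar ⇑Q (jV F₀ x) (jV F₀ v₀) • jV F₀ a') = 0
    rw [polar_sub_right, polar_smul_right, ha']
    simp
  let φ : (ι → F₀) →ₗ[F₀] F₀ :=
    { toFun := fun v₀ => ⟨polar ⇑Q (jV F₀ (v₀ - (⟨polar ⇑Q (jV F₀ x) (jV F₀ v₀),
        polar_jV_mem F₀ Q hrat x v₀⟩ : F₀) • a')) w,
        polar_mem_of_TS F₀ Q hrat hQ M hn hHM hW hx0 h _ (hperp v₀)⟩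
      map_add' := fun u v => by
        apply Subtype.ext
        show polar ⇑Q (jV F₀ (u + v) - polar ⇑Q (jV F₀ x) (jV F₀ (u + v)) • jV F₀ a') w
          = polar ⇑Q (jV F₀ u - polar ⇑Q (jV F₀ x) (jV F₀ u) • jV F₀ a') w
            + polar ⇑Q (jV F₀ v - polar ⇑Q (jV F₀ x) (jV F₀ v) • jV F₀ a') w
        rw [jV_add, polar_add_right]
        simp only [polar_sub_left, polar_add_left, polar_smul_left, smul_eq_mul]
        ring
      map_smul' := fun c v => by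
        apply Subtype.ext
        show polar ⇑Q (jV F₀ (c • v) - polar ⇑Q (jV F₀ x) (jV F₀ (c • v)) • jV F₀ a') w
          = (c : F) * polar ⇑Q (jV F₀ v - polar ⇑Q (jV F₀ x) (jV F₀ v) • jV F₀ a') w
        rw [jV_smul, polar_smul_right]
        simp only [polar_sub_left, polar_smul_left, smul_eq_mul]
        ring }
  obtain ⟨w₀, hw₀⟩ := exists_jV_polar_eq F₀ Q hrat hQ φ
  refine ⟨w₀, polar ⇑Q (jV F₀ a') w, ?_⟩
  have h1 : w - (jV F₀ w₀ + polar ⇑Q (jV F₀ a') w • jV F₀ x) = 0 := by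
    apply eq_zero_of_polar_jV F₀ Q hQ
    intro v₀
    have h2 : ((φ v₀ : F₀) : F)
        = polar ⇑Q (jV F₀ v₀ - polar ⇑Q (jV F₀ x) (jV F₀ v₀) • jV F₀ a') w := rfl
    rw [polar_sub_right, polar_add_right, hw₀ v₀, h2, polar_sub_left, polar_smul_left,
      polar_smul_right, polar_comm (⇑Q) (jV F₀ v₀) (jV F₀ x)]
    simp only [smul_eq_mul]
    ring
  exact sub_eq_zero.mp h1

include hrat hQ hn hHM hW in
theorem rat_image_perp {m : ↥(Cfsg.isometryGroup F ⇑Q)} (hm : m ∈ M) {x xt : ι → F₀} {lam : F}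
    (hx : Q (jV F₀ x) = 0) (hxt0 : xt ≠ 0) (hxt : Q (jV F₀ xt) = 0)
    (hmx : mt(m).mulVec (jV F₀ x) = lam • jV F₀ xt)
    (w₀ : ι → F₀) (hw : polar ⇑Q (jV F₀ x) (jV F₀ w₀) = 0) :
    ∃ (wt : ι → F₀) (s : F), lam • mt(m).mulVec (jV F₀ w₀) = jV F₀ wt + s • jV F₀ xt := by
  have h1 := (rat_TS F₀ Q hrat hQ M (by omega) hHM x w₀ hx hw).conj hm
  rw [hmx] at h1
  exact rat_of_TS F₀ Q hrat hQ M hn hHM hW hxt0 (h1.smul_left hxt)

include hrat hQ hn hHM hW in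
/-- An element of `M` mapping a rational singular point to a rational point is a scalar
multiple of a rational matrix. -/
theorem mem_H1_of_map_rat (hMΩ : M ≤ commutator ↥(Cfsg.isometryGroup F ⇑Q))
    {m : ↥(Cfsg.isometryGroup F ⇑Q)} (hm : m ∈ M) {x xt : ι → F₀} {lam : F}
    (hx : Q (jV F₀ x) = 0) (hx0 : x ≠ 0)
    (hmx : mt(m).mulVec (jV F₀ x) = lam • jV F₀ xt) :
    (m : Matrix.GeneralLinearGroup ι F) ∈ H1 ι F₀ := by
  classical
  have hmx0 : mt(m).mulVec (jV F₀ x) ≠ 0 := by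
    intro h0
    have := coe_inv_mulVec' Q m (jV F₀ x)
    rw [h0, Matrix.mulVec_zero] at this
    exact jV_ne_zero F₀ hx0 this.symm
  have hlam : lam ≠ 0 := by
    rintro rfl
    rw [zero_smul] at hmx
    exact hmx0 hmx
  have hxt0 : xt ≠ 0 := by
    rintro rfl
    rw [jV_zero, smul_zero] at hmx
    exact hmx0 hmx
  have hxt : Q (jV F₀ xt) = 0 := by
    have h1 := isometry_apply Q m (jV F₀ x)
    rw [hmx, QuadraticMap.map_smul, hx] at h1
    rcases smul_eq_zero.mp h1 with h2 | h2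
    · exact absurd (mul_self_eq_zero.mp h2) hlam
    · exact h2
  obtain ⟨y, hy, hxy⟩ := exists_rat_partner F₀ Q hrat hQ hx hx0
  obtain ⟨yt, hyt, hxtyt⟩ := exists_rat_partner F₀ Q hrat hQ hxt hxt0
  have hpol : ∀ v : ι → F,
      lam * polar ⇑Q (jV F₀ xt) (mt(m).mulVec v) = polar ⇑Q (jV F₀ x) v := by
    intro v
    rw [← isometry_polar Q m (jV F₀ x) v, hmx, polar_smul_left]
    rfl
  have hlam2 : lam * lam ∈ F₀ := by
    obtain ⟨d, d', hd, hd', hdd', hSd, hSd'⟩ := exists_rat_hyp F₀ Q hrat hQ {x}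
      (by rw [Finset.card_singleton]; omega)
    have hxd := hSd x (by simp)
    have hxd' := hSd' x (by simp)
    obtain ⟨wt, s, hws⟩ := rat_image_perp F₀ Q hrat hQ M hn hHM hW hm hx hxt0 hxt hmx (d + d')
      (by rw [jV_add, polar_add_right, hxd, hxd', add_zero])
    have h1 : Q (lam • mt(m).mulVec (jV F₀ (d + d'))) = lam * lam := by
      rw [QuadraticMap.map_smul, isometry_apply, jV_add, QuadraticMap.map_add Q, hd, hd', hdd']
      simp
    have h2 : polar ⇑Q (jV F₀ wt) (jV F₀ xt) = 0 := by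
      have h3 : jV F₀ wt = lam • mt(m).mulVec (jV F₀ (d + d')) - s • jV F₀ xt := by
        rw [hws]; abel
      rw [h3, polar_sub_left, polar_smul_left, polar_smul_left,
        polar_comm (⇑Q) _ (jV F₀ xt), smul_eq_mul, hpol, Helper51.polar_self, hxt, jV_add,
        polar_add_right, hxd, hxd']
      simp
    rw [hws, Q_add_smul, hxt, h2] at h1
    have h4 : lam * lam = Q (jV F₀ wt) := by rw [← h1]; ring
    rw [h4]; exact hrat wt
  set u : ι → F := mt(m).mulVec (jV F₀ y) with hu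
  have hQu : Q u = 0 := by rw [hu, isometry_apply, hy]
  have hxtu : lam * polar ⇑Q (jV F₀ xt) u = 1 := by rw [hu, hpol, hxy]
  set v : ι → F := lam • u - jV F₀ yt with hv
  have hxtv : polar ⇑Q (jV F₀ xt) v = 0 := by
    rw [hv, polar_sub_right, polar_smul_right, smul_eq_mul, hxtu, hxtyt, sub_self]
  set k : ↥(Cfsg.isometryGroup F ⇑Q) := eich Q (jV F₀ xt) v hxt hxtv with hk
  have hkΩ : k ∈ commutator ↥(Cfsg.isometryGroup F ⇑Q) :=
    eich_mem_commutator Q hQ (by omega) _ _ hxt hxtv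
  set m₂ : ↥(Cfsg.isometryGroup F ⇑Q) := k * m with hm₂
  have hm₂Ω : m₂ ∈ commutator ↥(Cfsg.isometryGroup F ⇑Q) := Subgroup.mul_mem _ hkΩ (hMΩ hm)
  have hk_xt : mt(k).mulVec (jV F₀ xt) = jV F₀ xt := by
    rw [hk, coe_eich, eichMat_mulVec, Helper51.polar_self, hxt, polar_comm (⇑Q) v, hxtv]
    simp
  have hk_u : mt(k).mulVec (lam • u) = jV F₀ yt := by
    rw [hk, coe_eich, eichMat_mulVec]
    have e1 : polar ⇑Q (jV F₀ xt) (lam • u) = 1 := by
      rw [polar_smul_right, smul_eq_mul, hxtu]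
    have e2 : polar ⇑Q v (lam • u) = - polar ⇑Q (jV F₀ yt) (lam • u) := by
      rw [hv, polar_sub_left, Helper51.polar_self, QuadraticMap.map_smul, hQu]
      simp
    have e3 : Q v = - polar ⇑Q (jV F₀ yt) (lam • u) := by
      rw [hv, sub_eq_add_neg, QuadraticMap.map_add Q, QuadraticMap.map_neg, hyt,
        QuadraticMap.map_smul, hQu, polar_neg_right, polar_comm]
      simp
    rw [e1, e2, e3, hv]
    simp only [mul_one, one_smul]
    abel
  have hrat2 : ∀ v₀ : ι → F₀, ∃ z₀ : ι → F₀, lam • mt(m₂).mulVec (jV F₀ v₀) = jV F₀ z₀ := by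
    intro v₀
    set α : F₀ := ⟨polar ⇑Q (jV F₀ y) (jV F₀ v₀), polar_jV_mem F₀ Q hrat y v₀⟩ with hα
    set β : F₀ := ⟨polar ⇑Q (jV F₀ x) (jV F₀ v₀), polar_jV_mem F₀ Q hrat x v₀⟩ with hβ
    set w₀ : ι → F₀ := v₀ - α • x - β • y with hw₀
    have hw₀j : jV F₀ w₀ = jV F₀ v₀ - polar ⇑Q (jV F₀ y) (jV F₀ v₀) • jV F₀ x
        - polar ⇑Q (jV F₀ x) (jV F₀ v₀) • jV F₀ y := rfl
    have hw₀x : polar ⇑Q (jV F₀ x) (jV F₀ w₀) = 0 := by
      rw [hw₀j, polar_sub_right, polar_sub_right, polar_smul_right, polar_smul_right,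
        Helper51.polar_self, hx, hxy]
      simp
    have hw₀y : polar ⇑Q (jV F₀ y) (jV F₀ w₀) = 0 := by
      rw [hw₀j, polar_sub_right, polar_sub_right, polar_smul_right, polar_smul_right,
        Helper51.polar_self, hy, polar_comm (⇑Q) (jV F₀ y) (jV F₀ x), hxy]
      simp
    obtain ⟨wt, s, hws⟩ := rat_image_perp F₀ Q hrat hQ M hn hHM hW hm hx hxt0 hxt hmx w₀ hw₀x
    have e_x : lam • mt(m₂).mulVec (jV F₀ x) = (lam * lam) • jV F₀ xt := by
      rw [hm₂, coe_mul', ← Matrix.mulVec_mulVec, hmx, Matrix.mulVec_smul, hk_xt, smul_smul]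
    have e_y : lam • mt(m₂).mulVec (jV F₀ y) = jV F₀ yt := by
      rw [hm₂, coe_mul', ← Matrix.mulVec_mulVec, ← Matrix.mulVec_smul, ← hu, hk_u]
    have e_w : ∃ t : F₀, lam • mt(m₂).mulVec (jV F₀ w₀) = jV F₀ wt + (t : F) • jV F₀ xt := by
      have h1 : lam • mt(m₂).mulVec (jV F₀ w₀)
          = mt(k).mulVec (jV F₀ wt) + s • jV F₀ xt := by
        rw [hm₂, coe_mul', ← Matrix.mulVec_mulVec, ← Matrix.mulVec_smul, hws,
          Matrix.mulVec_add, Matrix.mulVec_smul, hk_xt]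
      have h2 : polar ⇑Q (jV F₀ xt) (jV F₀ wt) = 0 := by
        have h3 : jV F₀ wt = lam • mt(m).mulVec (jV F₀ w₀) - s • jV F₀ xt := by
          rw [hws]; abel
        rw [h3, polar_sub_right, polar_smul_right, polar_smul_right, smul_eq_mul, hpol, hw₀x,
          Helper51.polar_self, hxt]
        simp
      have h4 : mt(k).mulVec (jV F₀ wt) = jV F₀ wt + polar ⇑Q v (jV F₀ wt) • jV F₀ xt := by
        rw [hk, coe_eich, eichMat_mulVec, h2]
        simp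
      rw [h4] at h1
      have h5 : polar ⇑Q (lam • mt(m₂).mulVec (jV F₀ w₀))
          (lam • mt(m₂).mulVec (jV F₀ y)) = 0 := by
        rw [polar_smul_left, polar_smul_right, isometry_polar, polar_comm, hw₀y]
        simp
      rw [e_y, h1] at h5
      rw [polar_add_left, polar_add_left, polar_smul_left, polar_smul_left, hxtyt] at h5
      simp only [smul_eq_mul, mul_one] at h5
      refine ⟨-⟨polar ⇑Q (jV F₀ wt) (jV F₀ yt), polar_jV_mem F₀ Q hrat wt yt⟩, ?_⟩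
      rw [h1, add_assoc, ← add_smul]
      have h6 : polar ⇑Q v (jV F₀ wt) + s = -(polar ⇑Q (jV F₀ wt) (jV F₀ yt)) := by
        linear_combination h5
      rw [h6]
      rfl
    obtain ⟨t, ht⟩ := e_w
    refine ⟨α • (⟨lam * lam, hlam2⟩ : F₀) • xt + β • yt + (wt + t • xt), ?_⟩
    have hv₀ : jV F₀ v₀ = (α : F) • jV F₀ x + (β : F) • jV F₀ y + jV F₀ w₀ := by
      rw [hw₀j]
      show jV F₀ v₀ = polar ⇑Q (jV F₀ y) (jV F₀ v₀) • jV F₀ x
        + polar ⇑Q (jV F₀ x) (jV F₀ v₀) • jV F₀ y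
        + (jV F₀ v₀ - polar ⇑Q (jV F₀ y) (jV F₀ v₀) • jV F₀ x
        - polar ⇑Q (jV F₀ x) (jV F₀ v₀) • jV F₀ y)
      abel
    rw [hv₀, Matrix.mulVec_add, Matrix.mulVec_add, Matrix.mulVec_smul, Matrix.mulVec_smul,
      smul_add, smul_add, smul_comm lam (α : F), smul_comm lam (β : F), e_x, e_y, ht]
    rfl
  have hm₂H : (m₂ : Matrix.GeneralLinearGroup ι F) ∈ H1 ι F₀ := by
    refine mem_H1_of F₀ _ lam⁻¹ (inv_ne_zero hlam) (lam • mt(m₂)) ?_ ?_
    · intro i j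
      obtain ⟨z₀, hz₀⟩ := hrat2 (Pi.single j 1)
      have h1 := congrFun hz₀ i
      rw [jV_single] at h1
      have h2 : (lam • mt(m₂)) i j = (z₀ i : F) := by
        rw [← jV_apply, ← h1]
        simp
      rw [h2]; exact (z₀ i).2
    · rw [smul_smul, inv_mul_cancel₀ hlam, one_smul]
  have hm₂M : m₂ ∈ M := hHM m₂ hm₂Ω hm₂H
  have hkM : k ∈ M := by
    have h1 : k = m₂ * m⁻¹ := by rw [hm₂]; group
    rw [h1]; exact M.mul_mem hm₂M (M.inv_mem hm)
  have hTS : TS Q M (jV F₀ xt) v := ⟨hxt, hxtv, hkM⟩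
  obtain ⟨v₀, s, hvs⟩ := rat_of_TS F₀ Q hrat hQ M hn hHM hW hxt0 hTS
  have hxtv₀ : polar ⇑Q (jV F₀ xt) (jV F₀ v₀) = 0 := by
    have h1 := hxtv
    rw [hvs, polar_add_right, polar_smul_right, Helper51.polar_self, hxt] at h1
    simpa using h1
  have hkH : (k : Matrix.GeneralLinearGroup ι F) ∈ H1 ι F₀ := by
    have e : k = eich Q (jV F₀ xt) (jV F₀ v₀) hxt hxtv₀ := by
      apply eich_congr
      rw [hvs, eichMat_add_smul Q _ _ _ hxt hxtv₀]
    rw [e]; exact eich_jV_mem_H1 F₀ Q hrat xt v₀ hxt hxtv₀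
  have hfin : (m : Matrix.GeneralLinearGroup ι F)
      = (k : Matrix.GeneralLinearGroup ι F)⁻¹ * (m₂ : Matrix.GeneralLinearGroup ι F) := by
    rw [hm₂]
    simp
  rw [hfin]
  exact Subgroup.mul_mem _ (Subgroup.inv_mem _ hkH) hm₂H

omit [Fintype F] in
/-- An element of `H1` fixing a non-zero rational vector is a rational matrix. -/
theorem ratM_of_mem_H1_of_fix {g : Matrix.GeneralLinearGroup ι F} (hg : g ∈ H1 ι F₀)
    {x : ι → F₀} (hx0 : x ≠ 0)
    (hfix : (g : Matrix ι ι F).mulVec (jV F₀ x) = jV F₀ x) : RatM F₀ (g : Matrix ι ι F) := by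
  obtain ⟨c, hc0, A, hA, hgA⟩ := exists_of_mem_H1 F₀ g hg
  rw [hgA, Matrix.smul_mulVec] at hfix
  obtain ⟨i, hi⟩ : ∃ i, x i ≠ 0 := by
    by_contra hcon
    push Not at hcon
    exact hx0 (funext hcon)
  have h1 := congrFun hfix i
  rw [Pi.smul_apply, smul_eq_mul, jV_apply] at h1
  have hAx : RatV F₀ (A.mulVec (jV F₀ x)) := ratM_mulVec hA (ratV_jV F₀ x)
  have hne : (A.mulVec (jV F₀ x)) i ≠ 0 := by
    intro h0
    rw [h0, mul_zero] at h1
    exact hi (Subtype.ext h1.symm)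
  have hc : c ∈ F₀ := by
    have h2 : c = (x i : F) / (A.mulVec (jV F₀ x)) i := by
      rw [eq_div_iff hne]; exact h1
    rw [h2]; exact F₀.div_mem (x i).2 (hAx i)
  rw [hgA]; exact ratM_smul hc hA

omit [Fintype F] in
theorem exists_single_polar_ne (hQ : (polarBilin Q).Nondegenerate) (a : ι → F) (ha : a ≠ 0) :
    ∃ j, polar ⇑Q a (Pi.single j 1) ≠ 0 := by
  by_contra hcon
  push Not at hcon
  apply ha
  apply hQ.1
  intro y
  rw [polarBilin_apply_apply]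
  exact polar_eq_zero_of_single Q a hcon y

include hrat hQ hn hHM hW in
/-- A rational Eichler transformation fixing `m x`, conjugated back by `m`, is a rational
matrix. -/
theorem ratM_conj_eich (hMΩ : M ≤ commutator ↥(Cfsg.isometryGroup F ⇑Q))
    {m : ↥(Cfsg.isometryGroup F ⇑Q)} (hm : m ∈ M) {x x' y' : ι → F₀}
    (hx : Q (jV F₀ x) = 0) (hx0 : x ≠ 0) (hx' : Q (jV F₀ x') = 0)
    (hx'y' : polar ⇑Q (jV F₀ x') (jV F₀ y') = 0)
    (h1 : polar ⇑Q (jV F₀ x') (mt(m).mulVec (jV F₀ x)) = 0)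
    (h2 : polar ⇑Q (jV F₀ y') (mt(m).mulVec (jV F₀ x)) = 0) :
    RatM F₀ (eichMat Q (mt((m⁻¹ : ↥(Cfsg.isometryGroup F ⇑Q))).mulVec (jV F₀ x'))
      (mt((m⁻¹ : ↥(Cfsg.isometryGroup F ⇑Q))).mulVec (jV F₀ y'))) := by
  have hT := (rat_TS F₀ Q hrat hQ M (by omega) hHM x' y' hx' hx'y').conj (M.inv_mem hm)
  have hax : polar ⇑Q (mt((m⁻¹ : ↥(Cfsg.isometryGroup F ⇑Q))).mulVec (jV F₀ x')) (jV F₀ x)
      = 0 := by
    rw [← isometry_polar Q m, coe_inv_mulVec]; exact h1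
  have hbx : polar ⇑Q (mt((m⁻¹ : ↥(Cfsg.isometryGroup F ⇑Q))).mulVec (jV F₀ y')) (jV F₀ x)
      = 0 := by
    rw [← isometry_polar Q m, coe_inv_mulVec]; exact h2
  have hfix : mt(eich Q _ _ hT.1 hT.2.1).mulVec (jV F₀ x) = jV F₀ x := by
    rw [coe_eich, eichMat_mulVec, hax, hbx]
    simp
  have hH := mem_H1_of_map_rat F₀ Q hrat hQ M hn hHM hW hMΩ hT.mem hx hx0 (xt := x) (lam := 1)
    (by rw [one_smul]; exact hfix)
  have h3 := ratM_of_mem_H1_of_fix F₀ hH hx0 hfix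
  rwa [coe_eich] at h3

include hrat hQ hn hHM hW in
theorem mem_H1_of_inv_map (hMΩ : M ≤ commutator ↥(Cfsg.isometryGroup F ⇑Q))
    {m : ↥(Cfsg.isometryGroup F ⇑Q)} (hm : m ∈ M) {x' at₀ : ι → F₀} {μ : F}
    (hx' : Q (jV F₀ x') = 0) (hx'0 : x' ≠ 0)
    (h : mt((m⁻¹ : ↥(Cfsg.isometryGroup F ⇑Q))).mulVec (jV F₀ x') = μ • jV F₀ at₀) :
    (m : Matrix.GeneralLinearGroup ι F) ∈ H1 ι F₀ := by
  have h4 := mem_H1_of_map_rat F₀ Q hrat hQ M hn hHM hW hMΩ (M.inv_mem hm) hx' hx'0 h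
  have h5 := Subgroup.inv_mem _ h4
  simpa using h5

include hrat hQ hn hHM hW in
/-- An element of `M` mapping a rational singular vector into the orthogonal complement of a
rational singular vector and of a rational hyperbolic pair orthogonal to it is a scalar multiple
of a rational matrix. -/
theorem mem_H1_of_perp3 (hMΩ : M ≤ commutator ↥(Cfsg.isometryGroup F ⇑Q))
    {m : ↥(Cfsg.isometryGroup F ⇑Q)} (hm : m ∈ M) {x x' y' y'' : ι → F₀}
    (hx : Q (jV F₀ x) = 0) (hx0 : x ≠ 0) (hx' : Q (jV F₀ x') = 0) (hx'0 : x' ≠ 0)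
    (hy' : Q (jV F₀ y') = 0) (hy'' : Q (jV F₀ y'') = 0)
    (hx'y' : polar ⇑Q (jV F₀ x') (jV F₀ y') = 0)
    (hx'y'' : polar ⇑Q (jV F₀ x') (jV F₀ y'') = 0)
    (hy'y'' : polar ⇑Q (jV F₀ y') (jV F₀ y'') = 1)
    (h1 : polar ⇑Q (jV F₀ x') (mt(m).mulVec (jV F₀ x)) = 0)
    (h2 : polar ⇑Q (jV F₀ y') (mt(m).mulVec (jV F₀ x)) = 0)
    (h3 : polar ⇑Q (jV F₀ y'') (mt(m).mulVec (jV F₀ x)) = 0) :
    (m : Matrix.GeneralLinearGroup ι F) ∈ H1 ι F₀ := by
  have hR1 := ratM_conj_eich F₀ Q hrat hQ M hn hHM hW hMΩ hm hx hx0 hx' hx'y' h1 h2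
  have hR2 := ratM_conj_eich F₀ Q hrat hQ M hn hHM hW hMΩ hm hx hx0 hx' hx'y'' h1 h3
  set a : ι → F := mt((m⁻¹ : ↥(Cfsg.isometryGroup F ⇑Q))).mulVec (jV F₀ x') with ha
  set b₁ : ι → F := mt((m⁻¹ : ↥(Cfsg.isometryGroup F ⇑Q))).mulVec (jV F₀ y') with hb₁
  set b₂ : ι → F := mt((m⁻¹ : ↥(Cfsg.isometryGroup F ⇑Q))).mulVec (jV F₀ y'') with hb₂
  have ha0 : a ≠ 0 := by
    intro h0
    have h4 := coe_inv_mulVec Q m (jV F₀ x')
    rw [← ha, h0, Matrix.mulVec_zero] at h4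
    exact jV_ne_zero F₀ hx'0 h4.symm
  have hQa : Q a = 0 := by rw [ha, isometry_apply, hx']
  have hQb₁ : Q b₁ = 0 := by rw [hb₁, isometry_apply, hy']
  have hQb₂ : Q b₂ = 0 := by rw [hb₂, isometry_apply, hy'']
  have hab₁ : polar ⇑Q a b₁ = 0 := by rw [ha, hb₁, isometry_polar]; exact hx'y'
  have hab₂ : polar ⇑Q a b₂ = 0 := by rw [ha, hb₂, isometry_polar]; exact hx'y''
  have hb₁b₂ : polar ⇑Q b₁ b₂ = 1 := by rw [hb₁, hb₂, isometry_polar]; exact hy'y''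
  obtain ⟨j, hj⟩ := exists_single_polar_ne Q hQ a ha0
  set e : ι → F := Pi.single j 1 with he
  have her : RatV F₀ e := ratV_single F₀ j F₀.one_mem
  set w : ι → F := (eichMat Q a b₂).mulVec e - e with hw
  have hwr : RatV F₀ w := ratV_sub (ratM_mulVec hR2 her) her
  have hw' : w = polar ⇑Q b₂ e • a - polar ⇑Q a e • b₂ := by
    rw [hw, eichMat_mulVec, hQb₂]
    simp only [zero_mul, zero_smul, sub_zero]
    abel
  set w2 : ι → F := (eichMat Q a b₁).mulVec w - w with hw2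
  have hw2r : RatV F₀ w2 := ratV_sub (ratM_mulVec hR1 hwr) hwr
  have hw2' : w2 = (-polar ⇑Q a e) • a := by
    have e1 : polar ⇑Q a w = 0 := by
      rw [hw', polar_sub_right, polar_smul_right, polar_smul_right, Helper51.polar_self, hQa,
        hab₂]
      simp
    have e2 : polar ⇑Q b₁ w = -polar ⇑Q a e := by
      rw [hw', polar_sub_right, polar_smul_right, polar_smul_right, polar_comm (⇑Q) b₁ a,
        hab₁, hb₁b₂]
      simp
    rw [hw2, eichMat_mulVec, hQb₁, e1, e2]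
    simp
  obtain ⟨at₀, hat⟩ := exists_jV_of_ratV F₀ hw2r
  apply mem_H1_of_inv_map F₀ Q hrat hQ M hn hHM hW hMΩ hm hx' hx'0 (at₀ := at₀)
    (μ := (-polar ⇑Q a e)⁻¹)
  rw [hat, hw2', smul_smul, inv_mul_cancel₀ (neg_ne_zero.mpr hj), one_smul]

include hrat hQ hn hHM hW in
/-- Variant with a rational totally singular pair orthogonal to `m x`. -/
theorem mem_H1_of_perp_long (hMΩ : M ≤ commutator ↥(Cfsg.isometryGroup F ⇑Q))
    {m : ↥(Cfsg.isometryGroup F ⇑Q)} (hm : m ∈ M) {x x' y' : ι → F₀}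
    (hx : Q (jV F₀ x) = 0) (hx0 : x ≠ 0) (hx' : Q (jV F₀ x') = 0) (hx'0 : x' ≠ 0)
    (hy' : Q (jV F₀ y') = 0) (hx'y' : polar ⇑Q (jV F₀ x') (jV F₀ y') = 0)
    (hind : ∀ β : F₀, y' ≠ β • x')
    (h1 : polar ⇑Q (jV F₀ x') (mt(m).mulVec (jV F₀ x)) = 0)
    (h2 : polar ⇑Q (jV F₀ y') (mt(m).mulVec (jV F₀ x)) = 0) :
    (m : Matrix.GeneralLinearGroup ι F) ∈ H1 ι F₀ := by
  classical
  have hR := ratM_conj_eich F₀ Q hrat hQ M hn hHM hW hMΩ hm hx hx0 hx' hx'y' h1 h2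
  set a : ι → F := mt((m⁻¹ : ↥(Cfsg.isometryGroup F ⇑Q))).mulVec (jV F₀ x') with ha
  set b : ι → F := mt((m⁻¹ : ↥(Cfsg.isometryGroup F ⇑Q))).mulVec (jV F₀ y') with hb
  have hma : mt(m).mulVec a = jV F₀ x' := by rw [ha, coe_inv_mulVec]
  have hmb : mt(m).mulVec b = jV F₀ y' := by rw [hb, coe_inv_mulVec]
  have ha0 : a ≠ 0 := by
    intro h0
    rw [h0, Matrix.mulVec_zero] at hma
    exact jV_ne_zero F₀ hx'0 hma.symm
  have hQa : Q a = 0 := by rw [ha, isometry_apply, hx']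
  have hQb : Q b = 0 := by rw [hb, isometry_apply, hy']
  have hab : polar ⇑Q a b = 0 := by rw [ha, hb, isometry_polar]; exact hx'y'
  have hN : ∀ j : ι, RatV F₀ (polar ⇑Q b (Pi.single j 1) • a - polar ⇑Q a (Pi.single j 1) • b) := by
    intro j
    have her : RatV F₀ (Pi.single j (1 : F) : ι → F) := ratV_single F₀ j F₀.one_mem
    have h3 : polar ⇑Q b (Pi.single j 1) • a - polar ⇑Q a (Pi.single j 1) • b
        = (eichMat Q a b).mulVec (Pi.single j 1) - Pi.single j 1 := by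
      rw [eichMat_mulVec, hQb]
      simp only [zero_mul, zero_smul, sub_zero]
      abel
    rw [h3]
    exact ratV_sub (ratM_mulVec hR her) her
  obtain ⟨j, hj⟩ : ∃ j, polar ⇑Q b (Pi.single j 1) • a - polar ⇑Q a (Pi.single j 1) • b ≠ 0 := by
    by_contra hcon
    push Not at hcon
    obtain ⟨j, hj⟩ := exists_single_polar_ne Q hQ a ha0
    have h3 := hcon j
    have h4 : b = (polar ⇑Q b (Pi.single j 1) / polar ⇑Q a (Pi.single j 1)) • a := by
      rw [div_eq_inv_mul, ← smul_smul, sub_eq_zero.mp h3, smul_smul, inv_mul_cancel₀ hj,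
        one_smul]
    obtain ⟨γ, hγ⟩ : ∃ γ : F, b = γ • a := ⟨_, h4⟩
    have h5 : jV F₀ y' = γ • jV F₀ x' := by
      rw [← hmb, hγ, Matrix.mulVec_smul, hma]
    obtain ⟨i, hi⟩ : ∃ i, x' i ≠ 0 := by
      by_contra hcon2
      push Not at hcon2
      exact hx'0 (funext hcon2)
    have hi' : (x' i : F) ≠ 0 := fun h0 => hi (Subtype.ext h0)
    have h6 := congrFun h5 i
    rw [Pi.smul_apply, smul_eq_mul, jV_apply, jV_apply] at h6
    have h7 : γ = (y' i : F) / (x' i : F) := by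
      rw [eq_div_iff hi']; exact h6.symm
    apply hind (y' i / x' i)
    apply jV_injective F₀
    rw [jV_smul, h5, h7]
    rfl
  obtain ⟨x₂, hx₂⟩ := exists_jV_of_ratV F₀ (hN j)
  have hx₂0 : x₂ ≠ 0 := by
    rintro rfl
    rw [jV_zero] at hx₂
    exact hj hx₂.symm
  have hQx₂ : Q (jV F₀ x₂) = 0 := by
    rw [hx₂, sub_eq_add_neg, ← neg_smul, QuadraticMap.map_add Q, QuadraticMap.map_smul,
      QuadraticMap.map_smul, hQa, hQb, polar_smul_left, polar_smul_right, hab]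
    simp
  have hmx₂ : mt(m).mulVec (jV F₀ x₂) = polar ⇑Q b (Pi.single j 1) • jV F₀ x'
      - polar ⇑Q a (Pi.single j 1) • jV F₀ y' := by
    rw [hx₂, Matrix.mulVec_sub, Matrix.mulVec_smul, Matrix.mulVec_smul, hma, hmb]
  obtain ⟨d, d', hd, hd', hdd', hSd, hSd'⟩ := exists_rat_hyp F₀ Q hrat hQ {x', y'}
    (by have := Finset.card_le_two (a := x') (b := y'); omega)
  have hx'd : polar ⇑Q (jV F₀ x') (jV F₀ d) = 0 := hSd x' (by simp)
  have hy'd : polar ⇑Q (jV F₀ y') (jV F₀ d) = 0 := hSd y' (by simp)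
  have hx'd' : polar ⇑Q (jV F₀ x') (jV F₀ d') = 0 := hSd' x' (by simp)
  have hy'd' : polar ⇑Q (jV F₀ y') (jV F₀ d') = 0 := hSd' y' (by simp)
  apply mem_H1_of_perp3 F₀ Q hrat hQ M hn hHM hW hMΩ hm hQx₂ hx₂0 hx' hx'0 hd hd' hx'd hx'd' hdd'
  · rw [hmx₂, polar_sub_right, polar_smul_right, polar_smul_right, Helper51.polar_self, hx',
      hx'y']
    simp
  · rw [hmx₂, polar_sub_right, polar_smul_right, polar_smul_right,
      polar_comm (⇑Q) (jV F₀ d) (jV F₀ x'), hx'd, polar_comm (⇑Q) (jV F₀ d) (jV F₀ y'), hy'd]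
    simp
  · rw [hmx₂, polar_sub_right, polar_smul_right, polar_smul_right,
      polar_comm (⇑Q) (jV F₀ d') (jV F₀ x'), hx'd', polar_comm (⇑Q) (jV F₀ d') (jV F₀ y'), hy'd']
    simp

include hrat hQ hn hHM hW in
/-- Variant in odd characteristic with a rational singular vector and a rational non-singular
vector orthogonal to it, both orthogonal to `m x`. -/
theorem mem_H1_of_perp_short (h2F : (2 : F) ≠ 0)
    (hMΩ : M ≤ commutator ↥(Cfsg.isometryGroup F ⇑Q))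
    {m : ↥(Cfsg.isometryGroup F ⇑Q)} (hm : m ∈ M) {x x' y' : ι → F₀}
    (hx : Q (jV F₀ x) = 0) (hx0 : x ≠ 0) (hx' : Q (jV F₀ x') = 0) (hx'0 : x' ≠ 0)
    (hy' : Q (jV F₀ y') ≠ 0) (hx'y' : polar ⇑Q (jV F₀ x') (jV F₀ y') = 0)
    (h1 : polar ⇑Q (jV F₀ x') (mt(m).mulVec (jV F₀ x)) = 0)
    (h2 : polar ⇑Q (jV F₀ y') (mt(m).mulVec (jV F₀ x)) = 0) :
    (m : Matrix.GeneralLinearGroup ι F) ∈ H1 ι F₀ := by
  have hR := ratM_conj_eich F₀ Q hrat hQ M hn hHM hW hMΩ hm hx hx0 hx' hx'y' h1 h2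
  set a : ι → F := mt((m⁻¹ : ↥(Cfsg.isometryGroup F ⇑Q))).mulVec (jV F₀ x') with ha
  set b : ι → F := mt((m⁻¹ : ↥(Cfsg.isometryGroup F ⇑Q))).mulVec (jV F₀ y') with hb
  have ha0 : a ≠ 0 := by
    intro h0
    have h4 := coe_inv_mulVec Q m (jV F₀ x')
    rw [← ha, h0, Matrix.mulVec_zero] at h4
    exact jV_ne_zero F₀ hx'0 h4.symm
  have hQa : Q a = 0 := by rw [ha, isometry_apply, hx']
  have hQb : Q b ≠ 0 := by rw [hb, isometry_apply]; exact hy'
  have hab : polar ⇑Q a b = 0 := by rw [ha, hb, isometry_polar]; exact hx'y'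
  obtain ⟨j, hj⟩ := exists_single_polar_ne Q hQ a ha0
  set e : ι → F := Pi.single j 1 with he
  have her : RatV F₀ e := ratV_single F₀ j F₀.one_mem
  set w : ι → F := (eichMat Q a b).mulVec e - e with hw
  have hwr : RatV F₀ w := ratV_sub (ratM_mulVec hR her) her
  have hw' : w = (polar ⇑Q b e - Q b * polar ⇑Q a e) • a - polar ⇑Q a e • b := by
    rw [hw, eichMat_mulVec, sub_smul]
    abel
  set w2 : ι → F := (eichMat Q a b).mulVec w - w with hw2
  have hw2r : RatV F₀ w2 := ratV_sub (ratM_mulVec hR hwr) hwr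
  have hw2' : w2 = (-(2 * Q b * polar ⇑Q a e)) • a := by
    have e1 : polar ⇑Q a w = 0 := by
      rw [hw', polar_sub_right, polar_smul_right, polar_smul_right, Helper51.polar_self, hQa,
        hab]
      simp
    have e2 : polar ⇑Q b w = -(2 * Q b * polar ⇑Q a e) := by
      rw [hw', polar_sub_right, polar_smul_right, polar_smul_right, polar_comm (⇑Q) b a,
        hab, Helper51.polar_self]
      simp only [smul_eq_mul]
      ring
    rw [hw2, eichMat_mulVec, e1, e2]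
    simp
  obtain ⟨at₀, hat⟩ := exists_jV_of_ratV F₀ hw2r
  have hμ : -(2 * Q b * polar ⇑Q a e) ≠ 0 :=
    neg_ne_zero.mpr (mul_ne_zero (mul_ne_zero h2F hQb) hj)
  apply mem_H1_of_inv_map F₀ Q hrat hQ M hn hHM hW hMΩ hm hx' hx'0 (at₀ := at₀)
    (μ := (-(2 * Q b * polar ⇑Q a e))⁻¹)
  rw [hat, hw2', smul_smul, inv_mul_cancel₀ hμ, one_smul]

include hrat hQ hn hHM hW in
/-- Odd characteristic: a rational singular vector `x'` and a rational vector `y'` orthogonal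
to it and not proportional to it, both orthogonal to `m x`. -/
theorem mem_H1_of_perp2 (h2F : (2 : F) ≠ 0)
    (hMΩ : M ≤ commutator ↥(Cfsg.isometryGroup F ⇑Q))
    {m : ↥(Cfsg.isometryGroup F ⇑Q)} (hm : m ∈ M) {x x' y' : ι → F₀}
    (hx : Q (jV F₀ x) = 0) (hx0 : x ≠ 0) (hx' : Q (jV F₀ x') = 0) (hx'0 : x' ≠ 0)
    (hx'y' : polar ⇑Q (jV F₀ x') (jV F₀ y') = 0) (hind : ∀ β : F₀, y' ≠ β • x')
    (h1 : polar ⇑Q (jV F₀ x') (mt(m).mulVec (jV F₀ x)) = 0)
    (h2 : polar ⇑Q (jV F₀ y') (mt(m).mulVec (jV F₀ x)) = 0) :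
    (m : Matrix.GeneralLinearGroup ι F) ∈ H1 ι F₀ := by
  by_cases hy' : Q (jV F₀ y') = 0
  · exact mem_H1_of_perp_long F₀ Q hrat hQ M hn hHM hW hMΩ hm hx hx0 hx' hx'0 hy' hx'y' hind
      h1 h2
  · exact mem_H1_of_perp_short F₀ Q hrat hQ M hn hHM hW h2F hMΩ hm hx hx0 hx' hx'0 hy' hx'y'
      h1 h2

end SubfFix

end Cfsg.Agent.Lib.Helper52
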