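import Mathlib
import Cfsg.Agent.Lib.Helper52.SubfFix

/-!
Rational involutive isometries in odd characteristic: their rational eigenspaces, and some
linear algebra over the subfield.
-/

set_option autoImplicit false
set_option linter.unusedSectionVars false

namespace Cfsg.Agent.Lib.Helper52

open Module QuadraticMap
open Cfsg.Agent.Lib.Helper51 Cfsg.Agent.Lib.Helper50

section SubfInvol

variable {ι : Type} [Fintype ι] [DecidableEq ι] {F : Type*} [Field F]

local notation "mt(" g ")" => ((g : Matrix.GeneralLinearGroup ι F) : Matrix ι ι F)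

/-- A rational involutive isometry matrix. -/
structure RInv (F₀ : Subfield F) (Q : QuadraticForm F (ι → F)) (Z : Matrix ι ι F) : Prop where
  rat : RatM F₀ Z
  sq : Z * Z = 1
  isom : ∀ v, Q (Z.mulVec v) = Q v

/-- The rational vectors fixed by a matrix. -/
def fixR (F₀ : Subfield F) (Z : Matrix ι ι F) : Submodule F₀ (ι → F₀) where
  carrier := {v | Z.mulVec (jV F₀ v) = jV F₀ v}
  add_mem' := by
    intro a b ha hb
    simp only [Set.mem_setOf_eq] at ha hb ⊢
    rw [jV_add, Matrix.mulVec_add, ha, hb]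
  zero_mem' := by
    simp only [Set.mem_setOf_eq]
    rw [jV_zero, Matrix.mulVec_zero]
  smul_mem' := by
    intro c v hv
    simp only [Set.mem_setOf_eq] at hv ⊢
    rw [jV_smul, Matrix.mulVec_smul, hv]

variable {F₀ : Subfield F} {Q : QuadraticForm F (ι → F)}

theorem mem_fixR {Z : Matrix ι ι F} {v : ι → F₀} :
    v ∈ fixR F₀ Z ↔ Z.mulVec (jV F₀ v) = jV F₀ v := Iff.rfl

theorem mem_fixR_neg {Z : Matrix ι ι F} {v : ι → F₀} :
    v ∈ fixR F₀ (-Z) ↔ Z.mulVec (jV F₀ v) = -jV F₀ v := by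
  rw [mem_fixR, Matrix.neg_mulVec, neg_eq_iff_eq_neg]

theorem RInv.neg {Z : Matrix ι ι F} (h : RInv F₀ Q Z) : RInv F₀ Q (-Z) where
  rat := fun i j => by rw [Matrix.neg_apply]; exact F₀.neg_mem (h.rat i j)
  sq := by rw [neg_mul_neg]; exact h.sq
  isom := fun v => by rw [Matrix.neg_mulVec, QuadraticMap.map_neg]; exact h.isom v

theorem RInv.polar_map {Z : Matrix ι ι F} (h : RInv F₀ Q Z) (u v : ι → F) :
    polar ⇑Q (Z.mulVec u) (Z.mulVec v) = polar ⇑Q u v := by
  simp only [QuadraticMap.polar, ← Matrix.mulVec_add, h.isom]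

theorem RInv.mulVec_mulVec {Z : Matrix ι ι F} (h : RInv F₀ Q Z) (v : ι → F) :
    Z.mulVec (Z.mulVec v) = v := by
  rw [Matrix.mulVec_mulVec, h.sq, Matrix.one_mulVec]

theorem rinv_of (z : ↥(Cfsg.isometryGroup F ⇑Q)) (hzz : z * z = 1) (hr : RatM F₀ mt(z)) :
    RInv F₀ Q mt(z) where
  rat := hr
  sq := by rw [← coe_mul', hzz]; rfl
  isom := isometry_apply Q z

/-- Eigenvectors of an isometric involution for `1` and `-1` are orthogonal. -/
theorem RInv.polar_fix_neg (h2 : (2 : F) ≠ 0) {Z : Matrix ι ι F} (h : RInv F₀ Q Z)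
    {u w : ι → F} (hu : Z.mulVec u = u) (hw : Z.mulVec w = -w) : polar ⇑Q u w = 0 := by
  have h1 := h.polar_map u w
  rw [hu, hw, polar_neg_right] at h1
  have h3 : (2 : F) * polar ⇑Q u w = 0 := by linear_combination -h1
  exact (mul_eq_zero.mp h3).resolve_left h2

theorem RInv.exists_decomp (h2 : (2 : F) ≠ 0) {Z : Matrix ι ι F} (h : RInv F₀ Q Z)
    (v : ι → F₀) : ∃ p ∈ fixR F₀ Z, ∃ q ∈ fixR F₀ (-Z), v = p + q := by
  obtain ⟨w, hw⟩ := exists_jV_of_ratV F₀ (ratM_mulVec h.rat (ratV_jV F₀ v))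
  have hZw : Z.mulVec (jV F₀ w) = jV F₀ v := by rw [hw, h.mulVec_mulVec]
  have h20 : (2 : F₀) ≠ 0 := by
    intro h0
    apply h2
    have h3 : ((1 + 1 : F₀) : F) = 0 := by rw [one_add_one_eq_two, h0]; rfl
    have h4 : ((1 + 1 : F₀) : F) = 1 + 1 := rfl
    rw [h4, one_add_one_eq_two] at h3
    exact h3
  refine ⟨(2 : F₀)⁻¹ • (v + w), ?_, (2 : F₀)⁻¹ • (v - w), ?_, ?_⟩
  · apply (fixR F₀ Z).smul_mem
    rw [mem_fixR, jV_add, Matrix.mulVec_add, hZw, ← hw, add_comm]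
  · apply (fixR F₀ (-Z)).smul_mem
    rw [mem_fixR_neg, jV_sub, Matrix.mulVec_sub, hZw, ← hw, neg_sub]
  · rw [← smul_add]
    have e : v + w + (v - w) = (2 : F₀) • v := by rw [two_smul]; abel
    rw [e, smul_smul, inv_mul_cancel₀ h20, one_smul]

/-- A rational vector orthogonal to all rational `-1`-eigenvectors is fixed. -/
theorem RInv.mem_fixR_of_perp (h2 : (2 : F) ≠ 0) (hQ : (polarBilin Q).Nondegenerate)
    {Z : Matrix ι ι F} (h : RInv F₀ Q Z) {y : ι → F₀}
    (hy : ∀ w ∈ fixR F₀ (-Z), polar ⇑Q (jV F₀ w) (jV F₀ y) = 0) : y ∈ fixR F₀ Z := by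
  obtain ⟨p, hp, q, hq, hpq⟩ := h.exists_decomp h2 y
  have hq0 : q = 0 := by
    apply jV_eq_zero F₀
    apply eq_zero_of_polar_jV F₀ Q hQ
    intro v₀
    obtain ⟨p', hp', q', hq', hpq'⟩ := h.exists_decomp h2 v₀
    rw [hpq', jV_add, polar_add_left,
      h.polar_fix_neg h2 (mem_fixR.mp hp') (mem_fixR_neg.mp hq), zero_add]
    have h3 := hy q' hq'
    rw [hpq, jV_add, polar_add_right, polar_comm ⇑Q (jV F₀ q') (jV F₀ p),
      h.polar_fix_neg h2 (mem_fixR.mp hp) (mem_fixR_neg.mp hq'), zero_add] at h3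
    exact h3
  rw [hpq, hq0, add_zero]
  exact hp

/-- If an isometry `b` commutes with the involution `Z`, it maps `-1`-eigenvectors into the
orthogonal complement of the fixed vectors. -/
theorem RInv.polar_comm_eq_zero (h2 : (2 : F) ≠ 0) {Z : Matrix ι ι F} (h : RInv F₀ Q Z)
    (B : Matrix ι ι F) (hB : B * Z = Z * B) {x y : ι → F} (hx : Z.mulVec x = -x)
    (hy : Z.mulVec y = y) : polar ⇑Q (B.mulVec x) y = 0 := by
  rw [polar_comm]
  apply h.polar_fix_neg h2 hy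
  rw [Matrix.mulVec_mulVec, ← hB, ← Matrix.mulVec_mulVec, hx, Matrix.mulVec_neg]

theorem RInv.exists_neg_ne_zero (h2 : (2 : F) ≠ 0) {Z : Matrix ι ι F} (h : RInv F₀ Q Z)
    (hZ1 : Z ≠ 1) : ∃ v ∈ fixR F₀ (-Z), v ≠ 0 := by
  by_contra hcon
  push Not at hcon
  apply hZ1
  apply matrix_ext_mulVec
  intro x
  rw [Matrix.one_mulVec]
  have hx : x = ∑ j, x j • (Pi.single j (1 : F) : ι → F) := by
    funext i
    simp [Finset.sum_apply, Pi.single_apply]
  have hfix : ∀ j : ι, Z.mulVec (Pi.single j (1 : F) : ι → F) = Pi.single j (1 : F) := by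
    intro j
    obtain ⟨p, hp, q, hq, hpq⟩ := h.exists_decomp h2 (Pi.single j (1 : F₀))
    rw [hcon q hq, add_zero] at hpq
    have h1 := mem_fixR.mp hp
    rw [← hpq, jV_single] at h1
    simpa using h1
  rw [hx, Matrix.mulVec_sum]
  apply Finset.sum_congr rfl
  intro j _
  rw [Matrix.mulVec_smul, hfix j]

theorem fixR_invariant {Z A : Matrix ι ι F} (hAZ : A * Z = Z * A) {v w : ι → F₀}
    (hv : v ∈ fixR F₀ Z) (hw : jV F₀ w = A.mulVec (jV F₀ v)) : w ∈ fixR F₀ Z := by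
  rw [mem_fixR, hw, Matrix.mulVec_mulVec, ← hAZ, ← Matrix.mulVec_mulVec, mem_fixR.mp hv]

/-- A non-zero rational subspace invariant under a rational involution contains an
eigenvector. -/
theorem RInv.exists_eigen {A : Matrix ι ι F} (hA : RInv F₀ Q A) (W : Submodule F₀ (ι → F₀))
    (hinv : ∀ v ∈ W, ∀ w : ι → F₀, jV F₀ w = A.mulVec (jV F₀ v) → w ∈ W)
    (hW : ∃ v ∈ W, v ≠ 0) :
    ∃ w ∈ W, w ≠ 0 ∧ (w ∈ fixR F₀ A ∨ w ∈ fixR F₀ (-A)) := by
  obtain ⟨v, hv, hv0⟩ := hW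
  obtain ⟨w, hw⟩ := exists_jV_of_ratV F₀ (ratM_mulVec hA.rat (ratV_jV F₀ v))
  have hwW := hinv v hv w hw
  have hAw : A.mulVec (jV F₀ w) = jV F₀ v := by rw [hw, hA.mulVec_mulVec]
  by_cases h0 : v + w = 0
  · refine ⟨v, hv, hv0, Or.inr ?_⟩
    rw [mem_fixR_neg, ← hw]
    have e : w = -v := (neg_eq_of_add_eq_zero_right h0).symm
    rw [e]
    rfl
  · refine ⟨v + w, W.add_mem hv hwW, h0, Or.inl ?_⟩
    rw [mem_fixR, jV_add, Matrix.mulVec_add, ← hw, hAw, add_comm]

/-! ### Linear algebra over the subfield -/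

variable [Fintype F] (F₀ Q)
variable (hrat : ∀ v : ι → F₀, Q (jV F₀ v) ∈ F₀) (hQ : (polarBilin Q).Nondegenerate)

include hrat in
theorem finrank_le_two_of_aniso (W : Submodule F₀ (ι → F₀))
    (hW : ∀ v ∈ W, Q (jV F₀ v) = 0 → v = 0) : finrank F₀ W ≤ 2 := by
  classical
  let _ : Fintype F₀ := Fintype.ofFinite F₀
  by_contra hcon
  obtain ⟨w, hw, hw0, hQw⟩ := exists_singular_of_finrank (Q0 F₀ Q hrat) W (by omega)
  exact hw0 (hW w hw ((Q0_eq_zero_iff F₀ Q hrat w).mp hQw))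

/-- The rational orthogonal complement of a rational subspace. -/
noncomputable def perpR (W : Submodule F₀ (ι → F₀)) : Submodule F₀ (ι → F₀) :=
  LinearMap.BilinForm.orthogonal (polarBilin (Q0 F₀ Q hrat)) W

theorem mem_perpR (W : Submodule F₀ (ι → F₀)) (y : ι → F₀) :
    y ∈ perpR F₀ Q hrat W ↔ ∀ w ∈ W, polar ⇑Q (jV F₀ w) (jV F₀ y) = 0 := by
  unfold perpR
  rw [LinearMap.BilinForm.mem_orthogonal_iff]
  constructor
  · intro h w hw
    have := h w hw
    exact (polar_Q0_eq_zero_iff F₀ Q hrat w y).mp this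
  · intro h w hw
    exact (polar_Q0_eq_zero_iff F₀ Q hrat w y).mpr (h w hw)

include hQ in
theorem finrank_perpR (W : Submodule F₀ (ι → F₀)) :
    finrank F₀ (perpR F₀ Q hrat W) + finrank F₀ W = Fintype.card ι := by
  unfold perpR
  rw [LinearMap.BilinForm.finrank_orthogonal (Q0_nondeg F₀ Q hrat hQ),
    Module.finrank_fintype_fun_eq_card]
  have h2 := Submodule.finrank_le W
  rw [Module.finrank_fintype_fun_eq_card] at h2
  omega

include hrat hQ in
/-- A rational subspace of dimension at least three contains a non-zero singular vector and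
a vector orthogonal to it, not proportional to it. -/
theorem exists_sing_perp_pair (W : Submodule F₀ (ι → F₀)) (hW : 3 ≤ finrank F₀ W) :
    ∃ x' ∈ W, ∃ y' ∈ W, x' ≠ 0 ∧ Q (jV F₀ x') = 0 ∧
      polar ⇑Q (jV F₀ x') (jV F₀ y') = 0 ∧ ∀ β : F₀, y' ≠ β • x' := by
  classical
  let _ : Fintype F₀ := Fintype.ofFinite F₀
  obtain ⟨x', hx', hx'0, hQx'⟩ := exists_singular_of_finrank (Q0 F₀ Q hrat) W hW
  have h1 := finrank_perpR F₀ Q hrat hQ (Submodule.span F₀ {x'})
  have h2 : finrank F₀ (Submodule.span F₀ ({x'} : Set (ι → F₀))) ≤ 1 :=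
    (finrank_span_singleton hx'0).le
  have h3 := Submodule.finrank_sup_add_finrank_inf_eq W
    (perpR F₀ Q hrat (Submodule.span F₀ {x'}))
  have h4 := Submodule.finrank_le (W ⊔ perpR F₀ Q hrat (Submodule.span F₀ {x'}))
  rw [Module.finrank_fintype_fun_eq_card] at h4
  have h5 : 2 ≤ finrank F₀ (W ⊓ perpR F₀ Q hrat (Submodule.span F₀ {x'}) :
      Submodule F₀ (ι → F₀)) := by omega
  have h6 : ¬ (W ⊓ perpR F₀ Q hrat (Submodule.span F₀ {x'}) ≤ Submodule.span F₀ {x'}) := by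
    intro hle
    have := Submodule.finrank_mono hle
    omega
  obtain ⟨y', hy', hy'n⟩ := SetLike.not_le_iff_exists.mp h6
  refine ⟨x', hx', y', hy'.1, hx'0, (Q0_eq_zero_iff F₀ Q hrat x').mp hQx', ?_, ?_⟩
  · exact (mem_perpR F₀ Q hrat _ y').mp hy'.2 x' (Submodule.mem_span_singleton_self x')
  · intro β hβ
    apply hy'n
    rw [hβ]
    exact Submodule.smul_mem _ _ (Submodule.mem_span_singleton_self x')

/-- A subspace of dimension at most two is contained in the span of two of its vectors. -/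
theorem exists_span_pair (T : Submodule F₀ (ι → F₀)) (hT : finrank F₀ T ≤ 2) :
    ∃ v ∈ T, ∃ v' ∈ T, ∀ w ∈ T, ∃ α β : F₀, w = α • v + β • v' := by
  obtain ⟨d, hd⟩ : ∃ d, d = finrank F₀ T := ⟨_, rfl⟩
  have b : Basis (Fin d) F₀ T := (Module.finBasis F₀ T).reindex (finCongr hd.symm)
  have hd2 : d ≤ 2 := by omega
  interval_cases d
  · refine ⟨0, T.zero_mem, 0, T.zero_mem, ?_⟩
    intro w hw
    have h1 := b.sum_repr ⟨w, hw⟩
    rw [Finset.univ_eq_empty, Finset.sum_empty] at h1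
    refine ⟨0, 0, ?_⟩
    have := congrArg Subtype.val h1
    simpa using this.symm
  · refine ⟨b 0, (b 0).2, 0, T.zero_mem, ?_⟩
    intro w hw
    have h1 := b.sum_repr ⟨w, hw⟩
    rw [Fin.sum_univ_one] at h1
    refine ⟨b.repr ⟨w, hw⟩ 0, 0, ?_⟩
    have := congrArg Subtype.val h1
    simpa using this.symm
  · refine ⟨b 0, (b 0).2, b 1, (b 1).2, ?_⟩
    intro w hw
    have h1 := b.sum_repr ⟨w, hw⟩
    rw [Fin.sum_univ_two] at h1
    refine ⟨b.repr ⟨w, hw⟩ 0, b.repr ⟨w, hw⟩ 1, ?_⟩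
    have := congrArg Subtype.val h1
    simpa using this.symm

end SubfInvol

end Cfsg.Agent.Lib.Helper52
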