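import Mathlib
import Cfsg.Agent.Lib.Helper52.SubfFix

/-!
The subfield subgroup of `Ω(Q)` is maximal, assuming the "overgroup step": an overgroup `M`
whose parameter field is `F₀` consists of scalar multiples of rational matrices.
Also the transport from a form `ζ Q ∘ P` to `Q`.
-/

set_option autoImplicit false
set_option linter.unusedSectionVars false

namespace Cfsg.Agent.Lib.Helper52

open Module QuadraticMap
open Cfsg.Agent.Lib.Helper51 Cfsg.Agent.Lib.Helper50

section SubfMain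

variable {ι : Type} [Fintype ι] [DecidableEq ι] {F : Type*} [Field F]

local notation "mt(" g ")" => ((g : Matrix.GeneralLinearGroup ι F) : Matrix ι ι F)

theorem exists_not_mem_subfield [Fintype F] (F₀ : Subfield F) (r : ℕ) (hr : r.Prime)
    (hcard : Fintype.card F = Nat.card F₀ ^ r) : ∃ c : F, c ∉ F₀ := by
  by_contra hcon
  push Not at hcon
  have h1 : Nat.card F₀ = Fintype.card F := by
    rw [← Nat.card_eq_fintype_card]
    exact Nat.card_congr (Equiv.subtypeUnivEquiv hcon)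
  have h2 : 1 < Nat.card F₀ := Finite.one_lt_card
  have h3 : Nat.card F₀ ^ 1 < Nat.card F₀ ^ r := Nat.pow_lt_pow_right h2 hr.one_lt
  rw [pow_one, ← hcard, h1] at h3
  exact lt_irrefl _ h3

/-- The subfield subgroup of `Ω(Q)` is maximal, given the overgroup step. -/
theorem subfield_isMaximalIn [Fintype F] (F₀ : Subfield F) (Q : QuadraticForm F (ι → F))
    (hrat : ∀ v : ι → F₀, Q (jV F₀ v) ∈ F₀) (hQ : (polarBilin Q).Nondegenerate)
    (hn : 13 ≤ Fintype.card ι) (r : ℕ) (hr : r.Prime)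
    (hcard : Fintype.card F = Nat.card F₀ ^ r)
    (hstep : ∀ M : Subgroup ↥(Cfsg.isometryGroup F ⇑Q), RatLe F₀ Q M →
      (∀ c : F, InW F₀ Q M c → c ∈ F₀) → M ≤ commutator ↥(Cfsg.isometryGroup F ⇑Q) →
      ∀ m ∈ M, (m : Matrix.GeneralLinearGroup ι F) ∈ H1 ι F₀) :
    Cfsg.Geo.IsMaximalIn (Cfsg.Geo.omegaGL ⇑Q) (H1 ι F₀ ⊓ Cfsg.Geo.omegaGL ⇑Q) := by
  classical
  constructor
  · rw [SetLike.lt_iff_le_and_exists]
    refine ⟨inf_le_right, ?_⟩
    obtain ⟨c, hc⟩ := exists_not_mem_subfield F₀ r hr hcard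
    obtain ⟨d, d', e, e', hd, hd', hdd', he, he', hee', -, -, -, -, hde, hde', hd'e, hd'e'⟩ :=
      exists_two_rat_hyp F₀ Q hrat hQ ∅ (by simp; omega)
    have hd0 : d ≠ 0 := by
      intro h0
      rw [h0, jV_zero, polar_zero_left] at hdd'
      exact zero_ne_one hdd'
    have huw : polar ⇑Q (jV F₀ d) (c • jV F₀ e) = 0 := by
      rw [polar_smul_right, hde, smul_zero]
    refine ⟨((eich Q (jV F₀ d) (c • jV F₀ e) hd huw : ↥(Cfsg.isometryGroup F ⇑Q)) :
      Matrix.GeneralLinearGroup ι F),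
      coe_mem_omegaGL Q (eich_mem_commutator Q hQ (by omega) _ _ hd huw), ?_⟩
    rintro ⟨h1, -⟩
    have hfix : (eichMat Q (jV F₀ d) (c • jV F₀ e)).mulVec (jV F₀ d) = jV F₀ d := by
      rw [eichMat_mulVec, polar_smul_left, polar_comm ⇑Q (jV F₀ e) (jV F₀ d), hde,
        Cfsg.Agent.Lib.Helper51.polar_self, hd]
      simp
    have hR := ratM_of_mem_H1_of_fix F₀ h1 hd0 (by rw [coe_eich]; exact hfix)
    rw [coe_eich] at hR
    have h2 : RatV F₀ ((eichMat Q (jV F₀ d) (c • jV F₀ e)).mulVec (jV F₀ e')) :=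
      ratM_mulVec hR (ratV_jV F₀ e')
    rw [eichMat_mulVec, polar_smul_left, hee', hde'] at h2
    have h3 : RatV F₀ (c • jV F₀ d) := by
      have h4 := ratV_sub h2 (ratV_jV F₀ e')
      have e1 : jV F₀ e' + (c • (1 : F)) • jV F₀ d - (0 : F) • c • jV F₀ e
          - (Q (c • jV F₀ e) * 0) • jV F₀ d - jV F₀ e' = c • jV F₀ d := by
        rw [smul_eq_mul, mul_one, zero_smul, mul_zero, zero_smul]
        abel
      rw [e1] at h4
      exact h4
    obtain ⟨i, hi⟩ : ∃ i, d i ≠ 0 := by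
      by_contra hcon
      push Not at hcon
      exact hd0 (funext hcon)
    have h4 := h3 i
    rw [Pi.smul_apply, jV_apply, smul_eq_mul] at h4
    apply hc
    have hi' : (d i : F) ≠ 0 := fun h0 => hi (Subtype.ext h0)
    have e2 : c = c * (d i : F) / (d i : F) := by field_simp
    rw [e2]
    exact F₀.div_mem h4 (d i).2
  · intro M hHM hMK
    have hRat : RatLe F₀ Q (M.comap (Cfsg.isometryGroup F ⇑Q).subtype) := by
      intro g hg hgH
      exact hHM ⟨hgH, coe_mem_omegaGL Q hg⟩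
    have hMΩ : M.comap (Cfsg.isometryGroup F ⇑Q).subtype
        ≤ commutator ↥(Cfsg.isometryGroup F ⇑Q) := by
      intro m hm
      obtain ⟨g, hg, hgm⟩ := exists_of_mem_omegaGL Q (hMK hm)
      have e1 : g = m := Subtype.ext hgm
      rw [← e1]; exact hg
    rcases inW_dichotomy F₀ Q hrat hQ (M.comap (Cfsg.isometryGroup F ⇑Q).subtype) (by omega)
      hRat r hr hcard with hW | hW
    · left
      refine le_antisymm ?_ hHM
      intro x hx
      obtain ⟨g, hg, rfl⟩ := exists_of_mem_omegaGL Q (hMK hx)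
      exact ⟨hstep _ hRat hW hMΩ g hx, hMK hx⟩
    · right
      apply le_antisymm hMK
      intro x hx
      obtain ⟨g, hg, rfl⟩ := exists_of_mem_omegaGL Q hx
      exact commutator_le_of_inW F₀ Q hrat hQ _ (by omega) hW hg

/-! ### Transport along `v ↦ P v` and scaling by `ζ` -/

/-- The form `v ↦ ζ Q(P v)`. -/
noncomputable def twistForm (Q : QuadraticForm F (ι → F)) (P : Matrix.GeneralLinearGroup ι F)
    (ζ : F) : QuadraticForm F (ι → F) :=
  ζ • Q.comp (Matrix.toLin' (P : Matrix ι ι F))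

theorem coe_twistForm (Q : QuadraticForm F (ι → F)) (P : Matrix.GeneralLinearGroup ι F)
    (ζ : F) : ⇑(twistForm Q P ζ) = fun v => ζ * Q ((P : Matrix ι ι F).mulVec v) := by
  funext v
  simp [twistForm]

theorem polar_twistForm (Q : QuadraticForm F (ι → F)) (P : Matrix.GeneralLinearGroup ι F)
    (ζ : F) (u v : ι → F) :
    polar ⇑(twistForm Q P ζ) u v
      = ζ * polar ⇑Q ((P : Matrix ι ι F).mulVec u) ((P : Matrix ι ι F).mulVec v) := by
  rw [coe_twistForm]
  simp only [polar, Matrix.mulVec_add]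
  ring

theorem coe_inv_mul_self (P : Matrix.GeneralLinearGroup ι F) :
    ((P⁻¹ : Matrix.GeneralLinearGroup ι F) : Matrix ι ι F) * (P : Matrix ι ι F) = 1 := by
  rw [← Units.val_mul, inv_mul_cancel, Units.val_one]

theorem coe_mul_inv_self (P : Matrix.GeneralLinearGroup ι F) :
    (P : Matrix ι ι F) * ((P⁻¹ : Matrix.GeneralLinearGroup ι F) : Matrix ι ι F) = 1 := by
  rw [← Units.val_mul, mul_inv_cancel, Units.val_one]

theorem twistForm_nondeg (Q : QuadraticForm F (ι → F)) (hQ : (polarBilin Q).Nondegenerate)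
    (P : Matrix.GeneralLinearGroup ι F) (ζ : F) (hζ : ζ ≠ 0) :
    (polarBilin (twistForm Q P ζ)).Nondegenerate := by
  have hnd : ∀ u : ι → F, (∀ v, polar ⇑(twistForm Q P ζ) u v = 0) → u = 0 := by
    intro u hu
    by_contra hu0
    have hPu : (P : Matrix ι ι F).mulVec u ≠ 0 := by
      intro h0
      apply hu0
      have h1 : ((P⁻¹ : Matrix.GeneralLinearGroup ι F) : Matrix ι ι F).mulVec
          ((P : Matrix ι ι F).mulVec u) = u := by
        rw [Matrix.mulVec_mulVec, coe_inv_mul_self, Matrix.one_mulVec]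
      rw [← h1, h0, Matrix.mulVec_zero]
    obtain ⟨y, hy⟩ := exists_polar_ne_zero Q hQ _ hPu
    apply hy
    have h2 := hu (((P⁻¹ : Matrix.GeneralLinearGroup ι F) : Matrix ι ι F).mulVec y)
    rw [polar_twistForm, Matrix.mulVec_mulVec, coe_mul_inv_self, Matrix.one_mulVec] at h2
    rcases mul_eq_zero.mp h2 with h3 | h3
    · exact absurd h3 hζ
    · exact h3
  constructor
  · intro x hx
    apply hnd x
    intro y
    have := hx y
    rwa [polarBilin_apply_apply] at this
  · intro y hy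
    apply hnd y
    intro x
    have := hy x
    rw [polarBilin_apply_apply] at this
    rw [polar_comm]
    exact this

theorem isometryGroup_twist (Q : (ι → F) → F) (P : Matrix.GeneralLinearGroup ι F) (ζ : F)
    (hζ : ζ ≠ 0) :
    (Cfsg.isometryGroup F (fun v => ζ * Q ((P : Matrix ι ι F).mulVec v))).map
      (MulAut.conj P).toMonoidHom = Cfsg.isometryGroup F Q := by
  ext g
  constructor
  · rintro ⟨h, hh, rfl⟩
    intro u v
    have h1 := hh (((P⁻¹ : Matrix.GeneralLinearGroup ι F) : Matrix ι ι F).mulVec u)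
      (((P⁻¹ : Matrix.GeneralLinearGroup ι F) : Matrix ι ι F).mulVec u)
    have h2 : ζ * Q ((P : Matrix ι ι F).mulVec ((h : Matrix ι ι F).mulVec
        (((P⁻¹ : Matrix.GeneralLinearGroup ι F) : Matrix ι ι F).mulVec u)))
        = ζ * Q ((P : Matrix ι ι F).mulVec
          (((P⁻¹ : Matrix.GeneralLinearGroup ι F) : Matrix ι ι F).mulVec u)) := h1
    rw [Matrix.mulVec_mulVec (u) (P : Matrix ι ι F), coe_mul_inv_self, Matrix.one_mulVec] at h2
    have h3 := mul_left_cancel₀ hζ h2
    change Q ((((MulAut.conj P) h : Matrix.GeneralLinearGroup ι F) : Matrix ι ι F).mulVec u)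
      = Q u
    rw [MulAut.conj_apply, Units.val_mul, Units.val_mul, ← Matrix.mulVec_mulVec,
      ← Matrix.mulVec_mulVec]
    exact h3
  · intro hg
    refine ⟨P⁻¹ * g * P, ?_, ?_⟩
    · intro u v
      have h1 := hg ((P : Matrix ι ι F).mulVec u) ((P : Matrix ι ι F).mulVec u)
      have h2 : Q ((g : Matrix ι ι F).mulVec ((P : Matrix ι ι F).mulVec u))
          = Q ((P : Matrix ι ι F).mulVec u) := h1
      change ζ * Q ((P : Matrix ι ι F).mulVec
        (((P⁻¹ * g * P : Matrix.GeneralLinearGroup ι F) : Matrix ι ι F).mulVec u))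
        = ζ * Q ((P : Matrix ι ι F).mulVec u)
      rw [Units.val_mul, Units.val_mul, Matrix.mulVec_mulVec, ← mul_assoc, ← mul_assoc,
        coe_mul_inv_self, one_mul, ← Matrix.mulVec_mulVec, h2]
    · change (MulAut.conj P) (P⁻¹ * g * P) = g
      rw [MulAut.conj_apply]
      group

theorem omegaGL_eq_commutator (Q : (ι → F) → F) :
    Cfsg.Geo.omegaGL Q = ⁅Cfsg.isometryGroup F Q, Cfsg.isometryGroup F Q⁆ := by
  unfold Cfsg.Geo.omegaGL Cfsg.Omega
  rw [commutator_def, Subgroup.map_commutator, ← MonoidHom.range_eq_map, Subgroup.range_subtype]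

theorem omegaGL_twist (Q : (ι → F) → F) (P : Matrix.GeneralLinearGroup ι F) (ζ : F)
    (hζ : ζ ≠ 0) :
    (Cfsg.Geo.omegaGL (fun v => ζ * Q ((P : Matrix ι ι F).mulVec v))).map
      (MulAut.conj P).toMonoidHom = Cfsg.Geo.omegaGL Q := by
  rw [omegaGL_eq_commutator, omegaGL_eq_commutator, Subgroup.map_commutator,
    isometryGroup_twist Q P ζ hζ]

/-- Transport of maximality of the subfield subgroup. -/
theorem isMaximalIn_subfield_transport (Q : (ι → F) → F) (F₀ : Subfield F)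
    (P : Matrix.GeneralLinearGroup ι F) (ζ : F) (hζ : ζ ≠ 0)
    (h : Cfsg.Geo.IsMaximalIn
      (Cfsg.Geo.omegaGL (fun v => ζ * Q ((P : Matrix ι ι F).mulVec v)))
      (H1 ι F₀ ⊓ Cfsg.Geo.omegaGL (fun v => ζ * Q ((P : Matrix ι ι F).mulVec v)))) :
    Cfsg.Geo.IsMaximalIn (Cfsg.Geo.omegaGL Q)
      (Cfsg.Geo.subfieldSubgroup F₀ P ⊓ Cfsg.Geo.omegaGL Q) := by
  have h1 := isMaximalIn_map (MulAut.conj P) h
  rw [Subgroup.map_inf_eq _ _ _ (MulAut.conj P).injective, omegaGL_twist Q P ζ hζ] at h1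
  exact h1

end SubfMain

end Cfsg.Agent.Lib.Helper52
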