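import Mathlib
import Cfsg.Agent.Lib.Helper52.SubfInvol

/-!
The overgroup step in odd characteristic, when squares of `F` lying in `F₀` have square roots
in `F₀` (e.g. `[F : F₀]` odd): an overgroup `M` of the rational part of `Ω` whose parameter
field is `F₀` consists of scalar multiples of rational matrices.  The proof uses rational
involutions and the dihedral group generated by two involutions.
-/

set_option autoImplicit false
set_option linter.unusedSectionVars false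

namespace Cfsg.Agent.Lib.Helper52

open Module QuadraticMap
open Cfsg.Agent.Lib.Helper51 Cfsg.Agent.Lib.Helper50

section SubfOdd

variable {ι : Type} [Fintype ι] [DecidableEq ι] {F : Type*} [Field F]

local notation "mt(" g ")" => ((g : Matrix.GeneralLinearGroup ι F) : Matrix ι ι F)

/-- Two orthogonal hyperbolic pairs built from two given ones and two vectors orthogonal to
them. -/
theorem nice_pairs (Q : QuadraticForm F (ι → F)) (h2 : (2 : F) ≠ 0)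
    (D D' D₂ D₂' V V' : ι → F) (hD : Q D = 0) (hD' : Q D' = 0)
    (hDD' : polar ⇑Q D D' = 1) (hD₂ : Q D₂ = 0) (hD₂' : Q D₂' = 0)
    (hDD₂' : polar ⇑Q D₂ D₂' = 1)
    (h1 : polar ⇑Q D D₂ = 0) (h2' : polar ⇑Q D D₂' = 0) (h3 : polar ⇑Q D' D₂ = 0)
    (h4 : polar ⇑Q D' D₂' = 0)
    (hVD : polar ⇑Q V D = 0) (hVD' : polar ⇑Q V D' = 0) (hVD₂ : polar ⇑Q V D₂ = 0)
    (hVD₂' : polar ⇑Q V D₂' = 0)
    (hV'D : polar ⇑Q V' D = 0) (hV'D' : polar ⇑Q V' D' = 0) (hV'D₂ : polar ⇑Q V' D₂ = 0)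
    (hV'D₂' : polar ⇑Q V' D₂' = 0) :
    Q (D' + V - Q V • D) = 0 ∧ polar ⇑Q D (D' + V - Q V • D) = 1 ∧
    Q (D₂' + V' - Q V' • D₂ - polar ⇑Q V V' • D) = 0 ∧
    polar ⇑Q D₂ (D₂' + V' - Q V' • D₂ - polar ⇑Q V V' • D) = 1 ∧
    polar ⇑Q D (D₂' + V' - Q V' • D₂ - polar ⇑Q V V' • D) = 0 ∧
    polar ⇑Q (D' + V - Q V • D) D₂ = 0 ∧
    polar ⇑Q (D' + V - Q V • D) (D₂' + V' - Q V' • D₂ - polar ⇑Q V V' • D) = 0 := by
  have hc : ∀ x y : ι → F, polar ⇑Q x y = polar ⇑Q y x := polar_comm ⇑Q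
  have hDD : polar ⇑Q D D = 0 := by rw [Cfsg.Agent.Lib.Helper51.polar_self, hD, mul_zero]
  have hD'D'' : polar ⇑Q D' D' = 0 := by rw [Cfsg.Agent.Lib.Helper51.polar_self, hD', mul_zero]
  have hD₂D₂ : polar ⇑Q D₂ D₂ = 0 := by rw [Cfsg.Agent.Lib.Helper51.polar_self, hD₂, mul_zero]
  have hD₂'D₂' : polar ⇑Q D₂' D₂' = 0 := by
    rw [Cfsg.Agent.Lib.Helper51.polar_self, hD₂', mul_zero]
  have hVV : polar ⇑Q V V = 2 * Q V := Cfsg.Agent.Lib.Helper51.polar_self Q V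
  have hV'V' : polar ⇑Q V' V' = 2 * Q V' := Cfsg.Agent.Lib.Helper51.polar_self Q V'
  have hD'D : polar ⇑Q D' D = 1 := (hc _ _).trans hDD'
  have hD₂'D₂ : polar ⇑Q D₂' D₂ = 1 := (hc _ _).trans hDD₂'
  have h1' : polar ⇑Q D₂ D = 0 := (hc _ _).trans h1
  have h2'' : polar ⇑Q D₂' D = 0 := (hc _ _).trans h2'
  have h3' : polar ⇑Q D₂ D' = 0 := (hc _ _).trans h3
  have h4' : polar ⇑Q D₂' D' = 0 := (hc _ _).trans h4
  have hDV : polar ⇑Q D V = 0 := (hc _ _).trans hVD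
  have hD'V : polar ⇑Q D' V = 0 := (hc _ _).trans hVD'
  have hD₂V : polar ⇑Q D₂ V = 0 := (hc _ _).trans hVD₂
  have hD₂'V : polar ⇑Q D₂' V = 0 := (hc _ _).trans hVD₂'
  have hDV' : polar ⇑Q D V' = 0 := (hc _ _).trans hV'D
  have hD'V' : polar ⇑Q D' V' = 0 := (hc _ _).trans hV'D'
  have hD₂V' : polar ⇑Q D₂ V' = 0 := (hc _ _).trans hV'D₂
  have hD₂'V' : polar ⇑Q D₂' V' = 0 := (hc _ _).trans hV'D₂'
  have hV'V : polar ⇑Q V' V = polar ⇑Q V V' := hc _ _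
  have hQ0 : ∀ x : ι → F, polar ⇑Q x x = 0 → Q x = 0 := by
    intro x hx
    rw [Cfsg.Agent.Lib.Helper51.polar_self] at hx
    exact (mul_eq_zero.mp hx).resolve_left h2
  refine ⟨?_, ?_, ?_, ?_, ?_, ?_, ?_⟩
  · apply hQ0
    simp only [polar_add_left, polar_add_right, polar_sub_left, polar_sub_right,
      polar_smul_left, polar_smul_right, smul_eq_mul, hDD, hD'D'', hVV, hDD', hD'D, hVD, hVD',
      hDV, hD'V]
    ring
  · simp only [polar_add_right, polar_sub_right, polar_smul_right, smul_eq_mul, hDD, hDD', hDV]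
    ring
  · apply hQ0
    simp only [polar_add_left, polar_add_right, polar_sub_left, polar_sub_right,
      polar_smul_left, polar_smul_right, smul_eq_mul, hDD, hD₂D₂, hD₂'D₂', hV'V', hDD₂',
      hD₂'D₂, hV'D, hV'D₂, hV'D₂', hDV', hD₂V', hD₂'V', h1, h1', h2', h2'']
    ring
  · simp only [polar_add_right, polar_sub_right, polar_smul_right, smul_eq_mul, hD₂D₂, hDD₂',
      hD₂V', h1']
    ring
  · simp only [polar_add_right, polar_sub_right, polar_smul_right, smul_eq_mul, hDD, h1, h2',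
      hDV']
    ring
  · simp only [polar_add_left, polar_sub_left, polar_smul_left, smul_eq_mul, h1, h3, hVD₂]
    ring
  · simp only [polar_add_left, polar_add_right, polar_sub_left, polar_sub_right,
      polar_smul_left, polar_smul_right, smul_eq_mul, hDD, hD'D, h1, h2', h3, h4, hVD, hVD₂,
      hVD₂', hD'V', hDV']
    ring


/-- An involution of the isometry group which is a scalar multiple of a rational matrix is
rational, if squares lying in `F₀` have their square roots in `F₀`. -/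
theorem ratM_of_invol_odd {F₀ : Subfield F} {Q : QuadraticForm F (ι → F)}
    (hsq : ∀ c : F, c ^ 2 ∈ F₀ → c ∈ F₀) (hne : Nonempty ι)
    (z : ↥(Cfsg.isometryGroup F ⇑Q)) (hzz : z * z = 1)
    (hz : (z : Matrix.GeneralLinearGroup ι F) ∈ H1 ι F₀) : RatM F₀ mt(z) := by
  obtain ⟨c, hc0, A, hA, hzA⟩ := exists_of_mem_H1 F₀ _ hz
  have hsqm : mt(z) * mt(z) = 1 := by rw [← coe_mul', hzz]; rfl
  rw [hzA] at hsqm
  obtain ⟨i⟩ := hne
  have hAA : RatM F₀ (A * A) := ratM_mul hA hA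
  have h1 : (c * c) * (A * A) i i = 1 := by
    have h := congrFun (congrFun hsqm i) i
    rw [Matrix.smul_mul, Matrix.mul_smul, Matrix.smul_apply, Matrix.smul_apply,
      Matrix.one_apply_eq, smul_eq_mul, smul_eq_mul] at h
    rw [← h]; ring
  have hcc : c ^ 2 ∈ F₀ := by
    have e : c ^ 2 = ((A * A) i i)⁻¹ := by
      rw [pow_two]; exact eq_inv_of_mul_eq_one_left h1
    rw [e]; exact F₀.inv_mem (hAA i i)
  rw [hzA]; exact ratM_smul (hsq c hcc) hA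

theorem polar_eq_zero_of_comm {Q : QuadraticForm F (ι → F)} (h2 : (2 : F) ≠ 0)
    (a g : ↥(Cfsg.isometryGroup F ⇑Q)) (hga : g * a = a * g) (x y : ι → F)
    (hx : mt(a).mulVec x = -x) (hy : mt(a).mulVec y = y) :
    polar ⇑Q y (mt(g).mulVec x) = 0 := by
  have h := isometry_polar Q a y (mt(g).mulVec x)
  rw [hy, Matrix.mulVec_mulVec, ← coe_mul', ← hga, coe_mul', ← Matrix.mulVec_mulVec, hx,
    Matrix.mulVec_neg, polar_neg_right] at h
  have h3 : (2 : F) * polar ⇑Q y (mt(g).mulVec x) = 0 := by linear_combination -h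
  exact (mul_eq_zero.mp h3).resolve_left h2

theorem conj_mulVec {Q : QuadraticForm F (ι → F)} (m b₀ : ↥(Cfsg.isometryGroup F ⇑Q))
    (v : ι → F) :
    mt((m * b₀ * m⁻¹ : ↥(Cfsg.isometryGroup F ⇑Q))).mulVec (mt(m).mulVec v)
      = mt(m).mulVec (mt(b₀).mulVec v) := by
  rw [coe_mul', coe_mul', ← Matrix.mulVec_mulVec, ← Matrix.mulVec_mulVec, coe_inv_mulVec']

variable [Fintype F]
variable (F₀ : Subfield F) (Q : QuadraticForm F (ι → F))
variable (hrat : ∀ v : ι → F₀, Q (jV F₀ v) ∈ F₀) (hQ : (polarBilin Q).Nondegenerate)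
variable (M : Subgroup ↥(Cfsg.isometryGroup F ⇑Q))
variable (hn : 13 ≤ Fintype.card ι) (hHM : RatLe F₀ Q M)
variable (hW : ∀ c : F, InW F₀ Q M c → c ∈ F₀)

/-- The statement that `-1` on the span of two orthogonal rational hyperbolic pairs (and `1`
on the orthogonal complement) is a rational element of `Ω`. -/
def HasInvol4 : Prop :=
  ∀ (e₁ f₁ e₂ f₂ : ι → F₀), Q (jV F₀ e₁) = 0 → Q (jV F₀ f₁) = 0 →
    polar ⇑Q (jV F₀ e₁) (jV F₀ f₁) = 1 → Q (jV F₀ e₂) = 0 → Q (jV F₀ f₂) = 0 →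
    polar ⇑Q (jV F₀ e₂) (jV F₀ f₂) = 1 → polar ⇑Q (jV F₀ e₁) (jV F₀ e₂) = 0 →
    polar ⇑Q (jV F₀ e₁) (jV F₀ f₂) = 0 → polar ⇑Q (jV F₀ f₁) (jV F₀ e₂) = 0 →
    polar ⇑Q (jV F₀ f₁) (jV F₀ f₂) = 0 →
    ∃ a : ↥(Cfsg.isometryGroup F ⇑Q), a ∈ commutator ↥(Cfsg.isometryGroup F ⇑Q) ∧
      RatM F₀ mt(a) ∧ a * a = 1 ∧
      mt(a).mulVec (jV F₀ e₁) = -jV F₀ e₁ ∧ mt(a).mulVec (jV F₀ f₁) = -jV F₀ f₁ ∧
      mt(a).mulVec (jV F₀ e₂) = -jV F₀ e₂ ∧ mt(a).mulVec (jV F₀ f₂) = -jV F₀ f₂ ∧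
      ∀ y : ι → F, polar ⇑Q (jV F₀ e₁) y = 0 → polar ⇑Q (jV F₀ f₁) y = 0 →
        polar ⇑Q (jV F₀ e₂) y = 0 → polar ⇑Q (jV F₀ f₂) y = 0 → mt(a).mulVec y = y

/-- The statement that there is a rational involution of `Ω` with a six-dimensional
`-1`-eigenspace, not conjugate to an involution fixing the orthogonal complement of four
vectors. -/
def HasInvol6 : Prop :=
  ∃ (b₀ : ↥(Cfsg.isometryGroup F ⇑Q)) (x₀ x₁ : ι → F₀) (S : Finset (ι → F₀)),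
    b₀ ∈ commutator ↥(Cfsg.isometryGroup F ⇑Q) ∧ RatM F₀ mt(b₀) ∧ b₀ * b₀ = 1 ∧
    x₀ ≠ 0 ∧ Q (jV F₀ x₀) = 0 ∧ mt(b₀).mulVec (jV F₀ x₀) = -jV F₀ x₀ ∧
    x₁ ≠ 0 ∧ Q (jV F₀ x₁) = 0 ∧ mt(b₀).mulVec (jV F₀ x₁) = jV F₀ x₁ ∧
    S.card ≤ 6 ∧
    (∀ y : ι → F, (∀ s ∈ S, polar ⇑Q (jV F₀ s) y = 0) → mt(b₀).mulVec y = y) ∧
    ∀ (a k : ↥(Cfsg.isometryGroup F ⇑Q)) (T : Finset (ι → F)), T.card ≤ 4 →
      (∀ y : ι → F, (∀ t ∈ T, polar ⇑Q t y = 0) → mt(a).mulVec y = y) → b₀ ≠ k * a * k⁻¹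

/-- A "nice" involution of `M`: rational, negating a rational singular vector, and fixing the
orthogonal complement of four rational vectors. -/
structure Nice (a : ↥(Cfsg.isometryGroup F ⇑Q)) : Prop where
  mem : a ∈ M
  sq : a * a = 1
  rat : RatM F₀ mt(a)
  neg : ∃ e₁ : ι → F₀, e₁ ≠ 0 ∧ Q (jV F₀ e₁) = 0 ∧ mt(a).mulVec (jV F₀ e₁) = -jV F₀ e₁
  fix : ∃ T₄ : Finset (ι → F₀), T₄.card ≤ 4 ∧
    ∀ y : ι → F, (∀ t ∈ T₄, polar ⇑Q (jV F₀ t) y = 0) → mt(a).mulVec y = y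

include hrat hQ hn hHM hW in
/-- The centraliser in `M` of a nice involution consists of scalar multiples of rational
matrices. -/
theorem Nice.cent (h2 : (2 : F) ≠ 0) (hMΩ : M ≤ commutator ↥(Cfsg.isometryGroup F ⇑Q))
    {a : ↥(Cfsg.isometryGroup F ⇑Q)} (hN : Nice F₀ Q M a)
    {g : ↥(Cfsg.isometryGroup F ⇑Q)} (hg : g ∈ M) (hga : g * a = a * g) :
    (g : Matrix.GeneralLinearGroup ι F) ∈ H1 ι F₀ := by
  classical
  obtain ⟨e₁, he₁0, hQe₁, hae₁⟩ := hN.neg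
  obtain ⟨T₄, hT₄, hfix⟩ := hN.fix
  obtain ⟨d, d', e, e', hd, hd', hdd', he, he', hee', hSd, hSd', hSe, hSe', hde, hde', hd'e,
    hd'e'⟩ := exists_two_rat_hyp F₀ Q hrat hQ T₄ (by omega)
  have hd0 : d ≠ 0 := by
    intro h0
    rw [h0, jV_zero, polar_zero_left] at hdd'
    exact zero_ne_one hdd'
  have hind : ∀ β : F₀, e ≠ β • d := by
    intro β hβ
    rw [hβ, jV_smul, polar_smul_left, hde', smul_zero] at hee'
    exact zero_ne_one hee'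
  exact mem_H1_of_perp2 F₀ Q hrat hQ M hn hHM hW h2 hMΩ hg hQe₁ he₁0 hd hd0 hde hind
    (polar_eq_zero_of_comm h2 a g hga _ _ hae₁ (hfix _ hSd))
    (polar_eq_zero_of_comm h2 a g hga _ _ hae₁ (hfix _ hSe))

include hrat hQ hn hHM hW in
/-- The dihedral step: for a nice involution `a` and an involution `b` of `M` not conjugate to
`a`, with a large common fixed space, there is a rational involution `≠ ± 1` commuting with
both. -/
theorem Nice.dihedral (h2 : (2 : F) ≠ 0) (hsq : ∀ c : F, c ^ 2 ∈ F₀ → c ∈ F₀)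
    (hMΩ : M ≤ commutator ↥(Cfsg.isometryGroup F ⇑Q))
    {a : ↥(Cfsg.isometryGroup F ⇑Q)} (hN : Nice F₀ Q M a)
    {b : ↥(Cfsg.isometryGroup F ⇑Q)} (hbM : b ∈ M) (hbb : b * b = 1)
    (hnc : ∀ g : ↥(Cfsg.isometryGroup F ⇑Q), b ≠ g * a * g⁻¹)
    (Sb : Finset (ι → F)) (hSb : Sb.card ≤ 6)
    (hbfix : ∀ y : ι → F, (∀ s ∈ Sb, polar ⇑Q s y = 0) → mt(b).mulVec y = y) :
    ∃ Z : Matrix ι ι F, RInv F₀ Q Z ∧ mt(a) * Z = Z * mt(a) ∧ mt(b) * Z = Z * mt(b) ∧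
      Z ≠ 1 ∧ Z ≠ -1 := by
  classical
  rcases dihedral_alt a b hN.sq hbb with ⟨g, hg⟩ | ⟨j, hj1, hjj, haj, hbj⟩
  · exact absurd hg (hnc g)
  have hzM : (a * b) ^ j ∈ M := M.pow_mem (M.mul_mem hN.mem hbM) j
  obtain ⟨z, hz⟩ : ∃ z : ↥(Cfsg.isometryGroup F ⇑Q), z = (a * b) ^ j := ⟨_, rfl⟩
  rw [← hz] at hj1 hjj haj hbj hzM
  have hzH : (z : Matrix.GeneralLinearGroup ι F) ∈ H1 ι F₀ :=
    hN.cent F₀ Q hrat hQ M hn hHM hW h2 hMΩ hzM haj.symm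
  have hne : Nonempty ι := by
    rw [← Fintype.card_pos_iff]; omega
  have hzr : RatM F₀ mt(z) := ratM_of_invol_odd hsq hne z hjj hzH
  refine ⟨mt(z), rinv_of z hjj hzr, ?_, ?_, ?_, ?_⟩
  · rw [← coe_mul', ← coe_mul', haj]
  · rw [← coe_mul', ← coe_mul', hbj]
  · intro h1
    apply hj1
    apply isometry_ext
    rw [h1]; rfl
  · intro hm1
    obtain ⟨T₄, hT₄, hafix⟩ := hN.fix
    have hScard : (T₄.image (jV F₀) ∪ Sb).card ≤ 10 := by
      have h3 := Finset.card_union_le (T₄.image (jV F₀)) Sb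
      have h4 := Finset.card_image_le (s := T₄) (f := jV F₀)
      omega
    have hfr := finrank_perpS_ge Q hQ (T₄.image (jV F₀) ∪ Sb)
    have hpos : 0 < finrank F (perpS Q (T₄.image (jV F₀) ∪ Sb)) := by omega
    obtain ⟨⟨y, hy⟩, hy0⟩ := Module.finrank_pos_iff_exists_ne_zero.mp hpos
    have hy0' : y ≠ 0 := fun h => hy0 (Subtype.ext h)
    rw [mem_perpS] at hy
    have hay : mt(a).mulVec y = y := hafix y (fun t ht =>
      hy _ (Finset.mem_union_left _ (Finset.mem_image_of_mem _ ht)))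
    have hby : mt(b).mulVec y = y := hbfix y (fun s hs => hy _ (Finset.mem_union_right _ hs))
    have hpow : ∀ k : ℕ, mt(((a * b) ^ k : ↥(Cfsg.isometryGroup F ⇑Q))).mulVec y = y := by
      intro k
      induction k with
      | zero => rw [pow_zero]; exact Matrix.one_mulVec y
      | succ k ih =>
        rw [pow_succ, coe_mul', coe_mul', ← Matrix.mulVec_mulVec, ← Matrix.mulVec_mulVec, hby,
          hay, ih]
    have h3 := hpow j
    rw [← hz, hm1, Matrix.neg_mulVec, Matrix.one_mulVec] at h3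
    apply hy0'
    have h4 : (2 : F) • y = 0 := by
      rw [two_smul]
      nth_rewrite 1 [← h3]
      exact neg_add_cancel y
    exact (smul_eq_zero.mp h4).resolve_left h2


include hrat hQ hn hHM in
/-- A nice involution with no eigenvector in a given anisotropic rational subspace. -/
theorem exists_nice_avoiding (h2 : (2 : F) ≠ 0) (hinv4 : HasInvol4 F₀ Q)
    (T : Submodule F₀ (ι → F₀)) (hT : ∀ v ∈ T, Q (jV F₀ v) = 0 → v = 0) :
    ∃ a : ↥(Cfsg.isometryGroup F ⇑Q), Nice F₀ Q M a ∧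
      ∀ w ∈ T, w ≠ 0 → w ∉ fixR F₀ mt(a) ∧ w ∉ fixR F₀ (-mt(a)) := by
  classical
  obtain ⟨v, hvT, v', hv'T, hspan⟩ :=
    exists_span_pair F₀ T (finrank_le_two_of_aniso F₀ Q hrat T hT)
  obtain ⟨d, d', d₂, d₂', hd, hd', hdd', hd₂, hd₂', hdd₂', hSd, hSd', hSd₂, hSd₂', h1, h2',
    h3, h4⟩ := exists_two_rat_hyp F₀ Q hrat hQ {v, v'} (by
      have := Finset.card_le_two (a := v) (b := v'); omega)
  have hvd : polar ⇑Q (jV F₀ v) (jV F₀ d) = 0 := hSd v (by simp)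
  have hvd' : polar ⇑Q (jV F₀ v) (jV F₀ d') = 0 := hSd' v (by simp)
  have hvd₂ : polar ⇑Q (jV F₀ v) (jV F₀ d₂) = 0 := hSd₂ v (by simp)
  have hvd₂' : polar ⇑Q (jV F₀ v) (jV F₀ d₂') = 0 := hSd₂' v (by simp)
  have hv'd : polar ⇑Q (jV F₀ v') (jV F₀ d) = 0 := hSd v' (by simp)
  have hv'd' : polar ⇑Q (jV F₀ v') (jV F₀ d') = 0 := hSd' v' (by simp)
  have hv'd₂ : polar ⇑Q (jV F₀ v') (jV F₀ d₂) = 0 := hSd₂ v' (by simp)
  have hv'd₂' : polar ⇑Q (jV F₀ v') (jV F₀ d₂') = 0 := hSd₂' v' (by simp)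
  obtain ⟨f, hf⟩ : ∃ f : ι → F₀, f = d' + v - (Q0 F₀ Q hrat v) • d := ⟨_, rfl⟩
  obtain ⟨f₂, hf₂⟩ : ∃ f₂ : ι → F₀, f₂ = d₂' + v' - (Q0 F₀ Q hrat v') • d₂
      - (polar ⇑(Q0 F₀ Q hrat) v v') • d := ⟨_, rfl⟩
  have hjf : jV F₀ f = jV F₀ d' + jV F₀ v - Q (jV F₀ v) • jV F₀ d := by rw [hf]; rfl
  have hjf₂ : jV F₀ f₂ = jV F₀ d₂' + jV F₀ v' - Q (jV F₀ v') • jV F₀ d₂
      - polar ⇑Q (jV F₀ v) (jV F₀ v') • jV F₀ d := by rw [hf₂]; rfl
  obtain ⟨hQf, hdf, hQf₂, hd₂f₂, hdf₂, hfd₂, hff₂⟩ := nice_pairs Q h2 (jV F₀ d) (jV F₀ d')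
    (jV F₀ d₂) (jV F₀ d₂') (jV F₀ v) (jV F₀ v') hd hd' hdd' hd₂ hd₂' hdd₂' h1 h2' h3 h4
    hvd hvd' hvd₂ hvd₂' hv'd hv'd' hv'd₂ hv'd₂'
  rw [← hjf] at hQf hdf hfd₂
  rw [← hjf₂] at hQf₂ hd₂f₂ hdf₂
  rw [← hjf, ← hjf₂] at hff₂
  obtain ⟨a, hac, har, haa, had, haf, had₂, haf₂, hafix⟩ :=
    hinv4 d f d₂ f₂ hd hQf hdf hd₂ hQf₂ hd₂f₂ h1 hdf₂ hfd₂ hff₂
  have hd0 : d ≠ 0 := by
    intro h0
    rw [h0, jV_zero, polar_zero_left] at hdd'
    exact zero_ne_one hdd'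
  have hA := rinv_of (F₀ := F₀) a haa har
  refine ⟨a, ⟨hHM a hac (mem_H1_of F₀ _ 1 one_ne_zero mt(a) har (by rw [one_smul])), haa, har,
    ⟨d, hd0, hd, had⟩, ⟨{d, f, d₂, f₂}, Finset.card_le_four, ?_⟩⟩, ?_⟩
  · intro y hy
    exact hafix y (hy d (by simp)) (hy f (by simp)) (hy d₂ (by simp)) (hy f₂ (by simp))
  · intro w hwT hw0
    obtain ⟨α, β, hw⟩ := hspan w hwT
    have hjw : jV F₀ w = (α : F) • jV F₀ v + (β : F) • jV F₀ v' := by rw [hw]; rfl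
    have hwd : polar ⇑Q (jV F₀ w) (jV F₀ d) = 0 := by
      rw [hjw, polar_add_left, polar_smul_left, polar_smul_left, hvd, hv'd]; simp
    have hwd' : polar ⇑Q (jV F₀ w) (jV F₀ d') = 0 := by
      rw [hjw, polar_add_left, polar_smul_left, polar_smul_left, hvd', hv'd']; simp
    have hwd₂ : polar ⇑Q (jV F₀ w) (jV F₀ d₂) = 0 := by
      rw [hjw, polar_add_left, polar_smul_left, polar_smul_left, hvd₂, hv'd₂]; simp
    have hwd₂' : polar ⇑Q (jV F₀ w) (jV F₀ d₂') = 0 := by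
      rw [hjw, polar_add_left, polar_smul_left, polar_smul_left, hvd₂', hv'd₂']; simp
    have hwf : polar ⇑Q (jV F₀ w) (jV F₀ f) = polar ⇑Q (jV F₀ w) (jV F₀ v) := by
      rw [hjf, polar_sub_right, polar_add_right, polar_smul_right, hwd', hwd]; simp
    have hwf₂ : polar ⇑Q (jV F₀ w) (jV F₀ f₂) = polar ⇑Q (jV F₀ w) (jV F₀ v') := by
      rw [hjf₂, polar_sub_right, polar_sub_right, polar_add_right, polar_smul_right,
        polar_smul_right, hwd₂', hwd₂, hwd]; simp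
    constructor
    · intro hfix
      have e1 : polar ⇑Q (jV F₀ w) (jV F₀ f) = 0 := hA.polar_fix_neg h2 (mem_fixR.mp hfix) haf
      have e2 : polar ⇑Q (jV F₀ w) (jV F₀ f₂) = 0 :=
        hA.polar_fix_neg h2 (mem_fixR.mp hfix) haf₂
      rw [hwf] at e1
      rw [hwf₂] at e2
      have e3 : polar ⇑Q (jV F₀ w) (jV F₀ w) = 0 := by
        nth_rewrite 2 [hjw]
        rw [polar_add_right, polar_smul_right, polar_smul_right, e1, e2]; simp
      rw [Cfsg.Agent.Lib.Helper51.polar_self] at e3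
      exact hw0 (hT w hwT ((mul_eq_zero.mp e3).resolve_left h2))
    · intro hneg
      have hneg' := mem_fixR_neg.mp hneg
      obtain ⟨c₁, hc₁⟩ : ∃ c₁ : F, c₁ = polar ⇑Q (jV F₀ w) (jV F₀ f) := ⟨_, rfl⟩
      obtain ⟨c₂, hc₂⟩ : ∃ c₂ : F, c₂ = polar ⇑Q (jV F₀ w) (jV F₀ f₂) := ⟨_, rfl⟩
      obtain ⟨W', hW'⟩ : ∃ W' : ι → F, W' = jV F₀ w - c₁ • jV F₀ d - c₂ • jV F₀ d₂ := ⟨_, rfl⟩
      have hdd : polar ⇑Q (jV F₀ d) (jV F₀ d) = 0 := by
        rw [Cfsg.Agent.Lib.Helper51.polar_self, hd, mul_zero]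
      have hd₂d₂ : polar ⇑Q (jV F₀ d₂) (jV F₀ d₂) = 0 := by
        rw [Cfsg.Agent.Lib.Helper51.polar_self, hd₂, mul_zero]
      have k1 : polar ⇑Q (jV F₀ d) W' = 0 := by
        rw [hW', polar_sub_right, polar_sub_right, polar_smul_right, polar_smul_right,
          polar_comm ⇑Q (jV F₀ d) (jV F₀ w), hwd, hdd, h1]; simp
      have k2 : polar ⇑Q (jV F₀ f) W' = 0 := by
        rw [hW', polar_sub_right, polar_sub_right, polar_smul_right, polar_smul_right,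
          polar_comm ⇑Q (jV F₀ f) (jV F₀ w), ← hc₁, polar_comm ⇑Q (jV F₀ f) (jV F₀ d), hdf,
          hfd₂]; simp
      have k3 : polar ⇑Q (jV F₀ d₂) W' = 0 := by
        rw [hW', polar_sub_right, polar_sub_right, polar_smul_right, polar_smul_right,
          polar_comm ⇑Q (jV F₀ d₂) (jV F₀ w), hwd₂, polar_comm ⇑Q (jV F₀ d₂) (jV F₀ d), h1,
          hd₂d₂]; simp
      have k4 : polar ⇑Q (jV F₀ f₂) W' = 0 := by
        rw [hW', polar_sub_right, polar_sub_right, polar_smul_right, polar_smul_right,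
          polar_comm ⇑Q (jV F₀ f₂) (jV F₀ w), ← hc₂, polar_comm ⇑Q (jV F₀ f₂) (jV F₀ d), hdf₂,
          polar_comm ⇑Q (jV F₀ f₂) (jV F₀ d₂), hd₂f₂]; simp
      have hfixW' : mt(a).mulVec W' = W' := hafix W' k1 k2 k3 k4
      have hnegW' : mt(a).mulVec W' = -W' := by
        rw [hW', Matrix.mulVec_sub, Matrix.mulVec_sub, Matrix.mulVec_smul, Matrix.mulVec_smul,
          hneg', had, had₂]
        simp only [smul_neg]
        abel
      have hW'0 : W' = 0 := by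
        have e : (2 : F) • W' = 0 := by
          rw [two_smul]
          nth_rewrite 1 [← hfixW', hnegW']
          exact neg_add_cancel W'
        exact (smul_eq_zero.mp e).resolve_left h2
      have hjw2 : jV F₀ w = c₁ • jV F₀ d + c₂ • jV F₀ d₂ := by
        have e : jV F₀ w = W' + c₁ • jV F₀ d + c₂ • jV F₀ d₂ := by rw [hW']; abel
        rw [e, hW'0, zero_add]
      have hc₁0 : c₁ = 0 := by
        have e := hwd'
        rw [hjw2, polar_add_left, polar_smul_left, polar_smul_left, hdd',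
          polar_comm ⇑Q (jV F₀ d₂) (jV F₀ d'), h3] at e
        simpa using e
      have hc₂0 : c₂ = 0 := by
        have e := hwd₂'
        rw [hjw2, polar_add_left, polar_smul_left, polar_smul_left, h2', hdd₂'] at e
        simpa using e
      apply hw0
      apply jV_eq_zero F₀
      rw [hjw2, hc₁0, hc₂0, zero_smul, zero_smul, add_zero]


include hrat hQ hn in
/-- If the rational fixed space of a rational involution has dimension less than three, its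
rational `-1`-eigenspace has dimension at least three. -/
theorem RInv.three_le_neg (h2 : (2 : F) ≠ 0) {Z : Matrix ι ι F} (hZ : RInv F₀ Q Z)
    (h : ¬ 3 ≤ finrank F₀ (fixR F₀ Z)) : 3 ≤ finrank F₀ (fixR F₀ (-Z)) := by
  have h1 := finrank_perpR F₀ Q hrat hQ (fixR F₀ Z)
  have hle : perpR F₀ Q hrat (fixR F₀ Z) ≤ fixR F₀ (-Z) := by
    intro y hy
    rw [mem_perpR] at hy
    apply hZ.neg.mem_fixR_of_perp h2 hQ
    rw [neg_neg]
    exact hy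
  have h3 := Submodule.finrank_mono hle
  omega

include hrat hQ hn hHM hW in
/-- Enlarging an anisotropic rational subspace `T` on which `b` is controlled by the
anisotropic `-1`-eigenspace of a rational involution commuting with `b`. -/
theorem ext_step (h2 : (2 : F) ≠ 0) (hMΩ : M ≤ commutator ↥(Cfsg.isometryGroup F ⇑Q))
    {b : ↥(Cfsg.isometryGroup F ⇑Q)} (hbM : b ∈ M) (T : Submodule F₀ (ι → F₀))
    (hTan : ∀ v ∈ T, Q (jV F₀ v) = 0 → v = 0)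
    (hstar : ∀ x ∈ T, ∀ y ∈ perpR F₀ Q hrat T,
      polar ⇑Q (mt(b).mulVec (jV F₀ x)) (jV F₀ y) = 0)
    (A Z : Matrix ι ι F) (hA : RInv F₀ Q A) (hZ : RInv F₀ Q Z) (hAZ : A * Z = Z * A)
    (hbZ : mt(b) * Z = Z * mt(b))
    (hE : ∀ v ∈ fixR F₀ (-Z), Q (jV F₀ v) = 0 → v = 0) (hE0 : ∃ v ∈ fixR F₀ (-Z), v ≠ 0)
    (hAT : ∀ w ∈ T, w ≠ 0 → w ∉ fixR F₀ A ∧ w ∉ fixR F₀ (-A)) :
    (b : Matrix.GeneralLinearGroup ι F) ∈ H1 ι F₀ ∨
      ∃ T' : Submodule F₀ (ι → F₀), (∀ v ∈ T', Q (jV F₀ v) = 0 → v = 0) ∧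
        (∀ x ∈ T', ∀ y ∈ perpR F₀ Q hrat T',
          polar ⇑Q (mt(b).mulVec (jV F₀ x)) (jV F₀ y) = 0) ∧
        finrank F₀ T < finrank F₀ T' := by
  classical
  have hAZ' : A * (-Z) = (-Z) * A := by rw [mul_neg, neg_mul, hAZ]
  obtain ⟨w, hwE, hw0, hw⟩ := hA.exists_eigen (fixR F₀ (-Z))
    (fun v hv w hw => fixR_invariant hAZ' hv hw) hE0
  have hwT : w ∉ T := by
    intro hwT
    obtain ⟨k1, k2⟩ := hAT w hwT hw0
    rcases hw with hw | hw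
    · exact k1 hw
    · exact k2 hw
  have hstar' : ∀ x ∈ T ⊔ fixR F₀ (-Z), ∀ y ∈ perpR F₀ Q hrat (T ⊔ fixR F₀ (-Z)),
      polar ⇑Q (mt(b).mulVec (jV F₀ x)) (jV F₀ y) = 0 := by
    intro x hx y hy
    rw [mem_perpR] at hy
    obtain ⟨t, ht, e, he, hte⟩ := Submodule.mem_sup.mp hx
    rw [← hte, jV_add, Matrix.mulVec_add, polar_add_left]
    have k1 : polar ⇑Q (mt(b).mulVec (jV F₀ t)) (jV F₀ y) = 0 := by
      apply hstar t ht y
      rw [mem_perpR]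
      intro w' hw'
      exact hy w' (Submodule.mem_sup_left hw')
    have hyfix : y ∈ fixR F₀ Z := by
      apply hZ.mem_fixR_of_perp h2 hQ
      intro w' hw'
      exact hy w' (Submodule.mem_sup_right hw')
    have k2 : polar ⇑Q (mt(b).mulVec (jV F₀ e)) (jV F₀ y) = 0 :=
      hZ.polar_comm_eq_zero h2 mt(b) hbZ (mem_fixR_neg.mp he) (mem_fixR.mp hyfix)
    rw [k1, k2, add_zero]
  have hlt : T < T ⊔ fixR F₀ (-Z) := by
    refine lt_of_le_of_ne le_sup_left ?_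
    intro h
    apply hwT
    rw [h]
    exact Submodule.mem_sup_right hwE
  have hfr : finrank F₀ T < finrank F₀ (T ⊔ fixR F₀ (-Z) : Submodule F₀ (ι → F₀)) :=
    Submodule.finrank_lt_finrank_of_lt hlt
  by_cases han : ∀ v ∈ T ⊔ fixR F₀ (-Z), Q (jV F₀ v) = 0 → v = 0
  · exact Or.inr ⟨T ⊔ fixR F₀ (-Z), han, hstar', hfr⟩
  · left
    push Not at han
    obtain ⟨x, hx, hQx, hx0⟩ := han
    have hT2 := finrank_le_two_of_aniso F₀ Q hrat T hTan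
    have hE2 := finrank_le_two_of_aniso F₀ Q hrat (fixR F₀ (-Z)) hE
    have hsum := Submodule.finrank_add_le_finrank_add_finrank T (fixR F₀ (-Z))
    have hP := finrank_perpR F₀ Q hrat hQ (T ⊔ fixR F₀ (-Z))
    obtain ⟨x', hx', y', hy', hx'0, hQx', hx'y', hind⟩ :=
      exists_sing_perp_pair F₀ Q hrat hQ (perpR F₀ Q hrat (T ⊔ fixR F₀ (-Z))) (by omega)
    exact mem_H1_of_perp2 F₀ Q hrat hQ M hn hHM hW h2 hMΩ hbM hQx hx0 hQx' hx'0 hx'y' hind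
      (by rw [polar_comm]; exact hstar' x hx x' hx')
      (by rw [polar_comm]; exact hstar' x hx y' hy')

include hrat hQ hn hHM hW in
/-- One round: either `b` is a scalar multiple of a rational matrix, or the anisotropic
subspace can be enlarged. -/
theorem dih_step (h2 : (2 : F) ≠ 0) (hMΩ : M ≤ commutator ↥(Cfsg.isometryGroup F ⇑Q))
    {b : ↥(Cfsg.isometryGroup F ⇑Q)} (hbM : b ∈ M)
    (hZ : ∀ T : Submodule F₀ (ι → F₀), (∀ v ∈ T, Q (jV F₀ v) = 0 → v = 0) →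
      ∃ A Z : Matrix ι ι F, RInv F₀ Q A ∧ RInv F₀ Q Z ∧ A * Z = Z * A ∧
        mt(b) * Z = Z * mt(b) ∧ Z ≠ 1 ∧ Z ≠ -1 ∧
        ∀ w ∈ T, w ≠ 0 → w ∉ fixR F₀ A ∧ w ∉ fixR F₀ (-A))
    (T : Submodule F₀ (ι → F₀)) (hTan : ∀ v ∈ T, Q (jV F₀ v) = 0 → v = 0)
    (hstar : ∀ x ∈ T, ∀ y ∈ perpR F₀ Q hrat T,
      polar ⇑Q (mt(b).mulVec (jV F₀ x)) (jV F₀ y) = 0) :
    (b : Matrix.GeneralLinearGroup ι F) ∈ H1 ι F₀ ∨
      ∃ T' : Submodule F₀ (ι → F₀), (∀ v ∈ T', Q (jV F₀ v) = 0 → v = 0) ∧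
        (∀ x ∈ T', ∀ y ∈ perpR F₀ Q hrat T',
          polar ⇑Q (mt(b).mulVec (jV F₀ x)) (jV F₀ y) = 0) ∧
        finrank F₀ T < finrank F₀ T' := by
  classical
  obtain ⟨A, Z, hA, hZr, hAZ, hbZ, hZ1, hZm1, hAT⟩ := hZ T hTan
  have hEm0 : ∃ v ∈ fixR F₀ (-Z), v ≠ 0 := hZr.exists_neg_ne_zero h2 hZ1
  have hEp0 : ∃ v ∈ fixR F₀ (- -Z), v ≠ 0 := by
    apply hZr.neg.exists_neg_ne_zero h2
    intro h
    apply hZm1
    rw [← neg_neg Z, h]
  have hbZ' : mt(b) * (-Z) = (-Z) * mt(b) := by rw [mul_neg, neg_mul, hbZ]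
  have hAZ' : A * (-Z) = (-Z) * A := by rw [mul_neg, neg_mul, hAZ]
  by_cases hα : ∀ v ∈ fixR F₀ (-Z), Q (jV F₀ v) = 0 → v = 0
  · exact ext_step F₀ Q hrat hQ M hn hHM hW h2 hMΩ hbM T hTan hstar A Z hA hZr hAZ hbZ hα hEm0
      hAT
  by_cases hβ : ∀ v ∈ fixR F₀ (- -Z), Q (jV F₀ v) = 0 → v = 0
  · exact ext_step F₀ Q hrat hQ M hn hHM hW h2 hMΩ hbM T hTan hstar A (-Z) hA hZr.neg hAZ' hbZ'
      hβ hEp0 hAT
  left
  push Not at hα hβ
  obtain ⟨xm, hxm, hQxm, hxm0⟩ := hα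
  obtain ⟨xp, hxp, hQxp, hxp0⟩ := hβ
  rw [neg_neg] at hxp
  by_cases h3 : 3 ≤ finrank F₀ (fixR F₀ Z)
  · obtain ⟨x', hx', y', hy', hx'0, hQx', hx'y', hind⟩ :=
      exists_sing_perp_pair F₀ Q hrat hQ (fixR F₀ Z) h3
    exact mem_H1_of_perp2 F₀ Q hrat hQ M hn hHM hW h2 hMΩ hbM hQxm hxm0 hQx' hx'0 hx'y' hind
      (by rw [polar_comm]
          exact hZr.polar_comm_eq_zero h2 mt(b) hbZ (mem_fixR_neg.mp hxm) (mem_fixR.mp hx'))
      (by rw [polar_comm]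
          exact hZr.polar_comm_eq_zero h2 mt(b) hbZ (mem_fixR_neg.mp hxm) (mem_fixR.mp hy'))
  · have h3' := RInv.three_le_neg F₀ Q hrat hQ hn h2 hZr h3
    obtain ⟨x', hx', y', hy', hx'0, hQx', hx'y', hind⟩ :=
      exists_sing_perp_pair F₀ Q hrat hQ (fixR F₀ (-Z)) h3'
    have hxp' : (-Z).mulVec (jV F₀ xp) = -jV F₀ xp := by
      rw [Matrix.neg_mulVec, mem_fixR.mp hxp]
    exact mem_H1_of_perp2 F₀ Q hrat hQ M hn hHM hW h2 hMΩ hbM hQxp hxp0 hQx' hx'0 hx'y' hind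
      (by rw [polar_comm]
          exact hZr.neg.polar_comm_eq_zero h2 mt(b) hbZ' hxp' (mem_fixR.mp hx'))
      (by rw [polar_comm]
          exact hZr.neg.polar_comm_eq_zero h2 mt(b) hbZ' hxp' (mem_fixR.mp hy'))

include hrat hQ hn hHM hW in
/-- An element `b` of `M` such that every anisotropic rational subspace is avoided by a
rational involution `A` which commutes with a rational involution `Z ≠ ± 1` commuting with
`b`, is a scalar multiple of a rational matrix. -/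
theorem mem_H1_of_dihedral (h2 : (2 : F) ≠ 0)
    (hMΩ : M ≤ commutator ↥(Cfsg.isometryGroup F ⇑Q))
    {b : ↥(Cfsg.isometryGroup F ⇑Q)} (hbM : b ∈ M)
    (hZ : ∀ T : Submodule F₀ (ι → F₀), (∀ v ∈ T, Q (jV F₀ v) = 0 → v = 0) →
      ∃ A Z : Matrix ι ι F, RInv F₀ Q A ∧ RInv F₀ Q Z ∧ A * Z = Z * A ∧
        mt(b) * Z = Z * mt(b) ∧ Z ≠ 1 ∧ Z ≠ -1 ∧
        ∀ w ∈ T, w ≠ 0 → w ∉ fixR F₀ A ∧ w ∉ fixR F₀ (-A)) :
    (b : Matrix.GeneralLinearGroup ι F) ∈ H1 ι F₀ := by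
  by_contra hb
  have step := fun T hTan hstar =>
    (dih_step F₀ Q hrat hQ M hn hHM hW h2 hMΩ hbM hZ T hTan hstar).resolve_left hb
  obtain ⟨T₁, hT₁, hs₁, hf₁⟩ := step ⊥
    (fun v hv _ => (Submodule.mem_bot F₀).mp hv)
    (fun x hx y _ => by
      rw [(Submodule.mem_bot F₀).mp hx, jV_zero, Matrix.mulVec_zero, polar_zero_left])
  obtain ⟨T₂, hT₂, hs₂, hf₂⟩ := step T₁ hT₁ hs₁
  obtain ⟨T₃, hT₃, hs₃, hf₃⟩ := step T₂ hT₂ hs₂
  have := finrank_le_two_of_aniso F₀ Q hrat T₃ hT₃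
  omega


include hrat hQ hn hHM hW in
/-- The overgroup step in odd characteristic (given the two families of rational
involutions). -/
theorem odd_le_H1 (h2 : (2 : F) ≠ 0) (hsq : ∀ c : F, c ^ 2 ∈ F₀ → c ∈ F₀)
    (hMΩ : M ≤ commutator ↥(Cfsg.isometryGroup F ⇑Q))
    (hinv4 : HasInvol4 F₀ Q) (hinv6 : HasInvol6 F₀ Q)
    {m : ↥(Cfsg.isometryGroup F ⇑Q)} (hm : m ∈ M) :
    (m : Matrix.GeneralLinearGroup ι F) ∈ H1 ι F₀ := by
  classical
  obtain ⟨b₀, x₀, x₁, S, hb₀c, hb₀r, hb₀sq, hx₀0, hQx₀, hb₀x₀, hx₁0, hQx₁, hb₀x₁, hS, hb₀fix,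
    hb₀nc⟩ := hinv6
  have hb₀M : b₀ ∈ M :=
    hHM b₀ hb₀c (mem_H1_of F₀ _ 1 one_ne_zero mt(b₀) hb₀r (by rw [one_smul]))
  obtain ⟨b, hb⟩ : ∃ b : ↥(Cfsg.isometryGroup F ⇑Q), b = m * b₀ * m⁻¹ := ⟨_, rfl⟩
  have hbM : b ∈ M := by
    rw [hb]; exact M.mul_mem (M.mul_mem hm hb₀M) (M.inv_mem hm)
  have hbb : b * b = 1 := by
    rw [hb]
    have e : m * b₀ * m⁻¹ * (m * b₀ * m⁻¹) = m * (b₀ * b₀) * m⁻¹ := by group
    rw [e, hb₀sq]
    group
  have hne : Nonempty ι := by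
    rw [← Fintype.card_pos_iff]; omega
  -- the fixed vectors of `b`
  have hSb : (S.image (fun s => mt(m).mulVec (jV F₀ s))).card ≤ 6 :=
    (Finset.card_image_le).trans hS
  have hbfix : ∀ y : ι → F,
      (∀ s ∈ S.image (fun s => mt(m).mulVec (jV F₀ s)), polar ⇑Q s y = 0) →
      mt(b).mulVec y = y := by
    intro y hy
    have h1 : mt(b₀).mulVec (mt((m⁻¹ : ↥(Cfsg.isometryGroup F ⇑Q))).mulVec y)
        = mt((m⁻¹ : ↥(Cfsg.isometryGroup F ⇑Q))).mulVec y := by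
      apply hb₀fix
      intro s hs
      have h3 := hy _ (Finset.mem_image_of_mem _ hs)
      rw [← isometry_polar Q m, coe_inv_mulVec]
      exact h3
    rw [hb, coe_mul', coe_mul', ← Matrix.mulVec_mulVec, ← Matrix.mulVec_mulVec, h1,
      coe_inv_mulVec]
  have hbH1 : (b : Matrix.GeneralLinearGroup ι F) ∈ H1 ι F₀ := by
    apply mem_H1_of_dihedral F₀ Q hrat hQ M hn hHM hW h2 hMΩ hbM
    intro T hT
    obtain ⟨a, hN, hav⟩ := exists_nice_avoiding F₀ Q hrat hQ M hn hHM h2 hinv4 T hT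
    have hnc : ∀ g : ↥(Cfsg.isometryGroup F ⇑Q), b ≠ g * a * g⁻¹ := by
      intro g hg
      obtain ⟨T₄, hT₄, hafix⟩ := hN.fix
      apply hb₀nc a (m⁻¹ * g) (T₄.image (jV F₀)) ((Finset.card_image_le).trans hT₄)
      · intro y hy
        exact hafix y (fun t ht => hy _ (Finset.mem_image_of_mem _ ht))
      · have e1 : b₀ = m⁻¹ * (m * b₀ * m⁻¹) * m := by group
        rw [e1, ← hb, hg]
        group
    obtain ⟨Z, hZr, haZ, hbZ, hZ1, hZm1⟩ :=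
      hN.dihedral F₀ Q hrat hQ M hn hHM hW h2 hsq hMΩ hbM hbb hnc _ hSb hbfix
    exact ⟨mt(a), Z, rinv_of a hN.sq hN.rat, hZr, haZ, hbZ, hZ1, hZm1, hav⟩
  -- `b` is a rational involution
  have hbr : RatM F₀ mt(b) := ratM_of_invol_odd hsq hne b hbb hbH1
  have hB : RInv F₀ Q mt(b) := rinv_of b hbb hbr
  have hbx₀ : mt(b).mulVec (mt(m).mulVec (jV F₀ x₀)) = -(mt(m).mulVec (jV F₀ x₀)) := by
    rw [hb, conj_mulVec, hb₀x₀, Matrix.mulVec_neg]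
  have hbx₁ : mt(b).mulVec (mt(m).mulVec (jV F₀ x₁)) = mt(m).mulVec (jV F₀ x₁) := by
    rw [hb, conj_mulVec, hb₀x₁]
  by_cases h3 : 3 ≤ finrank F₀ (fixR F₀ mt(b))
  · obtain ⟨x', hx', y', hy', hx'0, hQx', hx'y', hind⟩ :=
      exists_sing_perp_pair F₀ Q hrat hQ (fixR F₀ mt(b)) h3
    exact mem_H1_of_perp2 F₀ Q hrat hQ M hn hHM hW h2 hMΩ hm hQx₀ hx₀0 hQx' hx'0 hx'y' hind
      (hB.polar_fix_neg h2 (mem_fixR.mp hx') hbx₀)
      (hB.polar_fix_neg h2 (mem_fixR.mp hy') hbx₀)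
  · have h3' := RInv.three_le_neg F₀ Q hrat hQ hn h2 hB h3
    obtain ⟨x', hx', y', hy', hx'0, hQx', hx'y', hind⟩ :=
      exists_sing_perp_pair F₀ Q hrat hQ (fixR F₀ (-mt(b))) h3'
    have hbx₁' : (-mt(b)).mulVec (mt(m).mulVec (jV F₀ x₁)) = -(mt(m).mulVec (jV F₀ x₁)) := by
      rw [Matrix.neg_mulVec, hbx₁]
    exact mem_H1_of_perp2 F₀ Q hrat hQ M hn hHM hW h2 hMΩ hm hQx₁ hx₁0 hQx' hx'0 hx'y' hind
      (hB.neg.polar_fix_neg h2 (mem_fixR.mp hx') hbx₁')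
      (hB.neg.polar_fix_neg h2 (mem_fixR.mp hy') hbx₁')

end SubfOdd

end Cfsg.Agent.Lib.Helper52
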