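import Mathlib
import Cfsg.Agent.Lib.Helper52.SubfFix

/-!
Small degree `r = [F : F₀]` (`2 r + 5 ≤ n`): every vector of `F^n` is a combination of `r`
rational vectors, so every element of an overgroup `M` with rational parameter field is a scalar
multiple of a rational matrix.
-/

set_option autoImplicit false
set_option linter.unusedSectionVars false

namespace Cfsg.Agent.Lib.Helper52

open Module QuadraticMap
open Cfsg.Agent.Lib.Helper51 Cfsg.Agent.Lib.Helper50

section SubfSmallR

variable {ι : Type} [Fintype ι] [DecidableEq ι] {F : Type*} [Field F] [Fintype F]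
variable (F₀ : Subfield F) (Q : QuadraticForm F (ι → F))
variable (hrat : ∀ v : ι → F₀, Q (jV F₀ v) ∈ F₀) (hQ : (polarBilin Q).Nondegenerate)
variable (M : Subgroup ↥(Cfsg.isometryGroup F ⇑Q))
variable (hn : 13 ≤ Fintype.card ι) (hHM : RatLe F₀ Q M)
variable (hW : ∀ c : F, InW F₀ Q M c → c ∈ F₀)

local notation "mt(" g ")" => ((g : Matrix.GeneralLinearGroup ι F) : Matrix ι ι F)

/-- Every vector is orthogonal to whatever is orthogonal to a suitable set of at most `[F : F₀]`
rational vectors. -/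
theorem exists_rat_decomp (u : ι → F) :
    ∃ S : Finset (ι → F₀), S.card ≤ finrank F₀ F ∧
      ∀ y : ι → F, (∀ s ∈ S, polar ⇑Q (jV F₀ s) y = 0) → polar ⇑Q u y = 0 := by
  classical
  let b := Module.finBasis F₀ F
  let s : Fin (finrank F₀ F) → ι → F₀ := fun k i => b.repr (u i) k
  have hu : u = ∑ k, (b k) • jV F₀ (s k) := by
    funext i
    rw [Finset.sum_apply]
    refine (b.sum_repr (u i)).symm.trans (Finset.sum_congr rfl ?_)
    intro k _
    rw [Pi.smul_apply, jV_apply, smul_eq_mul, mul_comm]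
    rfl
  refine ⟨Finset.univ.image s, ?_, ?_⟩
  · refine le_trans Finset.card_image_le ?_
    simp
  · intro y hy
    have h2 : polar ⇑Q u y = polarBilin Q u y := rfl
    rw [h2, hu, map_sum, LinearMap.sum_apply]
    apply Finset.sum_eq_zero
    intro k _
    rw [map_smul, LinearMap.smul_apply, polarBilin_apply_apply,
      hy (s k) (Finset.mem_image_of_mem s (Finset.mem_univ k)), smul_zero]

include hrat hQ hn hHM hW in
/-- If `2 [F : F₀] + 5 ≤ n`, an overgroup with rational parameter field consists of scalar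
multiples of rational matrices. -/
theorem le_H1_of_finrank (hMΩ : M ≤ commutator ↥(Cfsg.isometryGroup F ⇑Q))
    (hr : 2 * finrank F₀ F + 5 ≤ Fintype.card ι)
    {m : ↥(Cfsg.isometryGroup F ⇑Q)} (hm : m ∈ M) :
    (m : Matrix.GeneralLinearGroup ι F) ∈ H1 ι F₀ := by
  classical
  obtain ⟨x, x₁, hx, -, hxx₁, -, -⟩ := exists_rat_hyp F₀ Q hrat hQ ∅ (by simp; omega)
  have hx0 : x ≠ 0 := by
    intro h0
    rw [h0, jV_zero, polar_zero_left] at hxx₁
    exact zero_ne_one hxx₁
  obtain ⟨S, hS, hSu⟩ := exists_rat_decomp F₀ Q (mt(m).mulVec (jV F₀ x))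
  obtain ⟨d, d', e, e', hd, hd', hdd', he, he', hee', hSd, hSd', hSe, hSe', hde, hde', hd'e,
    hd'e'⟩ := exists_two_rat_hyp F₀ Q hrat hQ S (by omega)
  have he0 : e ≠ 0 := by
    intro h0
    rw [h0, jV_zero, polar_zero_left] at hee'
    exact zero_ne_one hee'
  refine mem_H1_of_perp3 F₀ Q hrat hQ M hn hHM hW hMΩ hm hx hx0 he he0 hd hd'
    (by rw [polar_comm]; exact hde) (by rw [polar_comm]; exact hd'e) hdd' ?_ ?_ ?_
  · rw [polar_comm]; exact hSu _ hSe
  · rw [polar_comm]; exact hSu _ hSd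
  · rw [polar_comm]; exact hSu _ hSd'

end SubfSmallR

end Cfsg.Agent.Lib.Helper52
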