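import Mathlib
import Cfsg.Agent.Lib.Helper52.NondegBridge

/-!
If `V = N ⊥ U` with `dim N = dim U` even and some isometry maps `N` into `U`, then `V` has a
totally singular subspace of half its dimension (`exists_ts_of_swap`): take a maximal totally
singular subspace `S` of `N`; then `S + gS` is totally singular, and if `2 dim S < dim N` the
anisotropic plane `A` complementing `S` in `N ∩ S^⊥` contributes the totally singular plane
spanned by `g e_i + λ e_i`, for an anti-isometry `λ` of `A` (`exists_anti_plane`).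
-/

set_option autoImplicit false
set_option linter.unusedSectionVars false

namespace Cfsg.Agent.Lib.Helper52

open Module QuadraticMap
open Cfsg.Agent.Lib.Helper51

section SwapPlus

variable {ι : Type} [Fintype ι] [DecidableEq ι] {F : Type*} [Field F] [Fintype F]
variable {Q : QuadraticForm F (ι → F)}

local notation "mt(" g ")" => ((g : Matrix.GeneralLinearGroup ι F) : Matrix ι ι F)

theorem Q_comb (u w : ι → F) (a b : F) :
    Q (a • u + b • w) = a * a * Q u + b * b * Q w + a * b * polar ⇑Q u w := by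
  have := Q_add_smul_add_smul Q 0 u w a b
  rw [zero_add] at this
  rw [this]
  simp

/-- The sum of two mutually orthogonal totally singular subspaces is totally singular. -/
theorem ts_sup (S T : Submodule F (ι → F)) (hS : ∀ x ∈ S, Q x = 0) (hT : ∀ x ∈ T, Q x = 0)
    (hST : ∀ x ∈ S, ∀ y ∈ T, polar ⇑Q x y = 0) : ∀ x ∈ S ⊔ T, Q x = 0 := by
  intro x hx
  obtain ⟨s, hs, t, ht, rfl⟩ := Submodule.mem_sup.mp hx
  have := Q_comb (Q := Q) s t 1 1
  rw [one_smul, one_smul] at this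
  rw [this, hS s hs, hT t ht, hST s hs t ht]
  simp

/-- An anti-isometry on a basis of an anisotropic plane. -/
theorem exists_anti_plane (A : Submodule F (ι → F)) (hA : finrank F A = 2)
    (han : ∀ a ∈ A, Q a = 0 → a = 0) :
    ∃ e₁ ∈ A, ∃ e₂ ∈ A, ∃ l₁ ∈ A, ∃ l₂ ∈ A,
      (∀ c₁ c₂ : F, c₁ • e₁ + c₂ • e₂ = 0 → c₁ = 0 ∧ c₂ = 0) ∧ Q l₁ = -Q e₁ ∧ Q l₂ = -Q e₂ ∧
      polar ⇑Q l₁ l₂ = -polar ⇑Q e₁ e₂ := by
  obtain ⟨b, hb⟩ := exists_linearIndependent_of_le_finrank (show 2 ≤ finrank F A by rw [hA])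
  have hind : ∀ c₁ c₂ : F, c₁ • (b 0 : ι → F) + c₂ • (b 1 : ι → F) = 0 → c₁ = 0 ∧ c₂ = 0 := by
    intro c₁ c₂ hc
    have h1 : c₁ • b 0 + c₂ • b 1 = 0 := by
      apply Subtype.ext
      simpa using hc
    have h2 := Fintype.linearIndependent_iff.mp hb ![c₁, c₂] (by
      rw [Fin.sum_univ_two]
      simpa using h1)
    exact ⟨by simpa using h2 0, by simpa using h2 1⟩
  by_cases h2 : (2 : F) = 0
  · have hneg : ∀ x : F, x = -x := by
      intro x
      apply eq_neg_of_add_eq_zero_left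
      rw [← two_mul, h2, zero_mul]
    exact ⟨b 0, (b 0).2, b 1, (b 1).2, b 0, (b 0).2, b 1, (b 1).2, hind, hneg _, hneg _, hneg _⟩
  · have hodd : Fintype.card F % 2 = 1 := by
      apply FiniteField.odd_card_of_char_ne_two
      intro hchar
      apply h2
      haveI : CharP F 2 := ringChar.of_eq hchar
      exact_mod_cast CharP.cast_eq_zero F 2
    obtain ⟨e₁, he₁⟩ : ∃ e₁ : ι → F, e₁ = b 0 := ⟨_, rfl⟩
    have he₁A : e₁ ∈ A := by rw [he₁]; exact (b 0).2
    have he₁0 : e₁ ≠ 0 := by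
      intro h0
      have := (hind 1 0 (by rw [← he₁, h0]; simp)).1
      exact one_ne_zero this
    have hd₁ : Q e₁ ≠ 0 := fun h => he₁0 (han e₁ he₁A h)
    have hp11 : polar ⇑Q e₁ e₁ = 2 * Q e₁ := Cfsg.Agent.Lib.Helper51.polar_self Q e₁
    obtain ⟨μ, hμ⟩ : ∃ μ : F, μ = polar ⇑Q e₁ (b 1 : ι → F) / (2 * Q e₁) := ⟨_, rfl⟩
    obtain ⟨e₂, he₂⟩ : ∃ e₂ : ι → F, e₂ = (b 1 : ι → F) - μ • e₁ := ⟨_, rfl⟩
    have he₂A : e₂ ∈ A := by rw [he₂]; exact A.sub_mem (b 1).2 (A.smul_mem _ he₁A)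
    have h12 : polar ⇑Q e₁ e₂ = 0 := by
      rw [he₂, polar_sub_right, polar_smul_right, hp11, hμ, smul_eq_mul]
      field_simp
      ring
    have hind' : ∀ c₁ c₂ : F, c₁ • e₁ + c₂ • e₂ = 0 → c₁ = 0 ∧ c₂ = 0 := by
      intro c₁ c₂ hc
      have h1 : (c₁ - c₂ * μ) • (b 0 : ι → F) + c₂ • (b 1 : ι → F) = 0 := by
        rw [← hc, he₂, he₁]; module
      obtain ⟨h3, h4⟩ := hind _ _ h1
      rw [h4, zero_mul, sub_zero] at h3
      exact ⟨h3, h4⟩
    have he₂0 : e₂ ≠ 0 := by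
      intro h0
      have := (hind' 0 1 (by rw [h0]; simp)).2
      exact one_ne_zero this
    have hd₂ : Q e₂ ≠ 0 := fun h => he₂0 (han e₂ he₂A h)
    have h21 : polar ⇑Q e₂ e₁ = 0 := by rw [polar_comm]; exact h12
    have hp22 : polar ⇑Q e₂ e₂ = 2 * Q e₂ := Cfsg.Agent.Lib.Helper51.polar_self Q e₂
    obtain ⟨α, β, hαβ⟩ := FiniteField.exists_root_sum_quadratic
      (f := Polynomial.C (Q e₁) * Polynomial.X ^ 2 + Polynomial.C 0 * Polynomial.X
        + Polynomial.C (Q e₁))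
      (g := Polynomial.C (Q e₂) * Polynomial.X ^ 2 + Polynomial.C 0 * Polynomial.X
        + Polynomial.C 0)
      (Polynomial.degree_quadratic hd₁) (Polynomial.degree_quadratic hd₂) hodd
    simp only [Polynomial.eval_add, Polynomial.eval_mul, Polynomial.eval_C, Polynomial.eval_pow,
      Polynomial.eval_X, zero_mul, add_zero] at hαβ
    refine ⟨e₁, he₁A, e₂, he₂A, α • e₁ + β • e₂,
      A.add_mem (A.smul_mem _ he₁A) (A.smul_mem _ he₂A),
      (Q e₁)⁻¹ • (-(Q e₂ * β) • e₁ + (Q e₁ * α) • e₂),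
      A.smul_mem _ (A.add_mem (A.smul_mem _ he₁A) (A.smul_mem _ he₂A)), hind', ?_, ?_, ?_⟩
    · rw [Q_comb, h12]
      linear_combination hαβ
    · rw [QuadraticMap.map_smul, Q_comb, h12, smul_eq_mul]
      field_simp
      first | linear_combination hαβ | linear_combination (Q e₂) * hαβ | linear_combination (-1 : F) * hαβ
    · rw [h12, neg_zero]
      simp only [polar_add_left, polar_add_right, polar_smul_left, polar_smul_right, hp11, hp22,
        h12, h21, smul_eq_mul]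
      field_simp
      ring

/-- If an isometry maps `N` into `U`, where `V = N ⊥ U` with `dim N = dim U` even, then `V`
has a totally singular subspace of half its dimension. -/
theorem exists_ts_of_swap (hQ : (polarBilin Q).Nondegenerate) {N U : Submodule F (ι → F)}
    (h : OrthPair Q N U) (hfin : finrank F N = finrank F U) (heven : Even (finrank F N))
    (g : ↥(Cfsg.isometryGroup F ⇑Q)) (hg : ∀ x ∈ N, mt(g).mulVec x ∈ U) :
    ∃ T : Submodule F (ι → F), (∀ t ∈ T, Q t = 0) ∧ 2 * finrank F T = Fintype.card ι := by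
  classical
  have hadd := h.finrank_add hQ
  have hinfNU := h.inf_eq_bot hQ
  -- the decomposition is unique
  have huniq : ∀ x ∈ N, ∀ y ∈ U, x + y = 0 → x = 0 ∧ y = 0 := by
    intro x hx y hy hxy
    have h1 : x ∈ N ⊓ U := by
      refine ⟨hx, ?_⟩
      have : x = -y := eq_neg_of_add_eq_zero_left hxy
      rw [this]; exact U.neg_mem hy
    rw [hinfNU, Submodule.mem_bot] at h1
    refine ⟨h1, ?_⟩
    rw [h1, zero_add] at hxy
    exact hxy
  have hginj : ∀ x, mt(g).mulVec x = 0 → x = 0 := by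
    intro x hx
    by_contra hne
    exact mulVec_ne_zero Q g x hne hx
  -- a totally singular subspace of `N` of maximal dimension
  have hexS : ∃ j, ∃ S : Submodule F (ι → F), S ≤ N ∧ (∀ x ∈ S, Q x = 0) ∧
      finrank F S + j = finrank F N :=
    ⟨finrank F N, ⊥, bot_le, fun x hx => by
      rw [Submodule.mem_bot] at hx
      rw [hx]; exact QuadraticMap.map_zero Q, by rw [finrank_bot, zero_add]⟩
  obtain ⟨S, hSN, hSts, hSj⟩ := Nat.find_spec hexS
  have hmax : ∀ S' : Submodule F (ι → F), S' ≤ N → (∀ x ∈ S', Q x = 0) →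
      finrank F S' ≤ finrank F S := by
    intro S' hS'N hS'ts
    by_contra hlt
    push Not at hlt
    have hle := Submodule.finrank_mono hS'N
    have := Nat.find_min hexS (m := finrank F N - finrank F S') (by omega)
    exact this ⟨S', hS'N, hS'ts, by omega⟩
  obtain ⟨gS, hgS⟩ : ∃ gS : Submodule F (ι → F), gS = S.map (Matrix.mulVecLin mt(g)) :=
    ⟨_, rfl⟩
  have hgSU : gS ≤ U := by
    rw [hgS]
    rintro _ ⟨s, hs, rfl⟩
    rw [Matrix.mulVecLin_apply]
    exact hg s (hSN hs)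
  have hgSts : ∀ x ∈ gS, Q x = 0 := by
    rw [hgS]; exact ts_map_isometry Q g S hSts
  have hgSfin : finrank F gS = finrank F S := by
    rw [hgS]; exact finrank_map_isometry Q g S
  have hT₀ts : ∀ x ∈ S ⊔ gS, Q x = 0 :=
    ts_sup S gS hSts hgSts (fun x hx y hy => h.orth x (hSN hx) y (hgSU hy))
  have hT₀fin : finrank F ↥(S ⊔ gS) = 2 * finrank F S := by
    have h1 := Submodule.finrank_sup_add_finrank_inf_eq S gS
    have h2 : S ⊓ gS = ⊥ := by
      rw [eq_bot_iff, ← hinfNU]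
      exact inf_le_inf hSN hgSU
    rw [h2, finrank_bot] at h1
    omega
  have hle := two_mul_finrank_le_of_ts Q hQ _ hT₀ts
  by_cases hr : 2 * finrank F S = finrank F N
  · exact ⟨S ⊔ gS, hT₀ts, by omega⟩
  have hr2 : 2 * finrank F S + 2 ≤ finrank F N := by
    obtain ⟨c, hc⟩ := heven
    omega
  -- the anisotropic part
  obtain ⟨K, hK⟩ := Submodule.exists_isCompl S
  have hKdim := Submodule.finrank_add_eq_of_isCompl hK
  rw [Module.finrank_fintype_fun_eq_card] at hKdim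
  obtain ⟨A, hAdef⟩ : ∃ A : Submodule F (ι → F),
      A = (N ⊓ LinearMap.BilinForm.orthogonal (polarBilin Q) S) ⊓ K := ⟨_, rfl⟩
  have hAN : A ≤ N := by rw [hAdef]; exact inf_le_left.trans inf_le_left
  have hAorth : ∀ a ∈ A, ∀ s ∈ S, polar ⇑Q s a = 0 := by
    intro a ha s hs
    rw [hAdef] at ha
    have := (LinearMap.BilinForm.mem_orthogonal_iff.mp ha.1.2) s hs
    rw [polarBilin_apply_apply] at this
    exact this
  have hAK : A ≤ K := by rw [hAdef]; exact inf_le_right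
  have hAdim : finrank F N ≤ finrank F A + 2 * finrank F S := by
    have h1 := Submodule.finrank_sup_add_finrank_inf_eq N
      (LinearMap.BilinForm.orthogonal (polarBilin Q) S)
    have h2 := LinearMap.BilinForm.finrank_orthogonal hQ S
    rw [Module.finrank_fintype_fun_eq_card] at h2
    have h3 : finrank F ↥(N ⊔ LinearMap.BilinForm.orthogonal (polarBilin Q) S)
        ≤ Fintype.card ι := by
      have := Submodule.finrank_le (N ⊔ LinearMap.BilinForm.orthogonal (polarBilin Q) S)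
      rwa [Module.finrank_fintype_fun_eq_card] at this
    have h4 := Submodule.finrank_sup_add_finrank_inf_eq
      (N ⊓ LinearMap.BilinForm.orthogonal (polarBilin Q) S) K
    have h5 : finrank F ↥((N ⊓ LinearMap.BilinForm.orthogonal (polarBilin Q) S) ⊔ K)
        ≤ Fintype.card ι := by
      have := Submodule.finrank_le ((N ⊓ LinearMap.BilinForm.orthogonal (polarBilin Q) S) ⊔ K)
      rwa [Module.finrank_fintype_fun_eq_card] at this
    have h6 := Submodule.finrank_le S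
    rw [Module.finrank_fintype_fun_eq_card] at h6
    rw [hAdef]
    omega
  have hSA : ∀ x ∈ S, x ∈ A → x = 0 := by
    intro x hxS hxA
    have : x ∈ S ⊓ K := ⟨hxS, hAK hxA⟩
    rw [hK.inf_eq_bot, Submodule.mem_bot] at this
    exact this
  have han : ∀ a ∈ A, Q a = 0 → a = 0 := by
    intro a ha hQa
    by_contra hne
    have hts : ∀ x ∈ S ⊔ Submodule.span F ({a} : Set (ι → F)), Q x = 0 := by
      apply ts_sup S _ hSts
      · intro x hx
        obtain ⟨c, rfl⟩ := Submodule.mem_span_singleton.mp hx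
        rw [QuadraticMap.map_smul, hQa, smul_zero]
      · intro x hx y hy
        obtain ⟨c, rfl⟩ := Submodule.mem_span_singleton.mp hy
        rw [polar_smul_right, hAorth a ha x hx, smul_zero]
    have hle' : S ⊔ Submodule.span F ({a} : Set (ι → F)) ≤ N := by
      apply sup_le hSN
      rw [Submodule.span_le]
      intro z hz
      rw [Set.mem_singleton_iff] at hz
      rw [hz]; exact hAN ha
    have h1 := Submodule.finrank_sup_add_finrank_inf_eq S (Submodule.span F ({a} : Set (ι → F)))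
    have h2 : S ⊓ Submodule.span F ({a} : Set (ι → F)) = ⊥ := by
      rw [eq_bot_iff]
      rintro x ⟨hxS, hxa⟩
      rw [Submodule.mem_bot]
      obtain ⟨c, rfl⟩ := Submodule.mem_span_singleton.mp hxa
      by_cases hc : c = 0
      · rw [hc, zero_smul]
      · exfalso
        apply hne
        apply hSA a _ ha
        have := S.smul_mem c⁻¹ hxS
        rwa [smul_smul, inv_mul_cancel₀ hc, one_smul] at this
    rw [h2, finrank_bot, finrank_span_singleton hne] at h1
    have := hmax _ hle' hts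
    omega
  have hA2 : finrank F A = 2 := by
    by_contra hne
    have h3 : 3 ≤ finrank F A := by omega
    obtain ⟨a, ha, ha0, hQa⟩ := exists_singular_of_finrank Q A h3
    exact ha0 (han a ha hQa)
  obtain ⟨e₁, he₁A, e₂, he₂A, l₁, hl₁A, l₂, hl₂A, hind, hQl₁, hQl₂, hpl⟩ :=
    exists_anti_plane A hA2 han
  obtain ⟨t₁, ht₁⟩ : ∃ t₁ : ι → F, t₁ = mt(g).mulVec e₁ + l₁ := ⟨_, rfl⟩
  obtain ⟨t₂, ht₂⟩ : ∃ t₂ : ι → F, t₂ = mt(g).mulVec e₂ + l₂ := ⟨_, rfl⟩
  have hge₁U : mt(g).mulVec e₁ ∈ U := hg e₁ (hAN he₁A)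
  have hge₂U : mt(g).mulVec e₂ ∈ U := hg e₂ (hAN he₂A)
  have hUN : ∀ x ∈ U, ∀ y ∈ N, polar ⇑Q x y = 0 := h.symm.orth
  have hQt₁ : Q t₁ = 0 := by
    have := Q_comb (Q := Q) (mt(g).mulVec e₁) l₁ 1 1
    rw [one_smul, one_smul] at this
    rw [ht₁, this, isometry_apply, hQl₁, hUN _ hge₁U _ (hAN hl₁A)]
    ring
  have hQt₂ : Q t₂ = 0 := by
    have := Q_comb (Q := Q) (mt(g).mulVec e₂) l₂ 1 1
    rw [one_smul, one_smul] at this
    rw [ht₂, this, isometry_apply, hQl₂, hUN _ hge₂U _ (hAN hl₂A)]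
    ring
  have ht₁t₂ : polar ⇑Q t₁ t₂ = 0 := by
    rw [ht₁, ht₂, polar_add_left, polar_add_right, polar_add_right, isometry_polar,
      hUN _ hge₁U _ (hAN hl₂A), h.orth _ (hAN hl₁A) _ hge₂U, hpl]
    ring
  have hPts := Q_span_pair_eq_zero Q t₁ t₂ hQt₁ hQt₂ ht₁t₂
  -- orthogonality of `S + gS` and the plane
  have horth_t : ∀ x ∈ S ⊔ gS, ∀ e ∈ A, ∀ l ∈ A, polar ⇑Q x (mt(g).mulVec e + l) = 0 := by
    intro x hx e he l hl
    obtain ⟨s, hs, s', hs', rfl⟩ := Submodule.mem_sup.mp hx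
    rw [hgS] at hs'
    obtain ⟨s₀, hs₀, rfl⟩ := hs'
    rw [Matrix.mulVecLin_apply, polar_add_left, polar_add_right, polar_add_right,
      isometry_polar, h.orth s (hSN hs) _ (hg e (hAN he)), hAorth l hl s hs,
      hAorth e he s₀ hs₀, hUN _ (hg s₀ (hSN hs₀)) l (hAN hl)]
    ring
  have hTts : ∀ x ∈ (S ⊔ gS) ⊔ Submodule.span F ({t₁, t₂} : Set (ι → F)), Q x = 0 := by
    apply ts_sup _ _ hT₀ts hPts
    intro x hx y hy
    obtain ⟨c₁, c₂, rfl⟩ := Submodule.mem_span_pair.mp hy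
    rw [polar_add_right, polar_smul_right, polar_smul_right, ht₁, ht₂,
      horth_t x hx e₁ he₁A l₁ hl₁A, horth_t x hx e₂ he₂A l₂ hl₂A]
    simp
  -- dimension count
  have hcomb : ∀ c₁ c₂ : F, ∀ s ∈ S, ∀ s₀ ∈ S,
      s + mt(g).mulVec s₀ = c₁ • t₁ + c₂ • t₂ → c₁ = 0 ∧ c₂ = 0 := by
    intro c₁ c₂ s hs s₀ hs₀ heq
    have h1 : (s - c₁ • l₁ - c₂ • l₂) + mt(g).mulVec (s₀ - c₁ • e₁ - c₂ • e₂) = 0 := by
      rw [Matrix.mulVec_sub, Matrix.mulVec_sub, Matrix.mulVec_smul, Matrix.mulVec_smul]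
      have h2 : s + mt(g).mulVec s₀ - (c₁ • t₁ + c₂ • t₂) = 0 := sub_eq_zero.mpr heq
      rw [← h2, ht₁, ht₂]
      module
    have h3 := (huniq _ (N.sub_mem (N.sub_mem (hSN hs) (N.smul_mem _ (hAN hl₁A)))
      (N.smul_mem _ (hAN hl₂A))) _
      (hg _ (N.sub_mem (N.sub_mem (hSN hs₀) (N.smul_mem _ (hAN he₁A)))
        (N.smul_mem _ (hAN he₂A)))) h1).2
    have h4 := hginj _ h3
    have h5 : s₀ = c₁ • e₁ + c₂ • e₂ := by
      have : s₀ - c₁ • e₁ - c₂ • e₂ = s₀ - (c₁ • e₁ + c₂ • e₂) := by abel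
      rw [this, sub_eq_zero] at h4
      exact h4
    have h6 : s₀ = 0 := hSA s₀ hs₀ (by
      rw [h5]; exact A.add_mem (A.smul_mem _ he₁A) (A.smul_mem _ he₂A))
    rw [h6] at h5
    exact hind c₁ c₂ h5.symm
  have hli : LinearIndependent F ![t₁, t₂] := by
    rw [LinearIndependent.pair_iff]
    intro c₁ c₂ hc
    apply hcomb c₁ c₂ 0 S.zero_mem 0 S.zero_mem
    rw [Matrix.mulVec_zero, add_zero, hc]
  have hPfin : finrank F ↥(Submodule.span F ({t₁, t₂} : Set (ι → F))) = 2 := by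
    have := finrank_span_eq_card hli
    rw [Matrix.range_cons_cons_empty, Fintype.card_fin] at this
    exact this
  have hinf : (S ⊔ gS) ⊓ Submodule.span F ({t₁, t₂} : Set (ι → F)) = ⊥ := by
    rw [eq_bot_iff]
    rintro x ⟨hx1, hx2⟩
    rw [Submodule.mem_bot]
    obtain ⟨s, hs, s', hs', rfl⟩ := Submodule.mem_sup.mp hx1
    rw [hgS] at hs'
    obtain ⟨s₀, hs₀, rfl⟩ := hs'
    obtain ⟨c₁, c₂, hc⟩ := Submodule.mem_span_pair.mp hx2
    rw [Matrix.mulVecLin_apply] at hc ⊢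
    obtain ⟨h1, h2⟩ := hcomb c₁ c₂ s hs s₀ hs₀ hc.symm
    rw [← hc, h1, h2]
    simp
  have hTfin := Submodule.finrank_sup_add_finrank_inf_eq (S ⊔ gS)
    (Submodule.span F ({t₁, t₂} : Set (ι → F)))
  rw [hinf, finrank_bot, hPfin, hT₀fin] at hTfin
  have hle2 := two_mul_finrank_le_of_ts Q hQ _ hTts
  exact ⟨_, hTts, by omega⟩

end SwapPlus

end Cfsg.Agent.Lib.Helper52
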