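import Mathlib
import Cfsg.Prelude.Def_Classical
import Cfsg.Agent.Lib.Helper47.GUSim
import Cfsg.Agent.Lib.Helper47.DualPoly
import Cfsg.Agent.Lib.Helper47.UnitaryEmb

/-!
# S5984, piece U84-EQMULT (helper52)
-/

set_option autoImplicit false

namespace Cfsg.Agent.Lib.Helper98.U84

open Matrix Polynomial
open Cfsg.Agent.Lib.Helper47

/-- the dual of a linear polynomial -/
theorem u84eqmult_dual_linear {F : Type*} [Field F] (σ : F →+* F) (c : F) (hc : c ≠ 0) :
    dualP σ (X - C c) = X - C (σ c)⁻¹ := by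
  have hσc : σ c ≠ 0 := (map_ne_zero σ).mpr hc
  unfold dualP
  have h1 : (X - C c : F[X]).coeff 0 = -c := by simp
  have h2 : (X - C c : F[X]).map σ = X + C (-σ c) := by
    rw [Polynomial.map_sub, Polynomial.map_X, Polynomial.map_C, C_neg, sub_eq_add_neg]
  have h3 : (X + C (-σ c) : F[X]).reverse = 1 + C (-σ c) * X := by
    rw [reverse_add_C, natDegree_X, pow_one]
    have : (X : F[X]).reverse = 1 := by
      have h := reverse_mul_X (1 : F[X])
      rw [one_mul] at h
      rw [h]
      exact reverse_C 1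
    rw [this]
  rw [h1, h2, h3, map_neg, mul_add, mul_one, ← mul_assoc, ← C_mul, inv_mul_cancel₀ (neg_ne_zero.mpr hσc),
    C_1, one_mul, inv_neg, C_neg]
  ring

theorem eq_mult_of_norm_neg {F : Type*} [Field F] [Fintype F] {q n : ℕ}
    (hF : Fintype.card F = q ^ 2) (h2 : (2 : F) ≠ 0) (M : Matrix (Fin n) (Fin n) F)
    (hpres : ∀ u w, Cfsg.hermForm n F q (M *ᵥ u) (M *ᵥ w) = Cfsg.hermForm n F q u w)
    (lam : F) (hlam : lam ^ (q + 1) = -1) (a b : ℕ)
    (hc : M.charpoly = (X - C lam) ^ a * (X - C (-lam)) ^ b) : a = b := by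
  obtain ⟨σ, hσq, hσ, -⟩ := exists_unitary_data F q hF
  have hB : ∀ u v, uForm σ (M *ᵥ u) (M *ᵥ v) = uForm σ u v := by
    intro u v
    have h := hpres u v
    rw [hermForm_eq q σ hσq, hermForm_eq q σ hσq] at h
    exact h
  have hsT : sT σ M * M = 1 := sT_mul_self_of_unitary hσ hB
  have hMinv : (sT σ M)⁻¹ = M := Matrix.inv_eq_right_inv hsT
  have hdet : IsUnit M.det := by
    have h := congrArg Matrix.det hsT
    rw [Matrix.det_mul, Matrix.det_one, mul_comm] at h
    exact IsUnit.of_mul_eq_one _ h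
  have hcp : M.charpoly = dualP σ M.charpoly := by
    conv_lhs => rw [← hMinv]
    exact charpoly_sT_inv M hdet
  have hlam0 : lam ≠ 0 := by
    intro h0
    rw [h0, zero_pow (Nat.succ_ne_zero q)] at hlam
    have : (1 : F) = 0 := by linear_combination hlam
    exact one_ne_zero this
  have hσlam : (σ lam)⁻¹ = -lam := by
    rw [hσq]
    have h1 : lam ^ q * lam = -1 := by rw [← pow_succ]; exact hlam
    have h3 : lam ^ q * (-lam) = 1 := by linear_combination -h1
    exact inv_eq_of_mul_eq_one_right h3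
  have hσneg : (σ (-lam))⁻¹ = lam := by rw [map_neg, inv_neg, hσlam, neg_neg]
  rw [hc, dualP_mul, dualP_pow, dualP_pow, u84eqmult_dual_linear σ lam hlam0,
    u84eqmult_dual_linear σ (-lam) (neg_ne_zero.mpr hlam0), hσlam, hσneg] at hcp
  have hne : lam ≠ -lam := by
    intro h
    have h3 : (2 : F) * lam = 0 := by linear_combination h
    rcases mul_eq_zero.mp h3 with h4 | h4
    · exact h2 h4
    · exact hlam0 h4
  have hX1 : (X - C lam : F[X]) ≠ 0 := X_sub_C_ne_zero lam
  have hX2 : (X - C (-lam) : F[X]) ≠ 0 := X_sub_C_ne_zero (-lam)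
  have hnr : ∀ k : ℕ, rootMultiplicity lam ((X - C (-lam) : F[X]) ^ k) = 0 := by
    intro k
    apply rootMultiplicity_eq_zero
    rw [IsRoot.def, eval_pow, eval_sub, eval_X, eval_C]
    apply pow_ne_zero
    intro h
    apply hne
    linear_combination h
  have h1 := congrArg (rootMultiplicity lam) hcp
  rw [rootMultiplicity_mul (mul_ne_zero (pow_ne_zero _ hX1) (pow_ne_zero _ hX2)),
    rootMultiplicity_mul (mul_ne_zero (pow_ne_zero _ hX2) (pow_ne_zero _ hX1)),
    rootMultiplicity_X_sub_C_pow, rootMultiplicity_X_sub_C_pow, hnr, hnr] at h1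
  omega

end Cfsg.Agent.Lib.Helper98.U84
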