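import Mathlib

/-!
# S5984, piece U84-RELIDX (helper52)
-/

set_option autoImplicit false

namespace Cfsg.Agent.Lib.Helper98.U84

theorem relIndex_dvd_of_card {G : Type*} [Group G] [Finite G] (H K N : Subgroup G) [N.Normal]
    (a c : ℕ) (ha0 : 0 < a) (ha : a ∣ Nat.card ↥(H ⊓ K)) (hc : Nat.card ↥K = a * c) :
    H.relIndex (K ⊓ N) ∣ c := by
  have key : ∀ X Y : Subgroup G, X ≤ Y → Nat.card X * X.relIndex Y = Nat.card Y := by
    intro X Y hXY
    have h := Subgroup.card_mul_index (X.subgroupOf Y)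
    rw [Nat.card_congr (Subgroup.subgroupOfEquivOfLe hXY).toEquiv] at h
    exact h
  have e1 : H.relIndex (K ⊓ N) = (H ⊓ K ⊓ N).relIndex (K ⊓ N) := by
    rw [← Subgroup.inf_relIndex_right H (K ⊓ N), inf_assoc]
  have hle1 : H ⊓ K ⊓ N ≤ K ⊓ N := inf_le_inf_right N inf_le_right
  have k1 := key (H ⊓ K ⊓ N) (K ⊓ N) hle1
  have k2 := key (H ⊓ K ⊓ N) (H ⊓ K) inf_le_left
  have k3 := key (K ⊓ N) K inf_le_left
  have e2 : (H ⊓ K ⊓ N).relIndex (H ⊓ K) = N.relIndex (H ⊓ K) := by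
    rw [inf_comm]
    exact Subgroup.inf_relIndex_right N (H ⊓ K)
  have e3 : (K ⊓ N).relIndex K = N.relIndex K := by
    rw [inf_comm]
    exact Subgroup.inf_relIndex_right N K
  have hdiv : N.relIndex (H ⊓ K) ∣ N.relIndex K := by
    rw [← Subgroup.relIndex_sup_right (H := H ⊓ K) (K := N),
      ← Subgroup.relIndex_sup_right (H := K) (K := N)]
    have hAK : H ⊓ K ⊔ N ≤ K ⊔ N := sup_le_sup_right inf_le_right N
    exact Dvd.intro _ (Subgroup.relIndex_mul_relIndex N (H ⊓ K ⊔ N) (K ⊔ N) le_sup_right hAK)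
  obtain ⟨a', ha'⟩ := ha
  obtain ⟨w, hw⟩ := hdiv
  rw [e1]
  rw [e2] at k2
  rw [e3, hw, hc] at k3
  rw [ha'] at k2
  generalize (H ⊓ K ⊓ N).relIndex (K ⊓ N) = r at *
  generalize Nat.card ↥(H ⊓ K ⊓ N) = x at *
  generalize N.relIndex (H ⊓ K) = u at *
  generalize Nat.card ↥(K ⊓ N) = y at *
  -- k1 : x * r = y, k2 : x * u = a * a', k3 : y * (u * w) = a * c
  refine ⟨a' * w, ?_⟩
  have h3 : a * (r * (a' * w)) = a * c := by
    calc a * (r * (a' * w)) = (a * a') * r * w := by ring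
      _ = (x * u) * r * w := by rw [k2]
      _ = (x * r) * (u * w) := by ring
      _ = a * c := by rw [k1, k3]
  exact (Nat.eq_of_mul_eq_mul_left ha0 h3).symm

end Cfsg.Agent.Lib.Helper98.U84
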