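import Mathlib
import Cfsg.Prelude.Def_GeometricClasses
import Cfsg.Prelude.Def_LieClassical
import Cfsg.Agent.Lib.Helper71.SUPMain
import Cfsg.Agent.Lib.Helper50.SUQMain

/-!
# Project U9 (helper44, S5832), piece RG1 (helper52)

The first tensor factor of a group of isometries of `G₁ ⊗ G₂` preserves `G₁`.
-/

set_option autoImplicit false
set_option linter.unusedSectionVars false
set_option linter.unusedVariables false

namespace Cfsg.Agent.Lib.Helper44.U9

open Matrix Cfsg.Geo Cfsg.Agent.Lib.Helper71.Asch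
open scoped Kronecker

variable {n : ℕ} {F : Type*} [Field F] [Fintype F] {q : ℕ}

theorem RG1_tensor (G₁ G₂ : Matrix (Fin 3) (Fin 3) F) (u v w w' : Fin 3 → F) :
    formOfGram (fun c : F => c ^ q) (G₁ ⊗ₖ G₂) (fun p : Fin 3 × Fin 3 => u p.1 * w p.2)
      (fun p : Fin 3 × Fin 3 => v p.1 * w' p.2) =
    formOfGram (fun c : F => c ^ q) G₁ u v * formOfGram (fun c : F => c ^ q) G₂ w w' := by
  simp only [formOfGram, Fintype.sum_prod_type, Matrix.kroneckerMap_apply, mul_pow,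
    Finset.sum_mul_sum]
  refine Finset.sum_congr rfl (fun a _ => Finset.sum_congr rfl (fun a' _ =>
    Finset.sum_congr rfl (fun b _ => Finset.sum_congr rfl (fun b' _ => by ring))))

theorem RG1_kron (y : Matrix (Fin 3) (Fin 3) F) (u w : Fin 3 → F) :
    (y ⊗ₖ (1 : Matrix (Fin 3) (Fin 3) F)) *ᵥ (fun p : Fin 3 × Fin 3 => u p.1 * w p.2) =
      fun p : Fin 3 × Fin 3 => (y *ᵥ u) p.1 * w p.2 := by
  funext p
  obtain ⟨i, j⟩ := p
  simp only [Matrix.mulVec, dotProduct, Fintype.sum_prod_type, Matrix.kroneckerMap_apply,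
    Matrix.one_apply]
  rw [Finset.sum_mul]
  refine Finset.sum_congr rfl (fun k _ => ?_)
  rw [Finset.sum_eq_single j]
  · rw [if_pos rfl]
    ring
  · intro l _ hl
    rw [if_neg (Ne.symm hl)]
    ring
  · intro h
    exact absurd (Finset.mem_univ j) h

theorem RG1_reindex (e : Fin n ≃ Fin 3 × Fin 3) (M : Matrix (Fin 3 × Fin 3) (Fin 3 × Fin 3) F)
    (X : Fin 3 × Fin 3 → F) :
    Matrix.reindex e.symm e.symm M *ᵥ (X ∘ e) = (M *ᵥ X) ∘ e := by
  funext i
  simp only [Matrix.mulVec, dotProduct, Matrix.reindex_apply, Matrix.submatrix_apply,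
    Equiv.symm_symm, Function.comp_apply]
  exact Equiv.sum_comp e (fun p => M (e i) p * X p)

/-- RG1: the first tensor factor of a group of isometries preserves the first Gram matrix. -/
theorem RG1 (hF : Fintype.card F = q ^ 2) (e : Fin n ≃ Fin 3 × Fin 3) (P : GL (Fin n) F)
    (G₁ G₂ : Matrix (Fin 3) (Fin 3) F) (hd2 : G₂.det ≠ 0)
    (hid : ∀ x y : Fin 3 × Fin 3 → F,
      Cfsg.hermForm n F q (P.1 *ᵥ (x ∘ e)) (P.1 *ᵥ (y ∘ e)) =
        formOfGram (fun c : F => c ^ q) (G₁ ⊗ₖ G₂) x y)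
    (N : Subgroup (GL (Fin n) F)) (hN : N ≤ Cfsg.GU n F q) (R : Subgroup (GL (Fin 3) F))
    (h2 : ∀ y ∈ R, ∃ x ∈ N, x.1 = tmat e P y.1 1) :
    ∀ y ∈ R, ∀ u v : Fin 3 → F,
      formOfGram (fun c : F => c ^ q) G₁ (y.1 *ᵥ u) (y.1 *ᵥ v) =
        formOfGram (fun c : F => c ^ q) G₁ u v := by
  intro y hy u v
  obtain ⟨x, hxN, hx⟩ := h2 y hy
  have hxU := hN hxN
  have hq0 : q ≠ 0 := by
    rintro rfl
    have h1 : 0 < Fintype.card F := Fintype.card_pos
    rw [hF] at h1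
    norm_num at h1
  -- a non-zero entry of `G₂`
  obtain ⟨a', b', hab⟩ : ∃ a' b', G₂ a' b' ≠ 0 := by
    by_contra hcon
    push_neg at hcon
    apply hd2
    have h0 : G₂ = 0 := by
      ext a b
      exact hcon a b
    rw [h0]
    simp
  have hG2 : formOfGram (fun c : F => c ^ q) G₂ (Pi.single a' 1) (Pi.single b' 1) = G₂ a' b' := by
    unfold formOfGram
    rw [Finset.sum_eq_single a']
    · rw [Finset.sum_eq_single b']
      · simp
      · intro b _ hb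
        rw [Pi.single_eq_of_ne hb]
        show (Pi.single a' 1 : Fin 3 → F) a' * G₂ a' b * (0 : F) ^ q = 0
        rw [zero_pow hq0, mul_zero]
      · intro h
        exact absurd (Finset.mem_univ b') h
    · intro a _ ha
      apply Finset.sum_eq_zero
      intro b _
      rw [Pi.single_eq_of_ne ha, zero_mul, zero_mul]
    · intro h
      exact absurd (Finset.mem_univ a') h
  -- the action of `x` on `P (X ∘ e)`
  have hact : ∀ X : Fin 3 × Fin 3 → F, x.1 *ᵥ (P.1 *ᵥ (X ∘ e)) =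
      P.1 *ᵥ (((y.1 ⊗ₖ (1 : Matrix (Fin 3) (Fin 3) F)) *ᵥ X) ∘ e) := by
    intro X
    rw [hx]
    unfold tmat
    rw [Matrix.mulVec_mulVec, Matrix.mul_assoc, Matrix.mul_assoc, ← Units.val_mul,
      inv_mul_cancel, Units.val_one, Matrix.mul_one, ← Matrix.mulVec_mulVec, RG1_reindex]
  have hpres := hxU (P.1 *ᵥ ((fun p : Fin 3 × Fin 3 => u p.1 * (Pi.single a' 1 : Fin 3 → F) p.2) ∘ e))
    (P.1 *ᵥ ((fun p : Fin 3 × Fin 3 => v p.1 * (Pi.single b' 1 : Fin 3 → F) p.2) ∘ e))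
  have hpres' : Cfsg.hermForm n F q
      (x.1 *ᵥ (P.1 *ᵥ ((fun p : Fin 3 × Fin 3 => u p.1 * (Pi.single a' 1 : Fin 3 → F) p.2) ∘ e)))
      (x.1 *ᵥ (P.1 *ᵥ ((fun p : Fin 3 × Fin 3 => v p.1 * (Pi.single b' 1 : Fin 3 → F) p.2) ∘ e))) =
      Cfsg.hermForm n F q
      (P.1 *ᵥ ((fun p : Fin 3 × Fin 3 => u p.1 * (Pi.single a' 1 : Fin 3 → F) p.2) ∘ e))
      (P.1 *ᵥ ((fun p : Fin 3 × Fin 3 => v p.1 * (Pi.single b' 1 : Fin 3 → F) p.2) ∘ e)) := hpres
  rw [hact, hact, hid, hid, RG1_kron, RG1_kron, RG1_tensor, RG1_tensor, hG2] at hpres'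
  exact mul_right_cancel₀ hab hpres'

end Cfsg.Agent.Lib.Helper44.U9
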